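import Mathlib
import Cfsg.Agent.H47.BG139Defs
import Cfsg.Agent.H63.Sig
import Cfsg.Agent.H47.BG1216Main

/-!
# B&G Theorem 13.9 (S1378), piece ABEL: `Q ≤ M_σ` and `Q` is abelian
-/

set_option autoImplicit false

namespace Cfsg.Agent.H11.BG139

open Cfsg Subgroup Cfsg.Agent.H47.BG139 Cfsg.Agent.H63.Sig Cfsg.Agent.H58.BG10
open scoped Pointwise
open scoped commutatorElement

universe u

variable {G : Type u} [Group G] [Finite G]

theorem abel (h50 : St1350 G) (h23 : Cfsg.Agent.Lib.Helper30.BG12T.St1423 G) : StAbel G := by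
  intro M N Q q hS
  have hq := hS.hq
  haveI : Fact q.Prime := ⟨hq⟩
  have hQM : Q ≤ M := le_normalizer.trans hS.hNM
  have hQN : Q ≤ N := le_normalizer.trans hS.hNN
  have hprime : ∀ p : ℕ, p.Prime → p ∣ Nat.card Q → p = q := by
    intro p hp hpd
    obtain ⟨k, hk⟩ := IsPGroup.iff_card.mp hS.hQq
    rw [hk] at hpd
    exact (Nat.prime_dvd_prime_iff_eq hp hq).mp (hp.dvd_of_dvd_pow hpd)
  have hQMσ : Q ≤ sigmaCore M :=
    Cfsg.Agent.H47.BG12.le_sigmaCore_of_pi h50 hS.hM hQM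
      (fun p hp hpd => by rw [hprime p hp hpd]; exact hS.hqM)
  have hQNσ : Q ≤ sigmaCore N :=
    Cfsg.Agent.H47.BG12.le_sigmaCore_of_pi h50 hS.hN hQN
      (fun p hp hpd => by rw [hprime p hp hpd]; exact hS.hqN)
  refine ⟨hQMσ, ?_⟩
  by_contra hab
  -- the derived subgroup of `Q` is nontrivial
  have hcomm : ⁅Q, Q⁆ ≠ ⊥ := by
    intro h
    apply hab
    intro a ha b hb
    have h1 : ⁅a, b⁆ ∈ ⁅Q, Q⁆ := Subgroup.commutator_mem_commutator ha hb
    rw [h, Subgroup.mem_bot] at h1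
    exact commutatorElement_eq_one_iff_mul_comm.mp h1
  have hcQ : ⁅Q, Q⁆ ≤ Q := by
    rw [Subgroup.commutator_le]
    intro a ha b hb
    rw [commutatorElement_def]
    exact Q.mul_mem (Q.mul_mem (Q.mul_mem ha hb) (Q.inv_mem ha)) (Q.inv_mem hb)
  have hcq : IsPGroup q ↥⁅Q, Q⁆ := hS.hQq.to_le hcQ
  have hqd : q ∣ Nat.card ↥⁅Q, Q⁆ := by
    obtain ⟨k, hk⟩ := IsPGroup.iff_card.mp hcq
    rw [hk]
    have hk0 : k ≠ 0 := by
      intro h0
      rw [h0, pow_zero] at hk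
      exact hcomm (Subgroup.card_eq_one.mp hk)
    exact dvd_pow_self q hk0
  obtain ⟨x, hx⟩ := exists_prime_orderOf_dvd_card' q hqd
  have hxo : orderOf (x : G) = q := by rw [Subgroup.orderOf_coe]; exact hx
  have hXcard : Nat.card (zpowers (x : G)) = q := by rw [Nat.card_zpowers]; exact hxo
  have hXc : zpowers (x : G) ≤ ⁅Q, Q⁆ := by
    rw [Subgroup.zpowers_le]; exact x.2
  have hXM : zpowers (x : G) ≤ M := hXc.trans (hcQ.trans hQM)
  have hXN : zpowers (x : G) ≤ N := hXc.trans (hcQ.trans hQN)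
  have hXMσ : zpowers (x : G) ≤ ⁅sigmaCore M, sigmaCore M⁆ :=
    hXc.trans (Subgroup.commutator_mono hQMσ hQMσ)
  have hXNσ : zpowers (x : G) ≤ ⁅sigmaCore N, sigmaCore N⁆ :=
    hXc.trans (Subgroup.commutator_mono hQNσ hQNσ)
  obtain ⟨PM⟩ : Nonempty (Sylow q ↥(sigmaCore M)) := inferInstance
  obtain ⟨PN⟩ : Nonempty (Sylow q ↥(sigmaCore N)) := inferInstance
  obtain ⟨⟨hCM, huM⟩, -, -⟩ := h23 M hS.hM q hS.hqM (zpowers (x : G)) hXM hXcard PM (Or.inr hXMσ)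
  obtain ⟨⟨hCN, huN⟩, -, -⟩ := h23 N hS.hN q hS.hqN (zpowers (x : G)) hXN hXcard PN (Or.inr hXNσ)
  have hNM : N = M := huM N hS.hN hCN
  apply hS.hnc 1
  rw [cj_one]
  exact hNM

example (h50 : St1350 G) (h23 : Cfsg.Agent.Lib.Helper30.BG12T.St1423 G) : StAbel G :=
  abel h50 h23

end Cfsg.Agent.H11.BG139

#print axioms Cfsg.Agent.H11.BG139.abel
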