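import Mathlib
import Cfsg.Agent.H47.BG139Defs
import Cfsg.Agent.H63.Sig
import Cfsg.Agent.H31.BG8b

/-!
# B&G Theorem 13.9 (S1378), piece RED: a non-conjugate pair with a common `σ`-prime yields a
normalised configuration
-/

set_option autoImplicit false

namespace Cfsg.Agent.H11.BG139

open Cfsg Subgroup Cfsg.Agent.H47.BG139 Cfsg.Agent.H63.Sig
open scoped Pointwise

universe u

variable {G : Type u} [Group G] [Finite G]

/-- The normalizer of a conjugate lies in the conjugate of any overgroup of the normalizer. -/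
theorem normalizer_cj_le (g : G) (T N : Subgroup G) (h : normalizer (T : Set G) ≤ N) :
    normalizer ((MulAut.conj g • T : Subgroup G) : Set G) ≤ MulAut.conj g • N := by
  intro x hx
  rw [mem_cj]
  apply h
  rw [mem_normalizer_iff]
  intro t
  have h1 := (mem_normalizer_iff.mp hx) (g * t * g⁻¹)
  rw [mem_cj, mem_cj] at h1
  have e1 : g⁻¹ * (g * t * g⁻¹) * g = t := by group
  have e2 : g⁻¹ * (x * (g * t * g⁻¹) * x⁻¹) * g = g⁻¹ * x * g * t * (g⁻¹ * x * g)⁻¹ := by group
  rw [e1, e2] at h1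
  exact h1

theorem red : StRed G := by
  intro M N q hM hN hqM hqN hnc
  obtain ⟨hq, hqdM, PM, hPM⟩ := hqM
  obtain ⟨-, hqdN, PN, hPN⟩ := hqN
  haveI : Fact q.Prime := ⟨hq⟩
  obtain ⟨TM, hTM⟩ := Cfsg.Agent.H31.BG8.sylow_of_normalizer_le PM hPM
  obtain ⟨TN, hTN⟩ := Cfsg.Agent.H31.BG8.sylow_of_normalizer_le PN hPN
  obtain ⟨h, hh⟩ := MulAction.exists_smul_eq G TN TM
  have hh' : MulAut.conj h • (TN : Subgroup G) = (TM : Subgroup G) := by
    rw [← hh, Sylow.coe_subgroup_smul]
  have hTNN : (TN : Subgroup G) ≤ N := by rw [hTN]; exact Subgroup.map_subtype_le _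
  have hTMM : (TM : Subgroup G) ≤ M := by rw [hTM]; exact Subgroup.map_subtype_le _
  have hNM : normalizer ((TM : Subgroup G) : Set G) ≤ M := by rw [hTM]; exact hPM
  have hNN0 : normalizer ((TN : Subgroup G) : Set G) ≤ N := by rw [hTN]; exact hPN
  have hNN : normalizer ((TM : Subgroup G) : Set G) ≤ MulAut.conj h • N := by
    rw [← hh']
    exact normalizer_cj_le h _ _ hNN0
  have hTMN : (TM : Subgroup G) ≤ MulAut.conj h • N := by
    rw [← hh']; exact cj_mono h hTNN
  refine ⟨h, (TM : Subgroup G), ?_⟩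
  refine
    { hM := hM
      hN := isCoatom_cj h hN
      hq := hq
      hqM := ⟨hq, hqdM, PM, hPM⟩
      hqN := ?_
      hQq := TM.isPGroup'
      hQ1 := ?_
      hQi := TM.not_dvd_index
      hNM := hNM
      hNN := hNN
      hnc := ?_ }
  · refine ⟨hq, ?_, TM.subtype hTMN, ?_⟩
    · rw [card_cj]; exact hqdN
    · rw [Sylow.coe_subtype, Subgroup.map_subgroupOf_eq_of_le hTMN]
      exact hNN
  · apply Sylow.ne_bot_of_dvd_card
    exact hqdM.trans (Subgroup.card_subgroup_dvd_card M)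
  · intro g' hg'
    apply hnc (h⁻¹ * g')
    rw [cj_mul, ← hg', cj_inv_cj]

example : StRed G := red

end Cfsg.Agent.H11.BG139

#print axioms Cfsg.Agent.H11.BG139.red
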