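import Mathlib
import Cfsg.Agent.H33.C3.Defs

/-!
# S2071 (helper33's project), piece C3-U551: the table vector number 551 is `leechU`
-/

set_option autoImplicit false

namespace Cfsg.Agent.H11.C3

open Cfsg Cfsg.Agent.H9 Cfsg.Agent.H33 Cfsg.Agent.H33.C3

theorem u551_aux : ∀ p : GolayPt, vec (fldW 192 LF552E 551) p = Cfsg.Spor.vecU p := by
  decide +kernel

theorem u551 : StU551 := funext u551_aux

example : Cfsg.Agent.H33.C3.StU551 := u551

end Cfsg.Agent.H11.C3

#print axioms Cfsg.Agent.H11.C3.u551
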