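import Cfsg.Agent.H11.Cores
import Cfsg.Agent.S0017
import Cfsg.Agent.S0028

set_option autoImplicit false

namespace Cfsg.Agent.H11

open Pointwise

variable {G : Type*} [Group G]

/-- A nontrivial `2`-group contains an involution that is central in it. -/
theorem exists_central_involution [Finite G] (T : Subgroup G) (hT : IsPGroup 2 T) (hT1 : T ≠ ⊥) :
    ∃ t ∈ T, orderOf t = 2 ∧ ∀ x ∈ T, x * t = t * x := by
  have : Fact (Nat.Prime 2) := ⟨Nat.prime_two⟩
  have hnt : Nontrivial T := (Subgroup.nontrivial_iff_ne_bot T).mpr hT1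
  have hcn : Nontrivial (Subgroup.center T) := hT.center_nontrivial
  have hcp : IsPGroup 2 (Subgroup.center T) := hT.to_subgroup _
  have h2 : 2 ∣ Nat.card (Subgroup.center T) := by
    obtain ⟨k, hk⟩ := hcp.exists_card_eq
    rcases Nat.eq_zero_or_pos k with rfl | hk0
    · rw [pow_zero] at hk
      have := (Subgroup.nontrivial_iff_ne_bot _).mp hcn
      exact absurd (Subgroup.card_eq_one.mp hk) this
    · rw [hk]; exact dvd_pow_self 2 hk0.ne'
  obtain ⟨z, hz⟩ := exists_prime_orderOf_dvd_card' 2 h2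
  refine ⟨((z : T) : G), (z : T).2, ?_, ?_⟩
  · rw [Subgroup.orderOf_coe, Subgroup.orderOf_coe]; exact hz
  · intro x hx
    have := Subgroup.mem_center_iff.mp z.2 ⟨x, hx⟩
    exact congrArg Subtype.val this

/-- Key lemma: under the hypotheses of the characteristic-2-type criterion, a subgroup `K` of odd
order that normalizes a nontrivial `2`-subgroup `T` and is normalized by `N_G(T)` is trivial. -/
theorem odd_normal_eq_bot [Finite G]
    (hs : ∀ t : G, orderOf t = 2 → Group.IsSolvable (Subgroup.centralizer ({t} : Set G)))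
    (hc : ∀ t : G, orderOf t = 2 → Cfsg.oddCore (Subgroup.centralizer ({t} : Set G)) = ⊥)
    (T : Subgroup G) (hT : IsPGroup 2 T) (hT1 : T ≠ ⊥) (K : Subgroup G)
    (hK : (Nat.card K).Coprime 2) (hKN : K ≤ Subgroup.normalizer (T : Set G))
    (hNK : Subgroup.normalizer (T : Set G) ≤ Subgroup.normalizer (K : Set G)) : K = ⊥ := by
  have : Fact (Nat.Prime 2) := ⟨Nat.prime_two⟩
  obtain ⟨t, htT, ht2, htc⟩ := exists_central_involution T hT hT1
  set C : Subgroup G := Subgroup.centralizer ({t} : Set G) with hCdef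
  have hsolv : Group.IsSolvable C := hs t ht2
  have hodd : Cfsg.pPrimeCore 2 C = ⊥ := hc t ht2
  have hchar : Subgroup.centralizer (Cfsg.pCore 2 C : Set C) ≤ Cfsg.pCore 2 C :=
    Cfsg.Agent.S0017.result 2 hodd
  set R : Subgroup G := (Cfsg.pCore 2 C).map C.subtype with hRdef
  have hR2 : IsPGroup 2 R := (isPGroup_pCore 2).map _
  have hRn : ∀ c ∈ C, ∀ x ∈ R, c * x * c⁻¹ ∈ R := by
    intro c hcC x hx
    obtain ⟨y, hy, rfl⟩ := Subgroup.mem_map.mp hx
    refine Subgroup.mem_map.mpr ⟨⟨c, hcC⟩ * y * ⟨c, hcC⟩⁻¹, ?_, rfl⟩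
    exact (Cfsg.pCore_normal 2 C).conj_mem y hy ⟨c, hcC⟩
  have hCR : C ≤ Subgroup.normalizer (R : Set G) := le_normalizer_of_conj_mem hRn
  have hTcard : (Nat.card K).Coprime (Nat.card T) := by
    obtain ⟨k, hk⟩ := hT.exists_card_eq
    rw [hk]
    exact Nat.Coprime.pow_right k hK
  have hKT : K ⊓ T = ⊥ := (Subgroup.disjoint_of_coprime_natCard hTcard).eq_bot
  have hTN : T ≤ Subgroup.normalizer (T : Set G) := Subgroup.le_normalizer
  -- `K` centralizes `T`
  have hcomm : ∀ k ∈ K, ∀ x ∈ T, k * x = x * k := by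
    intro k hk x hx
    have h1 : k * x * k⁻¹ * x⁻¹ ∈ K := by
      have h2 : x * k⁻¹ * x⁻¹ ∈ K :=
        conj_mem_of_mem_normalizer (hNK (hTN hx)) (K.inv_mem hk)
      have e : k * x * k⁻¹ * x⁻¹ = k * (x * k⁻¹ * x⁻¹) := by group
      rw [e]
      exact K.mul_mem hk h2
    have h2 : k * x * k⁻¹ * x⁻¹ ∈ T :=
      T.mul_mem (conj_mem_of_mem_normalizer (hKN hk) hx) (T.inv_mem hx)
    have h3 : k * x * k⁻¹ * x⁻¹ ∈ K ⊓ T := ⟨h1, h2⟩
    rw [hKT, Subgroup.mem_bot] at h3
    have e : k * x = (k * x * k⁻¹ * x⁻¹) * (x * k) := by group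
    rw [e, h3, one_mul]
  have hKC : K ≤ C := by
    intro k hk
    rw [hCdef, Subgroup.mem_centralizer_iff]
    intro y hy
    rw [Set.mem_singleton_iff.mp hy]
    exact (hcomm k hk t htT).symm
  have hTC : T ≤ C := by
    intro x hx
    rw [hCdef, Subgroup.mem_centralizer_iff]
    intro y hy
    rw [Set.mem_singleton_iff.mp hy]
    exact (htc x hx).symm
  have hKR : (Nat.card K).Coprime (Nat.card R) := by
    obtain ⟨k, hk⟩ := hR2.exists_card_eq
    rw [hk]
    exact Nat.Coprime.pow_right k hK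
  have hKRbot : K ⊓ R = ⊥ := (Subgroup.disjoint_of_coprime_natCard hKR).eq_bot
  have hcent : K ≤ Subgroup.centralizer (R : Set G) := by
    apply Cfsg.Agent.S0028.result 2 T K R hT hK hR2
    · intro x hx
      rw [Subgroup.mem_centralizer_iff]
      intro k hk
      exact hcomm k hk x hx
    · exact hTC.trans hCR
    · exact hKC.trans hCR
    · rintro x ⟨hxR, hxT⟩
      rw [Subgroup.mem_centralizer_iff]
      intro k hk
      have hxN : x ∈ Subgroup.normalizer (T : Set G) :=
        Subgroup.centralizer_le_normalizer _ hxT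
      have h1 : x * k * x⁻¹ * k⁻¹ ∈ K :=
        K.mul_mem (conj_mem_of_mem_normalizer (hNK hxN) hk) (K.inv_mem hk)
      have h2 : x * k * x⁻¹ * k⁻¹ ∈ R := by
        have h3 : k * x⁻¹ * k⁻¹ ∈ R := hRn k (hKC hk) _ (R.inv_mem hxR)
        have e : x * k * x⁻¹ * k⁻¹ = x * (k * x⁻¹ * k⁻¹) := by group
        rw [e]
        exact R.mul_mem hxR h3
      have h3 : x * k * x⁻¹ * k⁻¹ ∈ K ⊓ R := ⟨h1, h2⟩
      rw [hKRbot, Subgroup.mem_bot] at h3
      have e : x * k = (x * k * x⁻¹ * k⁻¹) * (k * x) := by group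
      rw [e, h3, one_mul]
  have hKleR : K ≤ R := by
    intro k hk
    have hkc : (⟨k, hKC hk⟩ : C) ∈ Subgroup.centralizer (Cfsg.pCore 2 C : Set C) := by
      rw [Subgroup.mem_centralizer_iff]
      intro y hy
      apply Subtype.ext
      have hyR : (y : G) ∈ R := Subgroup.mem_map.mpr ⟨y, hy, rfl⟩
      exact Subgroup.mem_centralizer_iff.mp (hcent hk) _ hyR
    exact Subgroup.mem_map.mpr ⟨⟨k, hKC hk⟩, hchar hkc, rfl⟩
  rw [← hKRbot]
  exact (inf_eq_left.mpr hKleR).symm

/-- If all involution centralizers are solvable with trivial core, then every `2`-local subgroup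
`N_G(T)` satisfies `C(O_2) ≤ O_2`. -/
theorem isOfCharacteristicTwo_normalizer [Finite G]
    (hs : ∀ t : G, orderOf t = 2 → Group.IsSolvable (Subgroup.centralizer ({t} : Set G)))
    (hc : ∀ t : G, orderOf t = 2 → Cfsg.oddCore (Subgroup.centralizer ({t} : Set G)) = ⊥)
    (T : Subgroup G) (hT : IsPGroup 2 T) (hT1 : T ≠ ⊥) :
    Cfsg.IsOfCharacteristicTwo (Subgroup.normalizer (T : Set G)) := by
  have : Fact (Nat.Prime 2) := ⟨Nat.prime_two⟩
  set N : Subgroup G := Subgroup.normalizer (T : Set G) with hNdef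
  -- Step 2: `O(N) = 1`
  have hON : Cfsg.pPrimeCore 2 N = ⊥ := by
    rw [eq_bot_iff]
    apply sSup_le
    rintro K₀ ⟨hK₀n, hK₀c⟩
    have hK : K₀.map N.subtype = ⊥ := by
      apply odd_normal_eq_bot hs hc T hT hT1
      · rw [Subgroup.card_map_of_injective N.subtype_injective]; exact hK₀c
      · intro x hx
        obtain ⟨y, -, rfl⟩ := Subgroup.mem_map.mp hx
        exact y.2
      · apply le_normalizer_of_conj_mem
        intro n hn x hx
        obtain ⟨y, hy, rfl⟩ := Subgroup.mem_map.mp hx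
        exact Subgroup.mem_map.mpr ⟨⟨n, hn⟩ * y * ⟨n, hn⟩⁻¹, hK₀n.conj_mem y hy ⟨n, hn⟩, rfl⟩
    rw [(Subgroup.map_eq_bot_iff_of_injective K₀ N.subtype_injective).mp hK]
  -- Step 3
  obtain ⟨t, htT, ht2, -⟩ := exists_central_involution T hT hT1
  set Q : Subgroup N := Cfsg.pCore 2 N with hQdef
  have hTQ : T.subgroupOf N ≤ Q :=
    le_sSup ⟨Subgroup.normal_in_normalizer, hT.comap_subtype⟩
  set X : Subgroup N := Subgroup.centralizer (Q : Set N) with hXdef
  have hXn : X.Normal := Subgroup.normal_centralizer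
  have htN : t ∈ N := Subgroup.le_normalizer htT
  have htQ : (⟨t, htN⟩ : N) ∈ Q := hTQ (by rw [Subgroup.mem_subgroupOf]; exact htT)
  -- `X` is solvable
  have hsolvC : Group.IsSolvable (Subgroup.centralizer ({t} : Set G)) := hs t ht2
  have hXC : ∀ x : X, ((x : N) : G) ∈ Subgroup.centralizer ({t} : Set G) := by
    intro x
    rw [Subgroup.mem_centralizer_iff]
    intro y hy
    rw [Set.mem_singleton_iff.mp hy]
    have := Subgroup.mem_centralizer_iff.mp x.2 _ htQ
    exact congrArg Subtype.val this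
  let ψ : X →* Subgroup.centralizer ({t} : Set G) :=
    { toFun := fun x => ⟨((x : N) : G), hXC x⟩
      map_one' := rfl
      map_mul' := fun _ _ => rfl }
  have hψ : Function.Injective ψ := by
    intro x y hxy
    have h1 : ((x : N) : G) = ((y : N) : G) :=
      congrArg (fun z : Subgroup.centralizer ({t} : Set G) => (z : G)) hxy
    exact Subtype.ext (Subtype.ext h1)
  have hXsolv : Group.IsSolvable X := Group.isSolvable_of_isSolvable_injective hψ
  -- `O(X) = 1`
  have hOX : Cfsg.pPrimeCore 2 X = ⊥ := by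
    have hch : (Cfsg.pPrimeCore 2 X).Characteristic := pPrimeCore_characteristic 2
    have hnorm : ((Cfsg.pPrimeCore 2 X).map X.subtype).Normal := inferInstance
    have hcop : (Nat.card ((Cfsg.pPrimeCore 2 X).map X.subtype)).Coprime 2 := by
      rw [Subgroup.card_map_of_injective X.subtype_injective]
      exact card_pPrimeCore_coprime 2
    have hle : (Cfsg.pPrimeCore 2 X).map X.subtype ≤ Cfsg.pPrimeCore 2 N :=
      le_sSup ⟨hnorm, hcop⟩
    rw [hON, le_bot_iff] at hle
    exact (Subgroup.map_eq_bot_iff_of_injective _ X.subtype_injective).mp hle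
  have hcharX : Subgroup.centralizer (Cfsg.pCore 2 X : Set X) ≤ Cfsg.pCore 2 X :=
    Cfsg.Agent.S0017.result 2 hOX
  have hD : (Cfsg.pCore 2 X).map X.subtype ≤ Q := by
    have hch : (Cfsg.pCore 2 X).Characteristic := pCore_characteristic 2
    have hnorm : ((Cfsg.pCore 2 X).map X.subtype).Normal := inferInstance
    exact le_sSup ⟨hnorm, (isPGroup_pCore 2).map _⟩
  -- conclusion
  intro x hx
  have hxc : (⟨x, hx⟩ : X) ∈ Subgroup.centralizer (Cfsg.pCore 2 X : Set X) := by
    rw [Subgroup.mem_centralizer_iff]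
    intro y hy
    apply Subtype.ext
    have hyQ : (y : N) ∈ Q := hD (Subgroup.mem_map.mpr ⟨y, hy, rfl⟩)
    exact Subgroup.mem_centralizer_iff.mp hx _ hyQ
  exact hD (Subgroup.mem_map.mpr ⟨⟨x, hx⟩, hcharX hxc, rfl⟩)

end Cfsg.Agent.H11
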