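import Cfsg.Agent.H93.ConwayDefs

set_option autoImplicit false

/-! S0406 piece C-CODE: the binary code of the lattice is linear, doubly even, and has no words of
weight 4. -/

namespace Cfsg.Agent.H11.Conway

open Cfsg.Agent.H93.Conway

theorem half_cast_eq_zero_iff (a : ℤ) (ha : (2 : ℤ) ∣ a) :
    (((a / 2 : ℤ) : ZMod 2) = 0) ↔ (4 : ℤ) ∣ a := by
  rw [ZMod.intCast_zmod_eq_zero_iff_dvd]
  obtain ⟨m, rfl⟩ := ha
  rw [Int.mul_ediv_cancel_left m (by norm_num)]
  push_cast
  omega

theorem half_cast_ne_zero_iff (a : ℤ) (ha : (2 : ℤ) ∣ a) :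
    (((a / 2 : ℤ) : ZMod 2) ≠ 0) ↔ a % 4 = 2 := by
  rw [Ne, half_cast_eq_zero_iff a ha]
  obtain ⟨m, rfl⟩ := ha
  omega

theorem half_sq_mod_four (a : ℤ) (ha : (2 : ℤ) ∣ a) :
    (a / 2) ^ 2 % 4 = if (((a / 2 : ℤ) : ZMod 2) ≠ 0) then 1 else 0 := by
  by_cases h : (((a / 2 : ℤ) : ZMod 2) ≠ 0)
  · rw [if_pos h]
    rw [half_cast_ne_zero_iff a ha] at h
    obtain ⟨k, hk⟩ : ∃ k, a / 2 = 2 * k + 1 := ⟨a / 4, by omega⟩
    rw [hk]
    have : (2 * k + 1) ^ 2 = 1 + 4 * (k ^ 2 + k) := by ring
    rw [this, Int.add_mul_emod_self_left]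
    rfl
  · rw [if_neg h]
    rw [not_not, half_cast_eq_zero_iff a ha] at h
    obtain ⟨k, hk⟩ : ∃ k, a / 2 = 2 * k := ⟨a / 4, by omega⟩
    rw [hk]
    have : (2 * k) ^ 2 = 0 + 4 * (k ^ 2) := by ring
    rw [this, Int.add_mul_emod_self_left]
    rfl

theorem code : StmtCode := by
  intro hL4 Λ hΛ
  classical
  refine ⟨{ carrier := codeOf Λ, add_mem' := ?_, zero_mem' := ?_, smul_mem' := ?_ }, rfl, ?_, ?_⟩
  · rintro c c' ⟨x, hx, hxe, hc⟩ ⟨x', hx', hxe', hc'⟩
    refine ⟨x + x', Λ.add_mem hx hx', fun i => dvd_add (hxe i) (hxe' i), fun i => ?_⟩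
    rw [Pi.add_apply, Pi.add_apply, hc i, hc' i, Int.add_ediv_of_dvd_left (hxe i)]
    push_cast
    rfl
  · exact ⟨0, Λ.zero_mem, fun i => dvd_zero _, fun i => by simp⟩
  · rintro r c ⟨x, hx, hxe, hc⟩
    have hr : r = 0 ∨ r = 1 := by
      fin_cases r
      · left; rfl
      · right; rfl
    rcases hr with rfl | rfl
    · rw [zero_smul]
      exact ⟨0, Λ.zero_mem, fun i => dvd_zero _, fun i => by simp⟩
    · rw [one_smul]
      exact ⟨x, hx, hxe, hc⟩
  · -- doubly even
    intro w hw
    obtain ⟨x, hx, hxe, hc⟩ : w ∈ codeOf Λ := hw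
    have h16 := hΛ.h16 x hx
    have hsum : ∑ i, x i ^ 2 = 4 * ∑ i, (x i / 2) ^ 2 := by
      rw [Finset.mul_sum]
      apply Finset.sum_congr rfl
      intro i _
      obtain ⟨m, hm⟩ := hxe i
      rw [hm, Int.mul_ediv_cancel_left m (by norm_num)]
      ring
    have h4 : (4 : ℤ) ∣ ∑ i, (x i / 2) ^ 2 := by
      rw [hsum] at h16
      omega
    have hmod : (∑ i, (x i / 2) ^ 2) % 4 = ((hammingNorm w : ℕ) : ℤ) % 4 := by
      rw [Finset.sum_int_mod]
      have hterm : ∀ i, (x i / 2) ^ 2 % 4 = if w i ≠ 0 then 1 else 0 := fun i => by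
        rw [hc i]
        exact half_sq_mod_four (x i) (hxe i)
      simp only [hterm]
      rw [Finset.sum_boole]
      rfl
    omega
  · -- no words of weight 4
    intro w hw h4
    obtain ⟨x, hx, hxe, hc⟩ : w ∈ codeOf Λ := hw
    have hcard : (Finset.univ.filter (fun i => w i ≠ 0)).card = 4 := by
      unfold hammingNorm at h4
      convert h4
    obtain ⟨i0, hi0⟩ : ∃ i0, w i0 ≠ 0 := by
      by_contra hcon
      push Not at hcon
      have : Finset.univ.filter (fun i => w i ≠ 0) = ∅ := by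
        ext i
        simp [hcon i]
      rw [this] at hcard
      simp at hcard
    obtain ⟨d0, hd0⟩ : ∃ d0 : Fin 24 → ℤ, d0 = fun i => if w i ≠ 0 then 2 else 0 := ⟨_, rfl⟩
    have hd0p : ∀ i, w i ≠ 0 → d0 i = 2 := fun i hi => by rw [hd0]; exact if_pos hi
    have hd0n : ∀ i, ¬ (w i ≠ 0) → d0 i = 0 := fun i hi => by rw [hd0]; exact if_neg hi
    have hy0 : ∀ i, (4 : ℤ) ∣ x i - d0 i := by
      intro i
      by_cases hwi : w i ≠ 0
      · have h1 : x i % 4 = 2 :=
          (half_cast_ne_zero_iff (x i) (hxe i)).mp (by rw [← hc i]; exact hwi)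
        rw [hd0p i hwi]
        omega
      · have h1 : (4 : ℤ) ∣ x i :=
          (half_cast_eq_zero_iff (x i) (hxe i)).mp (by rw [← hc i]; exact not_not.mp hwi)
        rw [hd0n i hwi]
        omega
    have hsq0 : ∑ i, d0 i ^ 2 = 16 := by
      have hterm : ∀ i, d0 i ^ 2 = if w i ≠ 0 then 4 else 0 := by
        intro i
        by_cases hwi : w i ≠ 0
        · rw [hd0p i hwi, if_pos hwi]; norm_num
        · rw [hd0n i hwi, if_neg hwi]; norm_num
      simp only [hterm]
      rw [Finset.sum_ite, Finset.sum_const_zero, add_zero, Finset.sum_const, hcard]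
      norm_num
    have key : ∀ d : Fin 24 → ℤ, (∀ i, (4 : ℤ) ∣ x i - d i) → (8 : ℤ) ∣ ∑ i, (x i - d i) →
        ∑ i, d i ^ 2 = 16 → d ≠ 0 → False := by
      intro d h1 h2 h3 h4
      have hy : (fun i => x i - d i) ∈ Λ := (hL4 Λ hΛ _ h1).mp h2
      have hd : d ∈ Λ := by
        have : d = x - (fun i => x i - d i) := by
          ext i
          simp
        rw [this]
        exact Λ.sub_mem hx hy
      have := hΛ.h32 d hd h4
      omega
    by_cases h8 : (8 : ℤ) ∣ ∑ i, (x i - d0 i)
    · apply key d0 hy0 h8 hsq0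
      intro h
      have := congrFun h i0
      rw [hd0p i0 hi0] at this
      norm_num at this
    · obtain ⟨d1, hd1⟩ : ∃ d1 : Fin 24 → ℤ, d1 = fun i => if i = i0 then -2 else d0 i := ⟨_, rfl⟩
      have hd1p : d1 i0 = -2 := by rw [hd1]; exact if_pos rfl
      have hd1n : ∀ i, i ≠ i0 → d1 i = d0 i := fun i hi => by rw [hd1]; exact if_neg hi
      apply key d1
      · intro i
        by_cases hi : i = i0
        · subst hi
          have := hy0 i
          rw [hd0p i hi0] at this
          rw [hd1p]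
          omega
        · rw [hd1n i hi]
          exact hy0 i
      · have hs : ∑ i, (x i - d1 i) = ∑ i, (x i - d0 i) + 4 := by
          have hterm : ∀ i, x i - d1 i = (x i - d0 i) + (if i = i0 then 4 else 0) := by
            intro i
            by_cases hi : i = i0
            · subst hi
              rw [hd1p, hd0p i hi0, if_pos rfl]
              ring
            · rw [hd1n i hi, if_neg hi]
              ring
          simp only [hterm]
          rw [Finset.sum_add_distrib, Finset.sum_ite_eq']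
          simp
        have h4' : (4 : ℤ) ∣ ∑ i, (x i - d0 i) := Finset.dvd_sum (fun i _ => hy0 i)
        rw [hs]
        omega
      · have hterm : ∀ i, d1 i ^ 2 = d0 i ^ 2 := by
          intro i
          by_cases hi : i = i0
          · subst hi
            rw [hd1p, hd0p i hi0]
            norm_num
          · rw [hd1n i hi]
        simp only [hterm]
        exact hsq0
      · intro h
        have := congrFun h i0
        rw [hd1p] at this
        norm_num at this

example : Cfsg.Agent.H93.Conway.StmtCode := code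

end Cfsg.Agent.H11.Conway

#print axioms Cfsg.Agent.H11.Conway.code
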