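import Cfsg.Agent.H93.ConwayDefs
import Cfsg.Agent.H11.ConwayCode

set_option autoImplicit false

/-! S0406 piece C-SHAPE: the three shapes of the vectors of squared length 32. -/

namespace Cfsg.Agent.H11.Conway

open Cfsg.Agent.H93.Conway

theorem int_sq_le_two {k : ℤ} (hk : k ≠ 0) (h : k ^ 2 ≤ 2) : k = 1 ∨ k = -1 := by
  have h1 : k ≤ 1 := by
    by_contra hc
    push Not at hc
    nlinarith
  have h2 : -1 ≤ k := by
    by_contra hc
    push Not at hc
    nlinarith
  omega

theorem shape : StmtShape := by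
  intro hL4 hCode hOdd Λ hΛ x hx hsum
  classical
  by_cases hpar0 : x 0 % 2 = 1
  · right; right
    apply hOdd x _ hsum
    intro i
    have := hΛ.hpar x hx i 0
    omega
  have hxe : ∀ i, (2 : ℤ) ∣ x i := fun i => by
    have := hΛ.hpar x hx i 0
    omega
  obtain ⟨C, hC, hde, hn4⟩ := hCode hL4 Λ hΛ
  obtain ⟨w, hw⟩ : ∃ w : Fin 24 → ZMod 2, w = fun i => ((x i / 2 : ℤ) : ZMod 2) := ⟨_, rfl⟩
  have hwi : ∀ i, w i = ((x i / 2 : ℤ) : ZMod 2) := fun i => by rw [hw]
  have hwC : w ∈ C := by
    have h1 : w ∈ codeOf Λ := ⟨x, hx, hxe, hwi⟩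
    rw [← hC] at h1
    exact h1
  have h4 := hde w hwC
  have hne4 := hn4 w hwC
  have hcardS : hammingNorm w = (Finset.univ.filter (fun i => w i ≠ 0)).card := by
    unfold hammingNorm
    congr
  have hm : ∑ i, (x i / 2) ^ 2 = 8 := by
    have h1 : ∑ i, x i ^ 2 = 4 * ∑ i, (x i / 2) ^ 2 := by
      rw [Finset.mul_sum]
      apply Finset.sum_congr rfl
      intro i _
      obtain ⟨m, hm⟩ := hxe i
      rw [hm, Int.mul_ediv_cancel_left m (by norm_num)]
      ring
    omega
  have hf : ∀ i, 0 ≤ (x i / 2) ^ 2 - (if w i ≠ 0 then (1 : ℤ) else 0) := by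
    intro i
    by_cases hi : w i ≠ 0
    · rw [if_pos hi]
      have h1 : x i % 4 = 2 :=
        (half_cast_ne_zero_iff (x i) (hxe i)).mp (by rw [← hwi i]; exact hi)
      have h2 : x i / 2 ≠ 0 := by omega
      have h3 : 0 < (x i / 2) ^ 2 := by positivity
      omega
    · rw [if_neg hi]
      have := sq_nonneg (x i / 2)
      omega
  have hfsum : ∑ i, ((x i / 2) ^ 2 - (if w i ≠ 0 then (1 : ℤ) else 0)) =
      8 - (hammingNorm w : ℤ) := by
    rw [Finset.sum_sub_distrib, hm, Finset.sum_boole, hcardS]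
  have hle : hammingNorm w ≤ 8 := by
    have := Finset.sum_nonneg (fun i _ => hf i) (s := Finset.univ)
    rw [hfsum] at this
    omega
  have h08 : hammingNorm w = 0 ∨ hammingNorm w = 8 := by omega
  rcases h08 with h0 | h8
  · -- first shape
    left
    have hw0 : ∀ i, w i = 0 := by
      intro i
      by_contra hi
      have hmem : i ∈ Finset.univ.filter (fun i => w i ≠ 0) := by simp [hi]
      rw [h0] at hcardS
      have hemp := Finset.card_eq_zero.mp hcardS.symm
      rw [hemp] at hmem
      simp at hmem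
    have h4x : ∀ i, (4 : ℤ) ∣ x i := fun i =>
      (half_cast_eq_zero_iff (x i) (hxe i)).mp (by rw [← hwi i]; exact hw0 i)
    have hk : ∑ i, (x i / 4) ^ 2 = 2 := by
      have h1 : ∑ i, x i ^ 2 = 16 * ∑ i, (x i / 4) ^ 2 := by
        rw [Finset.mul_sum]
        apply Finset.sum_congr rfl
        intro i _
        obtain ⟨m, hm⟩ := h4x i
        rw [hm, Int.mul_ediv_cancel_left m (by norm_num)]
        ring
      omega
    obtain ⟨i, hi⟩ : ∃ i, x i / 4 ≠ 0 := by
      by_contra hcon
      push Not at hcon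
      have : ∑ i, (x i / 4) ^ 2 = 0 :=
        Finset.sum_eq_zero (fun i _ => by rw [hcon i]; norm_num)
      omega
    have hsplit1 : (x i / 4) ^ 2 + ∑ l ∈ Finset.univ.erase i, (x l / 4) ^ 2 =
        ∑ l, (x l / 4) ^ 2 :=
      Finset.add_sum_erase Finset.univ (fun l => (x l / 4) ^ 2) (Finset.mem_univ i)
    have hnn1 : 0 ≤ ∑ l ∈ Finset.univ.erase i, (x l / 4) ^ 2 :=
      Finset.sum_nonneg (fun l _ => sq_nonneg _)
    have hi1 : x i / 4 = 1 ∨ x i / 4 = -1 := int_sq_le_two hi (by omega)
    have hi2 : (x i / 4) ^ 2 = 1 := by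
      rcases hi1 with h | h <;> rw [h] <;> norm_num
    have hrest1 : ∑ l ∈ Finset.univ.erase i, (x l / 4) ^ 2 = 1 := by omega
    obtain ⟨j, hjm, hj⟩ : ∃ j ∈ Finset.univ.erase i, x j / 4 ≠ 0 := by
      by_contra hcon
      push Not at hcon
      have : ∑ l ∈ Finset.univ.erase i, (x l / 4) ^ 2 = 0 :=
        Finset.sum_eq_zero (fun l hl => by rw [hcon l hl]; norm_num)
      omega
    have hsplit2 : (x j / 4) ^ 2 + ∑ l ∈ (Finset.univ.erase i).erase j, (x l / 4) ^ 2 =
        ∑ l ∈ Finset.univ.erase i, (x l / 4) ^ 2 :=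
      Finset.add_sum_erase (Finset.univ.erase i) (fun l => (x l / 4) ^ 2) hjm
    have hnn2 : 0 ≤ ∑ l ∈ (Finset.univ.erase i).erase j, (x l / 4) ^ 2 :=
      Finset.sum_nonneg (fun l _ => sq_nonneg _)
    have hj1 : x j / 4 = 1 ∨ x j / 4 = -1 := int_sq_le_two hj (by omega)
    have hj2 : (x j / 4) ^ 2 = 1 := by
      rcases hj1 with h | h <;> rw [h] <;> norm_num
    have hrest2 : ∑ l ∈ (Finset.univ.erase i).erase j, (x l / 4) ^ 2 = 0 := by omega
    have hzero : ∀ l, l ≠ i → l ≠ j → x l / 4 = 0 := by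
      intro l hli hlj
      have hl : l ∈ (Finset.univ.erase i).erase j := by simp [hli, hlj]
      have h1 := (Finset.sum_eq_zero_iff_of_nonneg
        (fun l _ => sq_nonneg (x l / 4))).mp hrest2 l hl
      exact (pow_eq_zero_iff (two_ne_zero)).mp h1
    have hji : j ≠ i := (Finset.mem_erase.mp hjm).1
    refine ⟨i, j, hji.symm, x i, x j, ?_, ?_, ?_⟩
    · have := h4x i
      omega
    · have := h4x j
      omega
    · ext l
      by_cases hli : l = i
      · subst hli
        simp [Pi.single_apply, hji.symm]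
      · by_cases hlj : l = j
        · subst hlj
          simp [Pi.single_apply, hli]
        · have h1 := hzero l hli hlj
          have h2 := h4x l
          have h3 : x l = 0 := by omega
          simp [Pi.single_apply, hli, hlj, h3]
  · -- second shape
    right; left
    have hfz : ∀ i, (x i / 2) ^ 2 - (if w i ≠ 0 then (1 : ℤ) else 0) = 0 := by
      have hs0 : ∑ i, ((x i / 2) ^ 2 - (if w i ≠ 0 then (1 : ℤ) else 0)) = 0 := by
        rw [hfsum, h8]
        norm_num
      intro i
      exact (Finset.sum_eq_zero_iff_of_nonneg (fun i _ => hf i)).mp hs0 i (Finset.mem_univ i)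
    have hx0 : ∀ i, w i = 0 → x i = 0 := by
      intro i hi
      have h1 := hfz i
      rw [if_neg (not_not.mpr hi)] at h1
      have h2 : x i / 2 = 0 := by
        have h3 : (x i / 2) ^ 2 = 0 := by omega
        exact (pow_eq_zero_iff (two_ne_zero)).mp h3
      have := hxe i
      omega
    have hx2 : ∀ i, w i ≠ 0 → x i = 2 ∨ x i = -2 := by
      intro i hi
      have h0 := hfz i
      rw [if_pos hi] at h0
      have h1 : x i / 2 ≠ 0 := by
        intro h
        rw [h] at h0
        norm_num at h0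
      have h2 := int_sq_le_two h1 (by omega)
      have := hxe i
      omega
    refine ⟨fun i => ?_, ?_⟩
    · by_cases hi : w i = 0
      · left
        exact hx0 i hi
      · right
        exact hx2 i hi
    · have hfilt : Finset.univ.filter (fun i => x i ≠ 0) =
          Finset.univ.filter (fun i => w i ≠ 0) := by
        apply Finset.filter_congr
        intro i _
        constructor
        · intro h hw0
          exact h (hx0 i hw0)
        · intro h
          rcases hx2 i h with h' | h' <;> rw [h'] <;> norm_num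
      rw [hfilt, ← hcardS, h8]

example : Cfsg.Agent.H93.Conway.StmtShape := shape

end Cfsg.Agent.H11.Conway

#print axioms Cfsg.Agent.H11.Conway.shape
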