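import Cfsg.Agent.H87.CrDefs

/-!
# helper11: pieces CR-BAR and CR-TOWER of S5141 (helper87's project) — cores

The statements with the needed other pieces (CR-IMG, CR-NORM) as hypotheses.
-/

set_option autoImplicit false
set_option linter.unusedSectionVars false
set_option linter.unusedVariables false

namespace Cfsg.Agent.H11.Cr

open Cfsg Cfsg.FusionSystem Cfsg.Agent.H86 Cfsg.Agent.H87 Cfsg.Agent.H87.Cr

variable {Ω : Type*} [Group Ω] {S T : Subgroup Ω}

/-- `k` maps `P C_S(T)` into itself. -/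
theorem bar_maps {F : FusionSystem S} {E : FusionSystem T} {P : Subgroup Ω} (hP : E.IsCentric P)
    (hIMG : ∀ {l : Ω → Ω}, Mor F (P ⊔ centralizerIn S T) l → ∀ c ∈ centralizerIn S T,
      ∃ x ∈ centralizerIn S T, x⁻¹ * l c ∈ imgS P l)
    {k b : Ω → Ω} (h : Bar F T P k b) :
    ∀ y ∈ P ⊔ centralizerIn S T, k y ∈ P ⊔ centralizerIn S T := by
  intro y hy
  obtain ⟨x, hx, c, hc, rfl⟩ := mem_sup_cent hP.1 hy
  have hxY : x ∈ P ⊔ centralizerIn S T := (le_sup_left : P ≤ _) hx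
  have hcY : c ∈ P ⊔ centralizerIn S T := (le_sup_right : centralizerIn S T ≤ _) hc
  rw [h.1.map_mul hxY hcY]
  refine Subgroup.mul_mem _ ((le_sup_left : P ≤ _) (h.2.1 x hx)) ?_
  obtain ⟨x', hx', hmem⟩ := hIMG h.1 c hc
  have hPk : Mor F P k := h.1.restrict le_sup_left
  obtain ⟨z, hz, hzeq⟩ := hPk.mem_imgS.1 hmem
  have e : k c = x' * k z := by rw [hzeq]; group
  rw [e]
  exact Subgroup.mul_mem _ ((le_sup_right : centralizerIn S T ≤ _) hx')
    ((le_sup_left : P ≤ _) (h.2.1 z hz))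

theorem bar_comp_core {F : FusionSystem S} {E : FusionSystem T} {P : Subgroup Ω}
    (hP : E.IsCentric P)
    (hIMG : ∀ {l : Ω → Ω}, Mor F (P ⊔ centralizerIn S T) l → ∀ c ∈ centralizerIn S T,
      ∃ x ∈ centralizerIn S T, x⁻¹ * l c ∈ imgS P l)
    {k₁ k₂ b₁ b₂ : Ω → Ω} (hb₂ : ∀ c ∈ centralizerIn S T, b₂ c ∈ centralizerIn S T)
    (h₁ : Bar F T P k₁ b₁) (h₂ : Bar F T P k₂ b₂) : Bar F T P (k₁ ∘ k₂) (b₁ ∘ b₂) := by
  have hmaps := bar_maps hP hIMG h₂
  refine ⟨h₂.1.comp h₁.1 hmaps, fun x hx => h₁.2.1 _ (h₂.2.1 x hx), fun c hc => ?_⟩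
  have hcY : c ∈ P ⊔ centralizerIn S T := (le_sup_right : centralizerIn S T ≤ _) hc
  have hbc : b₂ c ∈ centralizerIn S T := hb₂ c hc
  have hbcY : b₂ c ∈ P ⊔ centralizerIn S T := (le_sup_right : centralizerIn S T ≤ _) hbc
  have htT : (k₂ c)⁻¹ * b₂ c ∈ T := h₂.2.2 c hc
  have htY : (k₂ c)⁻¹ * b₂ c ∈ P ⊔ centralizerIn S T :=
    Subgroup.mul_mem _ (Subgroup.inv_mem _ (hmaps c hcY)) hbcY
  have htP : (k₂ c)⁻¹ * b₂ c ∈ P := by
    have h3 : (k₂ c)⁻¹ * b₂ c ∈ T ⊓ (P ⊔ centralizerIn S T) := ⟨htT, htY⟩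
    rwa [inf_sup_cent (S := S) hP] at h3
  have hk2 : k₂ c = b₂ c * ((k₂ c)⁻¹ * b₂ c)⁻¹ := by group
  have htinvY : ((k₂ c)⁻¹ * b₂ c)⁻¹ ∈ P ⊔ centralizerIn S T := Subgroup.inv_mem _ htY
  have e : ((k₁ ∘ k₂) c)⁻¹ * (b₁ ∘ b₂) c =
      k₁ ((k₂ c)⁻¹ * b₂ c) * ((k₁ (b₂ c))⁻¹ * b₁ (b₂ c)) := by
    show (k₁ (k₂ c))⁻¹ * b₁ (b₂ c) = _
    have e1 : k₁ (k₂ c) = k₁ (b₂ c) * (k₁ ((k₂ c)⁻¹ * b₂ c))⁻¹ := by
      conv_lhs => rw [hk2]
      rw [h₁.1.map_mul hbcY htinvY, h₁.1.map_inv htY]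
    rw [e1]
    group
  rw [e]
  exact T.mul_mem (hP.1 (h₁.2.1 _ htP)) (h₁.2.2 (b₂ c) hbc)

theorem iterate_mem_cent {b : Ω → Ω} (hb : ∀ c ∈ centralizerIn S T, b c ∈ centralizerIn S T)
    (n : ℕ) : ∀ c ∈ centralizerIn S T, b^[n] c ∈ centralizerIn S T := by
  induction n with
  | zero => intro c hc; exact hc
  | succ n ih =>
    intro c hc
    rw [Function.iterate_succ', Function.comp_apply]
    exact hb _ (ih c hc)

theorem bar_iter_core {F : FusionSystem S} {E : FusionSystem T} {P : Subgroup Ω}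
    (hP : E.IsCentric P)
    (hIMG : ∀ {l : Ω → Ω}, Mor F (P ⊔ centralizerIn S T) l → ∀ c ∈ centralizerIn S T,
      ∃ x ∈ centralizerIn S T, x⁻¹ * l c ∈ imgS P l)
    {k b : Ω → Ω} (hb : ∀ c ∈ centralizerIn S T, b c ∈ centralizerIn S T)
    (h : Bar F T P k b) (n : ℕ) : Bar F T P (k^[n]) (b^[n]) := by
  induction n with
  | zero =>
    refine ⟨Mor.id F h.1.le, fun x hx => hx, fun c hc => ?_⟩
    show c⁻¹ * c ∈ T
    rw [inv_mul_cancel]
    exact T.one_mem
  | succ n ih =>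
    rw [Function.iterate_succ', Function.iterate_succ']
    exact bar_comp_core hP hIMG (iterate_mem_cent hb n) h ih

/-- Core of CR-TOWER. -/
theorem fix_top_core {p : ℕ} [Fact p.Prime] [Finite T] (hTp : IsPGroup p T) (hTS : T ≤ S)
    {F : FusionSystem S} {E : FusionSystem T} (hTc : E.IsCentric T)
    (hIMG : ∀ {l : Ω → Ω}, Mor F (T ⊔ centralizerIn S T) l → ∀ c ∈ centralizerIn S T,
      ∃ x ∈ centralizerIn S T, x⁻¹ * l c ∈ imgS T l)
    (hNORM : ∀ {P : Subgroup Ω}, E.IsCentric P → ∀ {b : Ω → Ω},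
      (∀ c ∈ centralizerIn S T, b c ∈ centralizerIn S T) → Fix F T P b →
      ∃ j : ℕ, Fix F T (normalizerIn T P) (b^[p ^ j]))
    {m : ℕ} (hm : m.Coprime p) :
    ∀ (d : ℕ) {b : Ω → Ω}, (∀ c ∈ centralizerIn S T, b c ∈ centralizerIn S T) →
      (∀ c ∈ centralizerIn S T, b^[m] c = c) → ∀ {P : Subgroup Ω}, E.IsCentric P →
      Nat.card T - Nat.card P = d → Fix F T P b → Fix F T T b := by
  intro d
  induction d using Nat.strong_induction_on with
  | _ d IH =>
    intro b hb hbm P hP hd h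
    by_cases hPT : P = T
    · have hh : Fix F T P b → Fix F T T b := by rw [hPT]; exact id
      exact hh h
    have hlt : P < T := lt_of_le_of_ne hP.1 hPT
    have hN : P < normalizerIn T P := lt_normalizerIn hTp hlt
    have hNT : normalizerIn T P ≤ T := inf_le_left
    have hNc : E.IsCentric (normalizerIn T P) := isCentric_of_le hP hN.le hNT
    obtain ⟨j, hj⟩ := hNORM hP hb h
    have hb' : ∀ c ∈ centralizerIn S T, b^[p ^ j] c ∈ centralizerIn S T :=
      iterate_mem_cent hb (p ^ j)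
    have hfix : ∀ (i : ℕ), ∀ c ∈ centralizerIn S T, (b^[m])^[i] c = c :=
      fun i c hc => Function.iterate_fixed (hbm c hc) i
    have hbm' : ∀ c ∈ centralizerIn S T, (b^[p ^ j])^[m] c = c := by
      intro c hc
      rw [← Function.iterate_mul, mul_comm, Function.iterate_mul]
      exact hfix _ c hc
    have : Finite ↥(normalizerIn T P) :=
      Finite.of_injective (Subgroup.inclusion hNT) (Subgroup.inclusion_injective hNT)
    have hcardlt : Nat.card P < Nat.card (normalizerIn T P) := by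
      by_contra hcon
      exact hN.ne (Subgroup.eq_of_le_of_card_ge hN.le (not_lt.mp hcon))
    have hcardle : Nat.card (normalizerIn T P) ≤ Nat.card T :=
      Subgroup.card_le_of_le hNT
    have hT' : Fix F T T (b^[p ^ j]) :=
      IH (Nat.card T - Nat.card (normalizerIn T P)) (by omega) hb' hbm' hNc rfl hj
    -- descend from `b^[p^j]` to `b`
    have hm0 : m ≠ 0 := by
      rintro rfl
      rw [Nat.coprime_zero_left] at hm
      exact (Fact.out : p.Prime).one_lt.ne' hm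
    obtain ⟨k, hk, hkT⟩ := hT'
    by_cases hm1 : m = 1
    · subst hm1
      refine ⟨fun x => x, ⟨Mor.id F (sup_le hTS inf_le_left), fun x hx => hx, fun c hc => ?_⟩,
        fun x _ => rfl⟩
      have : b c = c := hbm c hc
      show c⁻¹ * b c ∈ T
      rw [this, inv_mul_cancel]
      exact T.one_mem
    have hm2 : 1 < m := by omega
    have hcop : Nat.Coprime (p ^ j) m := (Nat.Coprime.pow_right j hm).symm
    obtain ⟨u, hu⟩ := Nat.exists_mul_mod_eq_one_of_coprime hcop hm2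
    have hbar := bar_iter_core hTc hIMG hb' hk u
    have hiter : ∀ c ∈ centralizerIn S T, (b^[p ^ j])^[u] c = b c := by
      intro c hc
      rw [← Function.iterate_mul]
      have hdiv : p ^ j * u = m * (p ^ j * u / m) + 1 := by
        have := Nat.div_add_mod (p ^ j * u) m
        omega
      rw [hdiv, Function.iterate_add_apply, Function.iterate_one, Function.iterate_mul]
      exact hfix _ (b c) (hb c hc)
    refine ⟨k^[u], ⟨hbar.1, hbar.2.1, fun c hc => ?_⟩,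
      fun x hx => Function.iterate_fixed (hkT x hx) u⟩
    rw [← hiter c hc]
    exact hbar.2.2 c hc

end Cfsg.Agent.H11.Cr

#print axioms Cfsg.Agent.H11.Cr.bar_comp_core
#print axioms Cfsg.Agent.H11.Cr.bar_iter_core
#print axioms Cfsg.Agent.H11.Cr.fix_top_core
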