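import Cfsg.Agent.H87.CrDefs
import Cfsg.Agent.H15.CrIMG
import Cfsg.Agent.H11.CrBarCore

/-!
# helper11: piece CR-BAR of S5141 (helper87's project)
-/

set_option autoImplicit false

namespace Cfsg.Agent.H11.Cr

open Cfsg Cfsg.FusionSystem Cfsg.Agent.H86 Cfsg.Agent.H87 Cfsg.Agent.H87.Cr

variable {Ω : Type*} [Group Ω] {S T : Subgroup Ω}

theorem bar_comp [Finite S] {p : ℕ} [Fact p.Prime] (hS : IsPGroup p S) {F : FusionSystem S}
    {E : FusionSystem T} (hE : E.IsWeaklyNormalIn F p) {P : Subgroup Ω} (hP : E.IsCentric P)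
    {k₁ k₂ b₁ b₂ : Ω → Ω} (hb₂ : ∀ c ∈ centralizerIn S T, b₂ c ∈ centralizerIn S T)
    (h₁ : Bar F T P k₁ b₁) (h₂ : Bar F T P k₂ b₂) : Bar F T P (k₁ ∘ k₂) (b₁ ∘ b₂) :=
  bar_comp_core hP (fun hl => (Cfsg.Agent.H15.Cr.img_cent hS hE hP hl).1) hb₂ h₁ h₂

theorem bar_iter [Finite S] {p : ℕ} [Fact p.Prime] (hS : IsPGroup p S) {F : FusionSystem S}
    {E : FusionSystem T} (hE : E.IsWeaklyNormalIn F p) {P : Subgroup Ω} (hP : E.IsCentric P)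
    {k b : Ω → Ω} (hb : ∀ c ∈ centralizerIn S T, b c ∈ centralizerIn S T)
    (h : Bar F T P k b) (n : ℕ) : Bar F T P (k^[n]) (b^[n]) :=
  bar_iter_core hP (fun hl => (Cfsg.Agent.H15.Cr.img_cent hS hE hP hl).1) hb h n

example [Finite S] {p : ℕ} [Fact p.Prime] (hS : IsPGroup p S) {F : FusionSystem S} {E : FusionSystem T} (hE : E.IsWeaklyNormalIn F p) {P : Subgroup Ω} (hP : E.IsCentric P) {k₁ k₂ b₁ b₂ : Ω → Ω} (hb₂ : ∀ c ∈ centralizerIn S T, b₂ c ∈ centralizerIn S T) (h₁ : Bar F T P k₁ b₁) (h₂ : Bar F T P k₂ b₂) : Bar F T P (k₁ ∘ k₂) (b₁ ∘ b₂) :=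
  bar_comp hS hE hP hb₂ h₁ h₂

example [Finite S] {p : ℕ} [Fact p.Prime] (hS : IsPGroup p S) {F : FusionSystem S} {E : FusionSystem T} (hE : E.IsWeaklyNormalIn F p) {P : Subgroup Ω} (hP : E.IsCentric P) {k b : Ω → Ω} (hb : ∀ c ∈ centralizerIn S T, b c ∈ centralizerIn S T) (h : Bar F T P k b) (n : ℕ) : Bar F T P (k^[n]) (b^[n]) :=
  bar_iter hS hE hP hb h n

end Cfsg.Agent.H11.Cr

#print axioms Cfsg.Agent.H11.Cr.bar_comp
#print axioms Cfsg.Agent.H11.Cr.bar_iter
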