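import Cfsg.Agent.H87.CrDefs
import Cfsg.Agent.H15.CrIMG
import Cfsg.Agent.H11.CrBarCore
import Cfsg.Agent.H90.SubsysCentric

/-!
# helper11: piece CR-TOWER of S5141 (helper87's project), with CR-NORM as a hypothesis
-/

set_option autoImplicit false

namespace Cfsg.Agent.H11.Cr

open Cfsg Cfsg.FusionSystem Cfsg.Agent.H86 Cfsg.Agent.H87 Cfsg.Agent.H87.Cr

variable {Ω : Type*} [Group Ω] {S T : Subgroup Ω}

/-- CR-TOWER with the conclusion of CR-NORM as a hypothesis. -/
theorem fix_top_of_norm [Finite S] {p : ℕ} [Fact p.Prime] (hS : IsPGroup p S)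
    {F : FusionSystem S} {E : FusionSystem T} (hE : E.IsWeaklyNormalIn F p)
    (hNORM : ∀ {P : Subgroup Ω}, E.IsCentric P → ∀ {b : Ω → Ω},
      (∀ c ∈ centralizerIn S T, b c ∈ centralizerIn S T) → Fix F T P b →
      ∃ j : ℕ, Fix F T (normalizerIn T P) (b^[p ^ j]))
    {b : Ω → Ω} (hb : ∀ c ∈ centralizerIn S T, b c ∈ centralizerIn S T) {m : ℕ}
    (hm : m.Coprime p) (hbm : ∀ c ∈ centralizerIn S T, b^[m] c = c) {P : Subgroup Ω}
    (hP : E.IsCentric P) (h : Fix F T P b) : Fix F T T b := by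
  have hTS : T ≤ S := hE.2.2.2.1.1
  have hfin : Finite ↥T :=
    Finite.of_injective (Subgroup.inclusion hTS) (Subgroup.inclusion_injective hTS)
  have hTp : IsPGroup p T := hS.to_le hTS
  have hTc : E.IsCentric T := Cfsg.Agent.H90.isCentric_top E
  exact fix_top_core hTp hTS hTc
    (fun hl => (Cfsg.Agent.H15.Cr.img_cent hS hE hTc hl).1) hNORM hm _ hb hbm hP rfl h

end Cfsg.Agent.H11.Cr

#print axioms Cfsg.Agent.H11.Cr.fix_top_of_norm
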