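import Mathlib
import Cfsg.Agent.H81.DihBDefs

/-!
helper11: S4481-REL (`StmtRel`): Fourier inversion turns the column orthogonality into a relation
on the rows.
-/

set_option autoImplicit false

universe u

namespace Cfsg.Agent.H11.DihB

theorem rel : Cfsg.Agent.H81.DihB.StmtRel.{u} := by
  intro ι _ m ζ hm hζ a w c h1 h2 k hk hkm
  have hm0 : (m : ℂ) ≠ 0 := Nat.cast_ne_zero.mpr hm.ne'
  have key : (m : ℂ) * ∑ i, (((a i k : ℤ) - (a i 0 : ℤ) : ℤ) : ℂ) * c i = 0 := by
    rw [Finset.mul_sum]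
    have e : ∀ i ∈ (Finset.univ : Finset ι),
        (m : ℂ) * ((((a i k : ℤ) - (a i 0 : ℤ) : ℤ) : ℂ) * c i) =
          ∑ l ∈ Finset.range m, ((ζ ^ (k * l))⁻¹ - 1) * (c i * w i l) := by
      intro i _
      have e1 : (m : ℂ) * ((((a i k : ℤ) - (a i 0 : ℤ) : ℤ) : ℂ) * c i) =
          ((m : ℂ) * (a i k : ℂ) - (m : ℂ) * (a i 0 : ℂ)) * c i := by
        push_cast; ring
      rw [e1, h1 i k hkm, h1 i 0 hm, ← Finset.sum_sub_distrib, Finset.sum_mul]
      apply Finset.sum_congr rfl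
      intro l _
      rw [Nat.zero_mul, pow_zero, inv_one]
      ring
    rw [Finset.sum_congr rfl e, Finset.sum_comm]
    apply Finset.sum_eq_zero
    intro l hl
    rw [← Finset.mul_sum]
    rcases Nat.eq_zero_or_pos l with rfl | hl0
    · rw [Nat.mul_zero, pow_zero, inv_one, sub_self, zero_mul]
    · rw [h2 l hl0 (Finset.mem_range.mp hl), mul_zero]
  exact (mul_eq_zero.mp key).resolve_left hm0

example : Cfsg.Agent.H81.DihB.StmtRel.{u} := rel

end Cfsg.Agent.H11.DihB

#print axioms Cfsg.Agent.H11.DihB.rel
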