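import Mathlib

set_option autoImplicit false
set_option linter.unusedSectionVars false

universe u

namespace Cfsg.Agent.H11.Dih

variable {G : Type u} [Group G] [Finite G]

/-- The power trick: a single exponent `e` with `(π ρ)^e = π` for every `ρ ∈ X` commuting
with `π` (`π` a 2-element, `X` of odd order). -/
theorem pow_trick (π : G) (k : ℕ) (hπ : orderOf π = 2 ^ k) (X : Subgroup G)
    (hodd : Odd (Nat.card X)) :
    ∃ e : ℕ, ∀ ρ ∈ X, π * ρ = ρ * π → (π * ρ) ^ e = π := by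
  have hcop : Nat.Coprime (2 ^ k) (Nat.card X) := by
    apply Nat.Coprime.pow_left
    exact (Nat.coprime_two_left).mpr hodd
  obtain ⟨e, he1, he2⟩ := Nat.chineseRemainder hcop 1 0
  refine ⟨e, fun ρ hρ hc => ?_⟩
  have hcomm : Commute π ρ := hc
  rw [hcomm.mul_pow]
  have h1 : π ^ e = π := by
    have h : π ^ e = π ^ 1 := by
      rw [pow_eq_pow_iff_modEq, hπ]; exact he1
    simpa using h
  have h2 : ρ ^ e = 1 := by
    have hd : Nat.card X ∣ e := (Nat.modEq_zero_iff_dvd).mp he2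
    obtain ⟨c, rfl⟩ := hd
    have h3' : (⟨ρ, hρ⟩ : X) ^ Nat.card X = 1 := pow_card_eq_one'
    have h3 : ρ ^ Nat.card X = 1 := by
      have h4 : (((⟨ρ, hρ⟩ : X) ^ Nat.card X : X) : G) = ((1 : X) : G) :=
        congrArg Subtype.val h3'
      rw [Subgroup.coe_pow] at h4
      exact h4
    rw [pow_mul, h3, one_pow]
  rw [h1, h2, mul_one]

/-- If `π` (of 2-power order) normalizes `X` then so does `π⁻¹`. -/
theorem norm_inv (π : G) (k : ℕ) (hπ : orderOf π = 2 ^ k) (X : Subgroup G)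
    (hnorm : ∀ x ∈ X, π * x * π⁻¹ ∈ X) : ∀ x ∈ X, π⁻¹ * x * π ∈ X := by
  have hpow : ∀ j : ℕ, ∀ x ∈ X, π ^ j * x * (π ^ j)⁻¹ ∈ X := by
    intro j
    induction j with
    | zero => intro x hx; simpa using hx
    | succ j ih =>
      intro x hx
      have h1 := hnorm _ (ih x hx)
      have e : π ^ (j + 1) * x * (π ^ (j + 1))⁻¹ = π * (π ^ j * x * (π ^ j)⁻¹) * π⁻¹ := by
        rw [pow_succ']; group
      rw [e]; exact h1
  intro x hx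
  have hinv : π ^ (2 ^ k - 1) = π⁻¹ := by
    have h1 : π ^ (2 ^ k) = 1 := by rw [← hπ]; exact pow_orderOf_eq_one π
    have hpos : 0 < 2 ^ k := by positivity
    have h2 : π ^ (2 ^ k - 1) * π = 1 := by
      rw [← pow_succ, Nat.sub_add_cancel hpos, h1]
    exact eq_inv_of_mul_eq_one_left h2
  have h3 := hpow (2 ^ k - 1) x hx
  rw [hinv] at h3
  simpa using h3

/-- Key cancellation: a conjugation taking `π ρ₁` to `π ρ₂` (with `ρᵢ ∈ C_X(π)`) fixes `π`. -/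
theorem conj_key (π : G) (k : ℕ) (hπ : orderOf π = 2 ^ k) (X : Subgroup G)
    (hodd : Odd (Nat.card X)) (z ρ₁ ρ₂ : G) (h1 : ρ₁ ∈ X) (h1c : π * ρ₁ = ρ₁ * π)
    (h2 : ρ₂ ∈ X) (h2c : π * ρ₂ = ρ₂ * π) (hz : z * (π * ρ₁) * z⁻¹ = π * ρ₂) :
    z * π * z⁻¹ = π := by
  obtain ⟨e, he⟩ := pow_trick π k hπ X hodd
  calc z * π * z⁻¹ = z * (π * ρ₁) ^ e * z⁻¹ := by rw [he ρ₁ h1 h1c]
    _ = (z * (π * ρ₁) * z⁻¹) ^ e := (conj_pow).symm
    _ = (π * ρ₂) ^ e := by rw [hz]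
    _ = π := he ρ₂ h2 h2c

theorem mem_inf_cent (π : G) (X : Subgroup G) (ρ : G) :
    ρ ∈ X ⊓ Subgroup.centralizer ({π} : Set G) ↔ ρ ∈ X ∧ π * ρ = ρ * π := by
  rw [Subgroup.mem_inf, Subgroup.mem_centralizer_iff]
  constructor
  · rintro ⟨h1, h2⟩; exact ⟨h1, h2 π rfl⟩
  · rintro ⟨h1, h2⟩
    refine ⟨h1, fun h hh => ?_⟩
    rw [Set.mem_singleton_iff] at hh
    subst hh
    exact h2

theorem indicator_enlarge (π : G) (k : ℕ) (hπ : orderOf π = 2 ^ k) (X : Subgroup G)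
    (hodd : Odd (Nat.card X)) (hnorm : ∀ x ∈ X, π * x * π⁻¹ ∈ X)
    (hSZ : ∀ ρ ∈ X, ∃ y ∈ X, ∃ ρ' ∈ X ⊓ Subgroup.centralizer ({π} : Set G),
      π * ρ = y * (π * ρ') * y⁻¹) (g : G) :
    Nat.card {w : G // ∃ ρ ∈ X, w⁻¹ * g * w = π * ρ} *
        Nat.card ↥(X ⊓ Subgroup.centralizer ({π} : Set G)) =
      Nat.card {w : G // ∃ ρ ∈ X ⊓ Subgroup.centralizer ({π} : Set G), w⁻¹ * g * w = π * ρ} *
        Nat.card X := by
  classical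
  have hX₀ := mem_inf_cent π X
  have hnorm' := norm_inv π k hπ X hnorm
  have hSZ' : ∀ w : {w : G // ∃ ρ ∈ X, w⁻¹ * g * w = π * ρ}, ∃ y ∈ X,
      ∃ ρ' ∈ X ⊓ Subgroup.centralizer ({π} : Set G),
        w.1⁻¹ * g * w.1 = y * (π * ρ') * y⁻¹ := by
    rintro ⟨w, ρ, hρ, hw⟩
    obtain ⟨y, hy, ρ', hρ', h⟩ := hSZ ρ hρ
    exact ⟨y, hy, ρ', hρ', by rw [hw, h]⟩
  choose f hfX ρf hρf hf using hSZ'
  have hΨ1 : ∀ q : {w : G // ∃ ρ ∈ X, w⁻¹ * g * w = π * ρ} ×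
      ↥(X ⊓ Subgroup.centralizer ({π} : Set G)),
      ∃ ρ ∈ X ⊓ Subgroup.centralizer ({π} : Set G),
        (q.1.1 * f q.1 * q.2.1)⁻¹ * g * (q.1.1 * f q.1 * q.2.1) = π * ρ := by
    rintro ⟨w, ⟨z, hz⟩⟩
    refine ⟨z⁻¹ * ρf w * z, Subgroup.mul_mem _ (Subgroup.mul_mem _ (Subgroup.inv_mem _ hz)
      (hρf w)) hz, ?_⟩
    have hzc : π * z = z * π := ((hX₀ z).mp hz).2
    have h1 : (w.1 * f w * z)⁻¹ * g * (w.1 * f w * z)
        = z⁻¹ * ((f w)⁻¹ * (w.1⁻¹ * g * w.1) * f w) * z := by group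
    show (w.1 * f w * z)⁻¹ * g * (w.1 * f w * z) = π * (z⁻¹ * ρf w * z)
    rw [h1, hf w]
    have h2 : z⁻¹ * ((f w)⁻¹ * (f w * (π * ρf w) * (f w)⁻¹) * f w) * z
        = z⁻¹ * π * (ρf w * z) := by group
    rw [h2]
    have h3 : z⁻¹ * π = π * z⁻¹ := by
      rw [inv_mul_eq_iff_eq_mul, ← mul_assoc, ← hzc, mul_inv_cancel_right]
    rw [h3]; group
  have hΨ2 : ∀ q : {w : G // ∃ ρ ∈ X, w⁻¹ * g * w = π * ρ} ×
      ↥(X ⊓ Subgroup.centralizer ({π} : Set G)), f q.1 * q.2.1 ∈ X := by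
    rintro ⟨w, ⟨z, hz⟩⟩
    exact X.mul_mem (hfX w) ((hX₀ z).mp hz).1
  let Ψ : {w : G // ∃ ρ ∈ X, w⁻¹ * g * w = π * ρ} ×
      ↥(X ⊓ Subgroup.centralizer ({π} : Set G)) →
      {w : G // ∃ ρ ∈ X ⊓ Subgroup.centralizer ({π} : Set G), w⁻¹ * g * w = π * ρ} × ↥X :=
    fun q => (⟨q.1.1 * f q.1 * q.2.1, hΨ1 q⟩, ⟨f q.1 * q.2.1, hΨ2 q⟩)
  have hinj : Function.Injective Ψ := by
    rintro ⟨w, ⟨z, hz⟩⟩ ⟨w', ⟨z', hz'⟩⟩ heq
    have e1 : w.1 * f w * z = w'.1 * f w' * z' := congrArg (fun p => p.1.1) heq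
    have e2 : f w * z = f w' * z' := congrArg (fun p => p.2.1) heq
    have e3 : w.1 = w'.1 := by
      rw [mul_assoc, mul_assoc, e2] at e1
      exact mul_right_cancel e1
    have e4 : w = w' := Subtype.ext e3
    subst e4
    have e5 : z = z' := mul_left_cancel e2
    subst e5
    rfl
  have hsurj : Function.Surjective Ψ := by
    rintro ⟨⟨w', ρ', hρ', hw'⟩, ⟨y, hy⟩⟩
    have hρ'X := (hX₀ ρ').mp hρ'
    have hwA : ∃ ρ ∈ X, (w' * y⁻¹)⁻¹ * g * (w' * y⁻¹) = π * ρ := by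
      refine ⟨π⁻¹ * y * π * ρ' * y⁻¹, X.mul_mem (X.mul_mem (hnorm' y hy) hρ'X.1)
        (X.inv_mem hy), ?_⟩
      have h1 : (w' * y⁻¹)⁻¹ * g * (w' * y⁻¹) = y * (w'⁻¹ * g * w') * y⁻¹ := by group
      rw [h1, hw']; group
    set w : {w : G // ∃ ρ ∈ X, w⁻¹ * g * w = π * ρ} := ⟨w' * y⁻¹, hwA⟩ with hwdef
    have hfw := hf w
    have hw1 : w.1⁻¹ * g * w.1 = y * (π * ρ') * y⁻¹ := by
      have h1 : (w' * y⁻¹)⁻¹ * g * (w' * y⁻¹) = y * (w'⁻¹ * g * w') * y⁻¹ := by group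
      show (w' * y⁻¹)⁻¹ * g * (w' * y⁻¹) = y * (π * ρ') * y⁻¹
      rw [h1, hw']
    have hzconj : ((f w)⁻¹ * y) * (π * ρ') * ((f w)⁻¹ * y)⁻¹ = π * ρf w := by
      have h1 : ((f w)⁻¹ * y) * (π * ρ') * ((f w)⁻¹ * y)⁻¹
          = (f w)⁻¹ * (y * (π * ρ') * y⁻¹) * f w := by group
      rw [h1, ← hw1, hfw]; group
    have hρfX := (hX₀ (ρf w)).mp (hρf w)
    have hzπ := conj_key π k hπ X hodd _ _ _ hρ'X.1 hρ'X.2 hρfX.1 hρfX.2 hzconj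
    have hzX₀ : (f w)⁻¹ * y ∈ X ⊓ Subgroup.centralizer ({π} : Set G) := by
      rw [hX₀]
      refine ⟨X.mul_mem (X.inv_mem (hfX w)) hy, ?_⟩
      exact (mul_inv_eq_iff_eq_mul.mp hzπ).symm
    refine ⟨(w, ⟨(f w)⁻¹ * y, hzX₀⟩), ?_⟩
    apply Prod.ext
    · apply Subtype.ext
      show w.1 * f w * ((f w)⁻¹ * y) = w'
      show w' * y⁻¹ * f w * ((f w)⁻¹ * y) = w'
      group
    · apply Subtype.ext
      show f w * ((f w)⁻¹ * y) = y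
      group
  have hcard := Nat.card_congr (Equiv.ofBijective Ψ ⟨hinj, hsurj⟩)
  rw [Nat.card_prod, Nat.card_prod] at hcard
  exact hcard

example (π : G) (k : ℕ) (hπ : orderOf π = 2 ^ k) (X : Subgroup G)
    (hodd : Odd (Nat.card X)) (hnorm : ∀ x ∈ X, π * x * π⁻¹ ∈ X)
    (hSZ : ∀ ρ ∈ X, ∃ y ∈ X, ∃ ρ' ∈ X ⊓ Subgroup.centralizer ({π} : Set G),
      π * ρ = y * (π * ρ') * y⁻¹) (g : G) :
    Nat.card {w : G // ∃ ρ ∈ X, w⁻¹ * g * w = π * ρ} *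
        Nat.card ↥(X ⊓ Subgroup.centralizer ({π} : Set G)) =
      Nat.card {w : G // ∃ ρ ∈ X ⊓ Subgroup.centralizer ({π} : Set G), w⁻¹ * g * w = π * ρ} *
        Nat.card X := indicator_enlarge π k hπ X hodd hnorm hSZ g

end Cfsg.Agent.H11.Dih

#print axioms Cfsg.Agent.H11.Dih.indicator_enlarge
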