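import Mathlib
import Cfsg.Agent.H11.DihedralFusion
import Cfsg.Agent.H11.FourCore
import Cfsg.Agent.H40.Alperin
import Cfsg.Agent.H21.PrimeSylow
import Cfsg.Agent.H3.PGroup

set_option autoImplicit false

namespace Cfsg.Agent.H11.DK

open Cfsg.Agent.H11

/-- The index of an element of a dihedral group. -/
def idx {m : ℕ} : DihedralGroup m → ZMod m
  | DihedralGroup.r i => i
  | DihedralGroup.sr i => i

/-- The parity of an element of a dihedral group of even degree. -/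
noncomputable def par {m : ℕ} (h2 : 2 ∣ m) (d : DihedralGroup m) : ZMod 2 :=
  ZMod.castHom h2 (ZMod 2) (idx d)

theorem par_r {m : ℕ} (h2 : 2 ∣ m) (i : ZMod m) :
    par h2 (DihedralGroup.r i) = ZMod.castHom h2 (ZMod 2) i := rfl

theorem par_sr {m : ℕ} (h2 : 2 ∣ m) (i : ZMod m) :
    par h2 (DihedralGroup.sr i) = ZMod.castHom h2 (ZMod 2) i := rfl

theorem zmod2_aux1 : ∀ a b : ZMod 2, b - a + -a = b := by decide
theorem zmod2_aux2 : ∀ a b : ZMod 2, a - (a + b) = b := by decide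
theorem zmod2_aux3 : ∀ a b : ZMod 2, a - (b - a) = b := by decide
theorem zmod2_aux4 : ∀ a : ZMod 2, a ≠ 0 → a = 1 := by decide

theorem par_conj {m : ℕ} (h2 : 2 ∣ m) (a b : DihedralGroup m) :
    par h2 (a * b * a⁻¹) = par h2 b := by
  rcases a with j | j <;> rcases b with i | i
  · rw [DihedralGroup.inv_r, DihedralGroup.r_mul_r, DihedralGroup.r_mul_r, par_r, par_r]
    congr 1
    ring
  · rw [DihedralGroup.inv_r, DihedralGroup.r_mul_sr, DihedralGroup.sr_mul_r, par_sr, par_sr,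
      map_add, map_sub, map_neg]
    exact zmod2_aux1 _ _
  · rw [DihedralGroup.inv_sr, DihedralGroup.sr_mul_r, DihedralGroup.sr_mul_sr, par_r, par_r,
      map_sub, map_add]
    exact zmod2_aux2 _ _
  · rw [DihedralGroup.inv_sr, DihedralGroup.sr_mul_sr, DihedralGroup.r_mul_sr, par_sr, par_sr,
      map_sub, map_sub]
    exact zmod2_aux3 _ _

/-- A rotation of odd index in a dihedral group of 2-power degree has full order. -/
theorem orderOf_r_of_par {m k : ℕ} (hm : m = 2 ^ k) (h2 : 2 ∣ m) (i : ZMod m)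
    (hi : par h2 (DihedralGroup.r i) ≠ 0) : orderOf (DihedralGroup.r i) = m := by
  have hne : NeZero m := ⟨by rw [hm]; positivity⟩
  rw [DihedralGroup.orderOf_r]
  have hodd : Odd i.val := by
    rw [par_r] at hi
    have h1 : (ZMod.castHom h2 (ZMod 2)) i = ((i.val : ℕ) : ZMod 2) := by
      conv_lhs => rw [← ZMod.natCast_zmod_val i]
      rw [map_natCast]
    rw [h1] at hi
    rcases Nat.even_or_odd i.val with he | ho
    · exfalso
      apply hi
      rw [ZMod.natCast_eq_zero_iff]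
      exact even_iff_two_dvd.mp he
    · exact ho
  have hcop : Nat.gcd m i.val = 1 := by
    have h3 : Nat.Coprime (2 ^ k) i.val := Nat.Coprime.pow_left k (Nat.coprime_two_left.mpr hodd)
    rw [← hm] at h3
    exact h3
  rw [hcop, Nat.div_one]

/-- Halving an even index. -/
theorem exists_half {m : ℕ} [NeZero m] (h2 : 2 ∣ m) (i : ZMod m)
    (hi : ZMod.castHom h2 (ZMod 2) i = 0) : ∃ j : ZMod m, j + j = i := by
  have h1 : (ZMod.castHom h2 (ZMod 2)) i = ((i.val : ℕ) : ZMod 2) := by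
    conv_lhs => rw [← ZMod.natCast_zmod_val i]
    rw [map_natCast]
  rw [h1, ZMod.natCast_eq_zero_iff] at hi
  obtain ⟨q, hq⟩ := hi
  refine ⟨(q : ZMod m), ?_⟩
  rw [← Nat.cast_add, ← two_mul, ← hq, ZMod.natCast_zmod_val]

theorem r_mem_zpowers_of_par {m k : ℕ} (hm : m = 2 ^ k) (h2 : 2 ∣ m) (i : ZMod m)
    (hi : par h2 (DihedralGroup.r i) ≠ 0) (j : ZMod m) :
    DihedralGroup.r j ∈ Subgroup.zpowers (DihedralGroup.r i) := by
  have hne : NeZero m := ⟨by rw [hm]; positivity⟩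
  have heq : Subgroup.zpowers (DihedralGroup.r i) =
      Subgroup.zpowers (DihedralGroup.r (1 : ZMod m)) := by
    apply Subgroup.eq_of_le_of_card_ge
    · rw [Subgroup.zpowers_le]; exact r_mem_zpowers_r_one i
    · rw [Nat.card_zpowers, Nat.card_zpowers, DihedralGroup.orderOf_r_one,
        orderOf_r_of_par hm h2 i hi]
  rw [heq]
  exact r_mem_zpowers_r_one j

theorem exists_odd_two_decomp {Y : Type*} [Group Y] [Finite Y] (n : Y) :
    ∃ c t : Y, n = c * t ∧ c ∈ Subgroup.zpowers n ∧ t ∈ Subgroup.zpowers n ∧ Odd (orderOf c) ∧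
      ∃ k : ℕ, orderOf t = 2 ^ k := by
  have ho : orderOf n ≠ 0 := (orderOf_pos n).ne'
  obtain ⟨a, b, hb, hab⟩ := Nat.exists_eq_two_pow_mul_odd ho
  have hcop : Nat.Coprime (2 ^ a) b := Nat.Coprime.pow_left a (Nat.coprime_two_left.mpr hb)
  have hz : ((2 ^ a : ℕ) : ℤ) * Nat.gcdA (2 ^ a) b + (b : ℤ) * Nat.gcdB (2 ^ a) b = 1 := by
    have h1 := Nat.gcd_eq_gcd_ab (2 ^ a) b
    rw [Nat.Coprime.gcd_eq_one hcop] at h1
    rw [← h1]; rfl
  refine ⟨n ^ (((2 ^ a : ℕ) : ℤ) * Nat.gcdA (2 ^ a) b), n ^ ((b : ℤ) * Nat.gcdB (2 ^ a) b), ?_,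
    Subgroup.zpow_mem_zpowers n _, Subgroup.zpow_mem_zpowers n _, ?_, ?_⟩
  · rw [← zpow_add, hz, zpow_one]
  · have h1 : (n ^ (((2 ^ a : ℕ) : ℤ) * Nat.gcdA (2 ^ a) b)) ^ b = 1 := by
      rw [← zpow_natCast, ← zpow_mul]
      have h2 : ((2 ^ a : ℕ) : ℤ) * Nat.gcdA (2 ^ a) b * (b : ℤ) =
          ((orderOf n : ℕ) : ℤ) * Nat.gcdA (2 ^ a) b := by
        rw [hab]; push_cast; ring
      rw [h2, zpow_mul, zpow_natCast, pow_orderOf_eq_one, one_zpow]
    exact Odd.of_dvd_nat hb (orderOf_dvd_of_pow_eq_one h1)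
  · have h1 : (n ^ ((b : ℤ) * Nat.gcdB (2 ^ a) b)) ^ (2 ^ a) = 1 := by
      rw [← zpow_natCast, ← zpow_mul]
      have h2 : (b : ℤ) * Nat.gcdB (2 ^ a) b * ((2 ^ a : ℕ) : ℤ) =
          ((orderOf n : ℕ) : ℤ) * Nat.gcdB (2 ^ a) b := by
        rw [hab]; push_cast; ring
      rw [h2, zpow_mul, zpow_natCast, pow_orderOf_eq_one, one_zpow]
    obtain ⟨k, -, hk⟩ := (Nat.dvd_prime_pow Nat.prime_two).mp (orderOf_dvd_of_pow_eq_one h1)
    exact ⟨k, hk⟩

theorem eq_fourSub' {Q : Type*} [Group Q] [Finite Q] {U : Subgroup Q} (hU : IsKleinFour U)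
    {a b : Q} (ha : a * a = 1) (hb : b * b = 1) (hab : a * b = b * a) (ha1 : a ≠ 1) (hb1 : b ≠ 1)
    (hne : a ≠ b) (haU : a ∈ U) (hbU : b ∈ U) : U = fourSub a b ha hb hab := by
  symm
  apply Subgroup.eq_of_le_of_card_ge
  · intro y hy
    rcases mem_fourSub.mp hy with rfl | rfl | rfl | rfl
    · exact one_mem U
    · exact haU
    · exact hbU
    · exact mul_mem haU hbU
  · rw [hU.card_four, (fourSub_isKleinFour a b ha hb hab ha1 hb1 hne).card_four]

theorem sylow_conj_mem' {G : Type*} [Group G] [Finite G] {p : ℕ} [Fact p.Prime]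
    (P Q : Sylow p G) : ∃ g : G, ∀ y ∈ (Q : Subgroup G), g * y * g⁻¹ ∈ (P : Subgroup G) := by
  obtain ⟨g, hg⟩ := MulAction.exists_smul_eq G Q P
  refine ⟨g, ?_⟩
  intro y hy
  rw [← hg, Sylow.smul_def, Sylow.pointwise_smul_def]
  have := Subgroup.smul_mem_pointwise_smul y (MulAut.conj g) (Q : Subgroup G) hy
  simpa [MulAut.smul_def] using this

variable {X : Type*} [Group X]

/-- The embedding of the dihedral group into the ambient group. -/
noncomputable def emb {m : ℕ} (S : Subgroup X) (e : S ≃* DihedralGroup m) : DihedralGroup m →* X :=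
  S.subtype.comp e.symm.toMonoidHom

theorem emb_mem {m : ℕ} (S : Subgroup X) (e : S ≃* DihedralGroup m) (d : DihedralGroup m) :
    emb S e d ∈ S := (e.symm d).2

theorem e_emb {m : ℕ} (S : Subgroup X) (e : S ≃* DihedralGroup m) (d : DihedralGroup m)
    (h : emb S e d ∈ S) : e ⟨emb S e d, h⟩ = d := by
  have : (⟨emb S e d, h⟩ : S) = e.symm d := rfl
  rw [this, MulEquiv.apply_symm_apply]

theorem emb_e {m : ℕ} (S : Subgroup X) (e : S ≃* DihedralGroup m) {x : X} (hx : x ∈ S) :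
    emb S e (e ⟨x, hx⟩) = x := by
  show ((e.symm (e ⟨x, hx⟩) : S) : X) = x
  rw [MulEquiv.symm_apply_apply]

theorem emb_injective {m : ℕ} (S : Subgroup X) (e : S ≃* DihedralGroup m) :
    Function.Injective (emb S e) := by
  intro a b hab
  have : (e.symm a : S) = e.symm b := Subtype.ext hab
  exact e.symm.injective this

/-- The even elements of `S`. -/
def Ev {m : ℕ} (h2 : 2 ∣ m) (S : Subgroup X) (e : S ≃* DihedralGroup m) (x : X) : Prop :=
  ∃ hx : x ∈ S, par h2 (e ⟨x, hx⟩) = 0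

theorem ev_iff {m : ℕ} (h2 : 2 ∣ m) {S : Subgroup X} {e : S ≃* DihedralGroup m} {x : X}
    (hx : x ∈ S) : Ev h2 S e x ↔ par h2 (e ⟨x, hx⟩) = 0 :=
  ⟨fun ⟨_, h⟩ => h, fun h => ⟨hx, h⟩⟩

theorem ev_emb {m : ℕ} (h2 : 2 ∣ m) (S : Subgroup X) (e : S ≃* DihedralGroup m)
    (d : DihedralGroup m) : Ev h2 S e (emb S e d) ↔ par h2 d = 0 := by
  rw [ev_iff h2 (emb_mem S e d), e_emb]

theorem ev_conj {m : ℕ} (h2 : 2 ∣ m) {S : Subgroup X} {e : S ≃* DihedralGroup m} {t y : X}
    (ht : t ∈ S) (hy : Ev h2 S e y) : Ev h2 S e (t * y * t⁻¹) := by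
  obtain ⟨hyS, hy'⟩ := hy
  refine ⟨S.mul_mem (S.mul_mem ht hyS) (S.inv_mem ht), ?_⟩
  have : (⟨t * y * t⁻¹, S.mul_mem (S.mul_mem ht hyS) (S.inv_mem ht)⟩ : S) =
      ⟨t, ht⟩ * ⟨y, hyS⟩ * ⟨t, ht⟩⁻¹ := rfl
  rw [this, map_mul, map_mul, map_inv, par_conj]; exact hy'

theorem card_rot {m : ℕ} (S : Subgroup X) (e : S ≃* DihedralGroup m) :
    Nat.card (rot S e) = m := by
  have h1 := rot_relIndex S e
  have h2 := Cfsg.Agent.H3.relIndex_mul_card_of_le (rot_le S e)
  rw [h1, Nat.card_congr e.toEquiv, DihedralGroup.nat_card] at h2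
  omega

theorem rot_le_of_odd {m k : ℕ} (hm : m = 2 ^ k) (h2 : 2 ∣ m) {S : Subgroup X}
    {e : S ≃* DihedralGroup m} {D : Subgroup X} {d : X} (hdD : d ∈ D) (hdS : d ∈ S) {i : ZMod m}
    (hi : e ⟨d, hdS⟩ = DihedralGroup.r i) (hpar : par h2 (DihedralGroup.r i) ≠ 0) :
    rot S e ≤ D := by
  intro y hy
  obtain ⟨hyS, j, hj⟩ := mem_rot.mp hy
  have h1 := r_mem_zpowers_of_par hm h2 i hpar j
  obtain ⟨n, hn⟩ := Subgroup.mem_zpowers_iff.mp h1
  have h2' : (⟨d, hdS⟩ : S) ^ n = ⟨y, hyS⟩ := by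
    apply e.injective
    rw [map_zpow, hi, hj, hn]
  have h3 : d ^ n = y := by
    have := congrArg Subtype.val h2'
    simpa using this
  rw [← h3]
  exact D.zpow_mem hdD n

theorem ev_of_not_rot_le {m k : ℕ} (hm : m = 2 ^ k) (h2 : 2 ∣ m) {S : Subgroup X}
    {e : S ≃* DihedralGroup m} {D : Subgroup X} (hDS : D ≤ S) (hR : ¬ rot S e ≤ D) {t : X}
    (htD : t ∈ D) (htev : Ev h2 S e t) (htR : t ∉ rot S e) : ∀ d ∈ D, Ev h2 S e d := by
  have step1 : ∀ d ∈ D, d ∈ rot S e → Ev h2 S e d := by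
    intro d hdD hdR
    obtain ⟨hdS, i, hi⟩ := mem_rot.mp hdR
    refine ⟨hdS, ?_⟩
    by_contra hne
    rw [hi] at hne
    exact hR (rot_le_of_odd hm h2 hdD hdS hi hne)
  intro d hdD
  by_cases hdR : d ∈ rot S e
  · exact step1 d hdD hdR
  · have hdS := hDS hdD
    have htS := hDS htD
    obtain ⟨i, hi⟩ := exists_sr_of_not_mem_rot hdS hdR
    obtain ⟨i₀, hi₀⟩ := exists_sr_of_not_mem_rot htS htR
    have h1 := step1 (t * d) (D.mul_mem htD hdD) (mul_mem_rot_of_not_mem htS hdS htR hdR)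
    obtain ⟨htdS, h1'⟩ := h1
    have e1 : e ⟨t * d, htdS⟩ = DihedralGroup.r (i - i₀) := by
      have : (⟨t * d, htdS⟩ : S) = ⟨t, htS⟩ * ⟨d, hdS⟩ := rfl
      rw [this, map_mul, hi, hi₀, DihedralGroup.sr_mul_sr]
    rw [e1, par_r, map_sub] at h1'
    have h0 := (ev_iff h2 htS).mp htev
    rw [hi₀, par_sr] at h0
    refine ⟨hdS, ?_⟩
    rw [hi, par_sr]
    rw [h0, sub_zero] at h1'
    exact h1'

theorem ev_conj_normalizer [Finite X] {m k : ℕ} (hm : m = 2 ^ k) (h2 : 2 ∣ m) (h4 : 4 ≤ m)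
    (S : Sylow 2 X) (e : (S : Subgroup X) ≃* DihedralGroup m) {n y : X}
    (hn : n ∈ Subgroup.normalizer ((S : Subgroup X) : Set X))
    (hy : Ev h2 (S : Subgroup X) e y) : Ev h2 (S : Subgroup X) e (n * y * n⁻¹) := by
  have : Fact (Nat.Prime 2) := ⟨Nat.prime_two⟩
  obtain ⟨c, t, hnct, hc, ht, hcodd, k', htk⟩ := exists_odd_two_decomp n
  have hzN : Subgroup.zpowers n ≤ Subgroup.normalizer ((S : Subgroup X) : Set X) :=
    Subgroup.zpowers_le.mpr hn
  have htS : t ∈ (S : Subgroup X) :=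
    Cfsg.Agent.H21.mem_sylow_of_mem_normalizer S t k' htk (hzN ht)
  have hcC : c ∈ Subgroup.centralizer ((S : Subgroup X) : Set X) := by
    apply mem_centralizer_of_dihedral_like (S : Subgroup X) (rot (S : Subgroup X) e) (rot_le _ e)
      (rot_isCyclic _ e) (S.isPGroup'.to_le (rot_le _ e)) ?_ ?_ ?_ c (hzN hc) hcodd
    · rw [card_rot]; exact h4
    · intro x hx hx'; exact orderOf_eq_two_of_not_mem_rot hx hx'
    · intro x hx y hy hx' hy'; exact mul_mem_rot_of_not_mem hx hy hx' hy'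
  obtain ⟨h1S, h1'⟩ := ev_conj h2 htS hy
  have hcomm : c * (t * y * t⁻¹) * c⁻¹ = t * y * t⁻¹ := by
    have h3 := Subgroup.mem_centralizer_iff.mp hcC (t * y * t⁻¹) h1S
    rw [← h3]; group
  have e1 : n * y * n⁻¹ = c * (t * y * t⁻¹) * c⁻¹ := by rw [hnct]; group
  rw [e1, hcomm]
  exact ⟨h1S, h1'⟩

theorem exists_not_mem_rot_of_kleinFour {m : ℕ} (S : Subgroup X) (e : S ≃* DihedralGroup m)
    {U : Subgroup X} (hU : IsKleinFour U) : ∃ t ∈ U, t ∉ rot S e := by
  by_contra hcon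
  have hUR : U ≤ rot S e := by
    intro u hu; by_contra h; exact hcon ⟨u, hu, h⟩
  have hrc : IsCyclic (rot S e) := rot_isCyclic _ e
  have hUc : IsCyclic U :=
    isCyclic_of_injective (Subgroup.inclusion hUR) (Subgroup.inclusion_injective hUR)
  exact IsKleinFour.not_isCyclic hUc

theorem ev_step [Finite X] {m k : ℕ} (hm : m = 2 ^ k) (h2 : 2 ∣ m) (h4 : 4 ≤ m)
    (S : Sylow 2 X) (e : (S : Subgroup X) ≃* DihedralGroup m) (D : Subgroup X)
    (hDS : D ≤ (S : Subgroup X)) {x : X} (hx : x ∈ Subgroup.normalizer (D : Set X))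
    {U : Subgroup X} (hU : IsKleinFour U) (hUD : U ≤ D)
    (hev : ∀ y ∈ U, Ev h2 (S : Subgroup X) e y) :
    ∀ y, x * y * x⁻¹ ∈ U → Ev h2 (S : Subgroup X) e y := by
  intro y hy
  obtain ⟨t, htU, htR⟩ := exists_not_mem_rot_of_kleinFour (S : Subgroup X) e hU
  have hyD : y ∈ D := (Subgroup.mem_normalizer_iff.mp hx y).mpr (hUD hy)
  by_cases hR : rot (S : Subgroup X) e ≤ D
  · have hSD : (S : Subgroup X) ≤ D := by
      intro w hw
      by_cases hwR : w ∈ rot (S : Subgroup X) e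
      · exact hR hwR
      · have h1 := mul_mem_rot_of_not_mem (hDS (hUD htU)) hw htR hwR
        have h2' : w = t⁻¹ * (t * w) := by group
        rw [h2']
        exact D.mul_mem (D.inv_mem (hUD htU)) (hR h1)
    have hDeq : D = S := le_antisymm hDS hSD
    have hxN : x⁻¹ ∈ Subgroup.normalizer ((S : Subgroup X) : Set X) := by
      rw [← hDeq]; exact Subgroup.inv_mem _ hx
    have h1 := ev_conj_normalizer hm h2 h4 S e hxN (hev _ hy)
    have e1 : x⁻¹ * (x * y * x⁻¹) * x⁻¹⁻¹ = y := by group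
    rwa [e1] at h1
  · exact ev_of_not_rot_le hm h2 hDS hR (hUD htU) (hev t htU) htR y hyD

open Cfsg.Agent.H40 in
theorem chain_ev [Finite X] {m k : ℕ} (hm : m = 2 ^ k) (h2 : 2 ∣ m) (h4 : 4 ≤ m)
    (S : Sylow 2 X) (e : (S : Subgroup X) ≃* DihedralGroup m) :
    ∀ (l : List (Sylow 2 X × X)) (U : Subgroup X), IsKleinFour U →
      (∀ y ∈ U, Ev h2 (S : Subgroup X) e y) → Alp.Chain S (U : Set X) l →
      ∀ y ∈ Alp.rc (Alp.lprod l) U, Ev h2 (S : Subgroup X) e y
  | [], U, _, hev, _ => by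
      rw [Alp.lprod_nil, Alp.rc_one]; exact hev
  | s :: l, U, hU, hev, h => by
      rw [Alp.lprod_cons, Alp.rc_mul]
      have hstep : Alp.Step S s := h.1
      have hsub : (U : Set X) ⊆ (((S : Subgroup X) ⊓ (s.1 : Subgroup X) : Subgroup X) : Set X) :=
        h.2.1
      have hrest : Alp.Chain S (Alp.cj s.2 (U : Set X)) l := h.2.2
      rw [← Alp.coe_rc] at hrest
      have hK : IsKleinFour (Alp.rc s.2 U) :=
        isKleinFour_of_mulEquiv (U.equivMapOfInjective _ (MulAut.conj s.2⁻¹).injective) hU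
      have hev' : ∀ y ∈ Alp.rc s.2 U, Ev h2 (S : Subgroup X) e y := by
        intro y hy
        rw [Alp.mem_rc] at hy
        exact ev_step hm h2 h4 S e _ inf_le_left hstep.1 hU hsub hev y hy
      exact chain_ev hm h2 h4 S e l (Alp.rc s.2 U) hK hev' hrest

theorem one_class [Finite X] (S : Sylow 2 X) (h4 : Nat.card (S : Subgroup X) = 4)
    (U V : Subgroup X) (hU : IsKleinFour U) (hV : IsKleinFour V) :
    ∃ x : X, U.map (MulAut.conj x).toMonoidHom = V := by
  have : Fact (Nat.Prime 2) := ⟨Nat.prime_two⟩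
  have hsyl : ∀ W : Subgroup X, IsKleinFour W → ∃ Q : Sylow 2 X, (Q : Subgroup X) = W := by
    intro W hW
    have hp : IsPGroup 2 W := IsPGroup.of_card (n := 2) (by rw [hW.card_four]; norm_num)
    obtain ⟨Q, hQ⟩ := hp.exists_le_sylow
    refine ⟨Q, (Subgroup.eq_of_le_of_card_ge hQ ?_).symm⟩
    have h1 : Nat.card (Q : Subgroup X) = Nat.card (S : Subgroup X) := by
      rw [Sylow.card_eq_multiplicity, Sylow.card_eq_multiplicity]
    rw [h1, h4, hW.card_four]
  obtain ⟨Q, hQ⟩ := hsyl U hU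
  obtain ⟨Q', hQ'⟩ := hsyl V hV
  obtain ⟨g, hg⟩ := sylow_conj_mem' Q' Q
  refine ⟨g, ?_⟩
  apply Subgroup.eq_of_le_of_card_ge
  · rintro _ ⟨u, hu, rfl⟩
    rw [← hQ']
    have := hg u (by rw [hQ]; exact hu)
    simpa [MulAut.conj_apply] using this
  · rw [Subgroup.card_map_of_injective (MulAut.conj g).injective, hU.card_four, hV.card_four]

open Cfsg.Agent.H40 in
theorem two_classes [Finite X] (S : Sylow 2 X) (m : ℕ)
    (e : (S : Subgroup X) ≃* DihedralGroup m) (h4S : 4 < Nat.card (S : Subgroup X)) :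
    ∃ U₁ U₂ : Subgroup X, IsKleinFour U₁ ∧ IsKleinFour U₂ ∧
      ¬ (∃ x : X, U₁.map (MulAut.conj x).toMonoidHom = U₂) ∧
      ∀ V : Subgroup X, IsKleinFour V → (∃ x : X, V.map (MulAut.conj x).toMonoidHom = U₁) ∨
        (∃ x : X, V.map (MulAut.conj x).toMonoidHom = U₂) := by
  have : Fact (Nat.Prime 2) := ⟨Nat.prime_two⟩
  have hcS : Nat.card (S : Subgroup X) = 2 * m := by
    rw [Nat.card_congr e.toEquiv, DihedralGroup.nat_card]
  obtain ⟨k, hk⟩ := S.isPGroup'.exists_card_eq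
  have hk3 : 3 ≤ k := by
    by_contra hcon
    have h1 : k ≤ 2 := by omega
    have h2 : 2 ^ k ≤ 2 ^ 2 := Nat.pow_le_pow_right (by norm_num) h1
    omega
  obtain ⟨k', rfl⟩ : ∃ k', k = k' + 3 := ⟨k - 3, by omega⟩
  have hm : m = 2 ^ (k' + 2) := by
    have h1 : 2 * m = 2 * 2 ^ (k' + 2) := by rw [← hcS, hk]; ring
    omega
  have h4m : 4 ∣ m := ⟨2 ^ k', by rw [hm]; ring⟩
  have h2 : 2 ∣ m := Dvd.dvd.trans (by norm_num) h4m
  have hm4 : 4 ≤ m := Nat.le_of_dvd (by rw [hm]; positivity) h4m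
  have hne : NeZero m := ⟨by omega⟩
  obtain ⟨h, hh⟩ : ∃ h : ZMod m, h = ((m / 2 : ℕ) : ZMod m) := ⟨_, rfl⟩
  have hhh : h + h = 0 := by
    rw [hh, ← Nat.cast_add]
    have h1 : m / 2 + m / 2 = m := by omega
    rw [h1, ZMod.natCast_self]
  have hh0 : h ≠ 0 := by
    rw [hh, Ne, ZMod.natCast_eq_zero_iff]
    intro hd
    have := Nat.le_of_dvd (by omega) hd
    omega
  have hparh : ZMod.castHom h2 (ZMod 2) h = 0 := by
    rw [hh, map_natCast, ZMod.natCast_eq_zero_iff]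
    omega
  have hnegh : -h = h := by
    rw [neg_eq_iff_add_eq_zero]; exact hhh
  have ha : (DihedralGroup.r h : DihedralGroup m) * DihedralGroup.r h = 1 := by
    rw [DihedralGroup.r_mul_r, hhh, DihedralGroup.r_zero]
  have hb : ∀ i : ZMod m, (DihedralGroup.sr i : DihedralGroup m) * DihedralGroup.sr i = 1 :=
    DihedralGroup.sr_mul_self
  have hab : ∀ i : ZMod m, (DihedralGroup.r h : DihedralGroup m) * DihedralGroup.sr i =
      DihedralGroup.sr i * DihedralGroup.r h := by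
    intro i
    rw [DihedralGroup.r_mul_sr, DihedralGroup.sr_mul_r, sub_eq_add_neg, hnegh]
  have ha1 : (DihedralGroup.r h : DihedralGroup m) ≠ 1 := by
    rw [DihedralGroup.one_def]
    intro hc
    exact hh0 (DihedralGroup.r.inj hc)
  have hb1 : ∀ i : ZMod m, (DihedralGroup.sr i : DihedralGroup m) ≠ 1 := by
    intro i
    rw [DihedralGroup.one_def]
    intro hc
    cases hc
  have hne' : ∀ i : ZMod m, (DihedralGroup.r h : DihedralGroup m) ≠ DihedralGroup.sr i := by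
    intro i hc
    cases hc
  have hW : ∀ i : ZMod m, IsKleinFour (fourSub _ _ ha (hb i) (hab i)) := fun i =>
    fourSub_isKleinFour _ _ ha (hb i) (hab i) ha1 (hb1 i) (hne' i)
  obtain ⟨U, hUdef⟩ : ∃ U : ZMod m → Subgroup X,
      ∀ i, U i = (fourSub _ _ ha (hb i) (hab i)).map (emb (S : Subgroup X) e) := ⟨_, fun _ => rfl⟩
  have hU : ∀ i, IsKleinFour (U i) := by
    intro i
    rw [hUdef]
    exact isKleinFour_of_mulEquiv
      ((fourSub _ _ ha (hb i) (hab i)).equivMapOfInjective _ (emb_injective _ e)) (hW i)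
  have hUS : ∀ i, U i ≤ (S : Subgroup X) := by
    intro i y hy
    rw [hUdef] at hy
    obtain ⟨d, -, rfl⟩ := Subgroup.mem_map.mp hy
    exact emb_mem _ e d
  have hzU : ∀ i, emb (S : Subgroup X) e (DihedralGroup.r h) ∈ U i := by
    intro i
    rw [hUdef]
    exact Subgroup.mem_map_of_mem _ (mem_fourSub.mpr (Or.inr (Or.inl rfl)))
  have hsU : ∀ i, emb (S : Subgroup X) e (DihedralGroup.sr i) ∈ U i := by
    intro i
    rw [hUdef]
    exact Subgroup.mem_map_of_mem _ (mem_fourSub.mpr (Or.inr (Or.inr (Or.inl rfl))))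
  have hev0 : ∀ y ∈ U 0, Ev h2 (S : Subgroup X) e y := by
    intro y hy
    rw [hUdef] at hy
    obtain ⟨d, hd, rfl⟩ := Subgroup.mem_map.mp hy
    rw [ev_emb]
    rcases mem_fourSub.mp hd with h1 | h1 | h1 | h1
    · rw [h1, DihedralGroup.one_def, par_r, map_zero]
    · rw [h1, par_r, hparh]
    · rw [h1, par_sr, map_zero]
    · rw [h1, DihedralGroup.r_mul_sr, par_sr, map_sub, map_zero, hparh, sub_zero]
  refine ⟨U 0, U 1, hU 0, hU 1, ?_, ?_⟩
  · rintro ⟨x, hx⟩
    have hrc : Alp.rc x⁻¹ (U 0) = U 1 := by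
      unfold Alp.rc
      rw [inv_inv]; exact hx
    have hA : ((U 0 : Subgroup X) : Set X) ⊆ (S : Set X) := fun y hy => hUS 0 hy
    have hAg : Alp.cj x⁻¹ ((U 0 : Subgroup X) : Set X) ⊆ (S : Set X) := by
      rw [← Alp.coe_rc, hrc]; exact fun y hy => hUS 1 hy
    obtain ⟨l, hl, hchain⟩ := Alp.alperin_list S _ x⁻¹ hA hAg
    have h1 := chain_ev hm h2 hm4 S e l (U 0) (hU 0) hev0 hchain
    rw [hl, hrc] at h1
    have h3 := h1 _ (hsU 1)
    rw [ev_emb, par_sr, map_one] at h3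
    exact one_ne_zero h3
  · intro V hV
    have hp : IsPGroup 2 V := IsPGroup.of_card (n := 2) (by rw [hV.card_four]; norm_num)
    obtain ⟨Q, hQ⟩ := hp.exists_le_sylow
    obtain ⟨g, hg⟩ := sylow_conj_mem' S Q
    obtain ⟨V', hV'def⟩ : ∃ V' : Subgroup X, V' = V.map (MulAut.conj g).toMonoidHom := ⟨_, rfl⟩
    have hV' : IsKleinFour V' := by
      rw [hV'def]
      exact isKleinFour_of_mulEquiv (V.equivMapOfInjective _ (MulAut.conj g).injective) hV
    have hV'S : V' ≤ (S : Subgroup X) := by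
      rw [hV'def]
      rintro _ ⟨v, hv, rfl⟩
      have := hg v (hQ hv)
      simpa [MulAut.conj_apply] using this
    obtain ⟨t, htV, htR⟩ := exists_not_mem_rot_of_kleinFour (S : Subgroup X) e hV'
    have htS := hV'S htV
    obtain ⟨i, hi⟩ := exists_sr_of_not_mem_rot htS htR
    have hte : emb (S : Subgroup X) e (DihedralGroup.sr i) = t := by
      rw [← hi]; exact emb_e _ e htS
    obtain ⟨z₀, hz₀⟩ : ∃ z₀ : X, z₀ = emb (S : Subgroup X) e (DihedralGroup.r h) := ⟨_, rfl⟩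
    have hz₀R : z₀ ∈ rot (S : Subgroup X) e := by
      rw [hz₀]
      exact mem_rot.mpr ⟨emb_mem _ e _, h, e_emb _ e _ _⟩
    have hz₀2 : orderOf z₀ = 2 := by
      apply orderOf_eq_prime
      · rw [pow_two, hz₀, ← map_mul, ha, map_one]
      · intro hc
        apply ha1
        apply emb_injective (S : Subgroup X) e
        rw [map_one, ← hz₀]; exact hc
    have hzV : z₀ ∈ V' := by
      obtain ⟨v, hv, hv1, hvt⟩ := kleinFour_exists_ne hV' t
      have key : ∀ w ∈ V', w ∈ rot (S : Subgroup X) e → w ≠ 1 → w = z₀ := by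
        intro w hw hwR hw1
        have hw2 : orderOf w = 2 :=
          orderOf_eq_prime (by rw [pow_two]; exact kleinFour_mul_self hV' hw) hw1
        haveI : IsCyclic (rot (S : Subgroup X) e) := rot_isCyclic _ e
        have h1 := involution_unique_of_isCyclic (C := rot (S : Subgroup X) e)
          (a := ⟨w, hwR⟩) (b := ⟨z₀, hz₀R⟩) (by rw [Subgroup.orderOf_mk]; exact hw2)
          (by rw [Subgroup.orderOf_mk]; exact hz₀2)
        exact congrArg Subtype.val h1
      by_cases hvR : v ∈ rot (S : Subgroup X) e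
      · rw [← key v hv hvR hv1]; exact hv
      · have h1 := mul_mem_rot_of_not_mem htS (hV'S hv) htR hvR
        have h2' : t * v ≠ 1 := by
          intro hc
          apply hvt
          have htt := kleinFour_mul_self hV' htV
          calc v = (t * t) * v := by rw [htt, one_mul]
            _ = t * (t * v) := by group
            _ = t := by rw [hc, mul_one]
        rw [← key (t * v) (mul_mem htV hv) h1 h2']; exact mul_mem htV hv
    have htt : t * t = 1 := kleinFour_mul_self hV' htV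
    have hzz : z₀ * z₀ = 1 := kleinFour_mul_self hV' hzV
    have hzt : z₀ * t = t * z₀ := kleinFour_comm hV' hzV htV
    have hz1 : z₀ ≠ 1 := by
      intro hc
      rw [hc, orderOf_one] at hz₀2
      omega
    have ht1 : t ≠ 1 := by
      rintro rfl
      exact htR (one_mem _)
    have hzne : z₀ ≠ t := by
      intro hc
      exact htR (hc ▸ hz₀R)
    have hVeq := eq_fourSub' hV' hzz htt hzt hz1 ht1 hzne hzV htV
    have hmain : ∀ (kk : ZMod m) (j : ZMod m), j + j = i - kk →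
        ∃ x : X, V.map (MulAut.conj x).toMonoidHom = U kk := by
      intro kk j hj
      obtain ⟨c, hc⟩ : ∃ c : X, c = emb (S : Subgroup X) e (DihedralGroup.r j) := ⟨_, rfl⟩
      have hcz : c * z₀ * c⁻¹ = z₀ := by
        rw [hc, hz₀, ← map_inv, ← map_mul, ← map_mul]
        congr 1
        rw [DihedralGroup.inv_r, DihedralGroup.r_mul_r, DihedralGroup.r_mul_r]
        congr 1
        ring
      have hct : c * t * c⁻¹ = emb (S : Subgroup X) e (DihedralGroup.sr kk) := by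
        rw [hc, ← hte, ← map_inv, ← map_mul, ← map_mul]
        congr 1
        rw [DihedralGroup.inv_r, DihedralGroup.r_mul_sr, DihedralGroup.sr_mul_r]
        congr 1
        have h1 : i - j + -j = i - (j + j) := by ring
        rw [h1, hj]; ring
      have hconj : ∀ v' ∈ V', c * v' * c⁻¹ ∈ U kk := by
        intro v' hv'
        rw [hVeq] at hv'
        rcases mem_fourSub.mp hv' with h1 | h1 | h1 | h1
        · rw [h1]; simp
        · rw [h1, hcz, hz₀]; exact hzU kk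
        · rw [h1, hct]; exact hsU kk
        · have h3 : c * (z₀ * t) * c⁻¹ = (c * z₀ * c⁻¹) * (c * t * c⁻¹) := by group
          rw [h1, h3, hcz, hct, hz₀]; exact mul_mem (hzU kk) (hsU kk)
      refine ⟨c * g, ?_⟩
      apply Subgroup.eq_of_le_of_card_ge
      · rintro _ ⟨v, hv, rfl⟩
        have h1 := hconj (g * v * g⁻¹) (by
          rw [hV'def]
          exact Subgroup.mem_map.mpr ⟨v, hv, by simp [MulAut.conj_apply]⟩)
        have e1 : (MulAut.conj (c * g)).toMonoidHom v = c * (g * v * g⁻¹) * c⁻¹ := by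
          simp only [MulEquiv.coe_toMonoidHom, MulAut.conj_apply]
          group
        rw [e1]; exact h1
      · rw [Subgroup.card_map_of_injective (MulAut.conj (c * g)).injective, hV.card_four,
          (hU kk).card_four]
    by_cases hpar : ZMod.castHom h2 (ZMod 2) i = 0
    · left
      obtain ⟨j, hj⟩ := exists_half h2 i hpar
      exact hmain 0 j (by rw [hj, sub_zero])
    · right
      have hpar1 : ZMod.castHom h2 (ZMod 2) (i - 1) = 0 := by
        rw [map_sub, map_one, zmod2_aux4 _ hpar, sub_self]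
      obtain ⟨j, hj⟩ := exists_half h2 (i - 1) hpar1
      exact hmain 1 j hj

end Cfsg.Agent.H11.DK
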