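import Mathlib
import Cfsg.Agent.H84.DihDefs
import Cfsg.Agent.H24.DihBASIC

set_option autoImplicit false
set_option linter.unusedSectionVars false

open Cfsg.Agent.H84.Dih

universe u

namespace Cfsg.Agent.H11.Dih

variable {G : Type u} [Group G] [Finite G] {n : ℕ} {P : Sylow 2 G} {σ τ : G} {X : Subgroup G}

/-- Generic count: pairs `(u, v)` with `u` in the `H`-class of `t` and `Q u v`, when the number of
`v` with `Q (g t g⁻¹) v` is the same for all `g ∈ H`. -/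
theorem count_class_pairs (H : Subgroup G) (t : G) (Q : G → G → Prop) (a m : ℕ)
    (hQ : ∀ g ∈ H, Nat.card {v : G // Q (g * t * g⁻¹) v} * a = m) :
    Nat.card {q : G × G // (∃ g ∈ H, q.1 = g * t * g⁻¹) ∧ Q q.1 q.2} *
      Nat.card {c : G // c ∈ H ∧ c * t * c⁻¹ = t} * a = Nat.card H * m := by
  classical
  have hT : Nat.card {p : ↥H × G // Q (p.1.1 * t * p.1.1⁻¹) p.2} * a = Nat.card H * m := by
    rw [Nat.card_congr (Equiv.subtypeProdEquivSigmaSubtype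
      (fun (g : ↥H) (v : G) => Q (g.1 * t * g.1⁻¹) v))]
    have : Fintype ↥H := Fintype.ofFinite _
    rw [Nat.card_sigma, Finset.sum_mul]
    rw [Finset.sum_congr rfl (fun g _ => hQ g.1 g.2)]
    rw [Finset.sum_const, Finset.card_univ, smul_eq_mul, Nat.card_eq_fintype_card]
  have hex : ∀ q : {q : G × G // (∃ g ∈ H, q.1 = g * t * g⁻¹) ∧ Q q.1 q.2},
      ∃ g ∈ H, q.1.1 = g * t * g⁻¹ := fun q => q.2.1
  choose γ hγH hγ using hex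
  have hconjeq : ∀ (q : {q : G × G // (∃ g ∈ H, q.1 = g * t * g⁻¹) ∧ Q q.1 q.2})
      (c : {c : G // c ∈ H ∧ c * t * c⁻¹ = t}),
      (γ q * c.1) * t * (γ q * c.1)⁻¹ = q.1.1 := by
    intro q c
    have h1 : (γ q * c.1) * t * (γ q * c.1)⁻¹ = γ q * (c.1 * t * c.1⁻¹) * (γ q)⁻¹ := by group
    rw [h1, c.2.2, ← hγ q]
  have hΨmem : ∀ z : {q : G × G // (∃ g ∈ H, q.1 = g * t * g⁻¹) ∧ Q q.1 q.2} ×
      {c : G // c ∈ H ∧ c * t * c⁻¹ = t},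
      Q ((γ z.1 * z.2.1) * t * (γ z.1 * z.2.1)⁻¹) z.1.1.2 := by
    intro z; rw [hconjeq]; exact z.1.2.2
  let Ψ : {q : G × G // (∃ g ∈ H, q.1 = g * t * g⁻¹) ∧ Q q.1 q.2} ×
      {c : G // c ∈ H ∧ c * t * c⁻¹ = t} →
      {p : ↥H × G // Q (p.1.1 * t * p.1.1⁻¹) p.2} :=
    fun z => ⟨(⟨γ z.1 * z.2.1, H.mul_mem (hγH z.1) z.2.2.1⟩, z.1.1.2), hΨmem z⟩
  have hinj : Function.Injective Ψ := by
    rintro ⟨q, c⟩ ⟨q', c'⟩ heq
    have e1 : γ q * c.1 = γ q' * c'.1 := congrArg (fun p => p.1.1.1) heq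
    have e2 : q.1.2 = q'.1.2 := congrArg (fun p => p.1.2) heq
    have e3 : q.1.1 = q'.1.1 := by
      rw [← hconjeq q c, ← hconjeq q' c', e1]
    have e4 : q = q' := Subtype.ext (Prod.ext e3 e2)
    subst e4
    have e5 : c = c' := Subtype.ext (mul_left_cancel e1)
    subst e5
    rfl
  have hsurj : Function.Surjective Ψ := by
    rintro ⟨⟨g, v⟩, hgv⟩
    set q : {q : G × G // (∃ g ∈ H, q.1 = g * t * g⁻¹) ∧ Q q.1 q.2} :=
      ⟨(g.1 * t * g.1⁻¹, v), ⟨⟨g.1, g.2, rfl⟩, hgv⟩⟩ with hq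
    have hγq : g.1 * t * g.1⁻¹ = γ q * t * (γ q)⁻¹ := hγ q
    have hc : ((γ q)⁻¹ * g.1) * t * ((γ q)⁻¹ * g.1)⁻¹ = t := by
      have h1 : ((γ q)⁻¹ * g.1) * t * ((γ q)⁻¹ * g.1)⁻¹
          = (γ q)⁻¹ * (g.1 * t * g.1⁻¹) * γ q := by group
      rw [h1, hγq]; group
    refine ⟨(q, ⟨(γ q)⁻¹ * g.1, H.mul_mem (H.inv_mem (hγH q)) g.2, hc⟩), ?_⟩
    apply Subtype.ext
    apply Prod.ext
    · apply Subtype.ext
      show γ q * ((γ q)⁻¹ * g.1) = g.1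
      rw [mul_inv_cancel_left]
    · rfl
  have hbij : Nat.card {q : G × G // (∃ g ∈ H, q.1 = g * t * g⁻¹) ∧ Q q.1 q.2} *
      Nat.card {c : G // c ∈ H ∧ c * t * c⁻¹ = t}
      = Nat.card {p : ↥H × G // Q (p.1.1 * t * p.1.1⁻¹) p.2} := by
    rw [← Nat.card_prod]
    exact Nat.card_congr (Equiv.ofBijective Ψ ⟨hinj, hsurj⟩)
  rw [hbij, hT]

/-- `C_{C(J)}(t)` as a subtype. -/
theorem card_cent_pair (J t : G) :
    Nat.card {c : G // c ∈ Subgroup.centralizer ({J} : Set G) ∧ c * t * c⁻¹ = t} =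
      Nat.card (Subgroup.centralizer ({J, t} : Set G)) := by
  apply Nat.card_congr
  apply Equiv.subtypeEquivRight
  intro c
  rw [Subgroup.mem_centralizer_iff, Subgroup.mem_centralizer_iff]
  constructor
  · rintro ⟨h1, h2⟩ x hx
    rcases hx with rfl | hx
    · exact h1 _ rfl
    · rw [Set.mem_singleton_iff] at hx
      rw [hx]
      exact (mul_inv_eq_iff_eq_mul.mp h2).symm
  · intro h
    refine ⟨fun x hx => h x ?_, ?_⟩
    · rw [Set.mem_singleton_iff] at hx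
      rw [hx]
      exact Set.mem_insert _ _
    · exact mul_inv_eq_iff_eq_mul.mpr (h t (Set.mem_insert_of_mem _ rfl)).symm

theorem invol_mul_self {u : G} (hu : orderOf u = 2) : u * u = 1 := by
  rw [← sq, ← hu]; exact pow_orderOf_eq_one u

theorem invol_inv {u : G} (hu : orderOf u = 2) : u⁻¹ = u :=
  inv_eq_of_mul_eq_one_left (invol_mul_self hu)

theorem pow_card_of_mem {ρ : G} (hρ : ρ ∈ X) : ρ ^ Nat.card X = 1 := by
  have h3' : (⟨ρ, hρ⟩ : X) ^ Nat.card X = 1 := pow_card_eq_one'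
  have h4 : (((⟨ρ, hρ⟩ : X) ^ Nat.card X : X) : G) = ((1 : X) : G) := congrArg Subtype.val h3'
  rw [Subgroup.coe_pow] at h4
  exact h4

/-- Steps (i), (ii) for `π = J`: the first involution of a pair with product in `J X` lies in
`C(J)` and is not `J`. -/
theorem mem_cent_J_of_pair (h : Hyp n P σ τ) (hX : Core n P σ X) {u v ρ : G}
    (hu : orderOf u = 2) (hv : orderOf v = 2) (hρ : ρ ∈ X)
    (huv : u * v = σ ^ (2 ^ (n - 2)) * ρ) :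
    u ∈ Subgroup.centralizer ({σ ^ (2 ^ (n - 2))} : Set G) ∧ u ≠ σ ^ (2 ^ (n - 2)) := by
  have hui := invol_inv hu
  have hvi := invol_inv hv
  have huu := invol_mul_self hu
  have hJJ : σ ^ (2 ^ (n - 2)) * σ ^ (2 ^ (n - 2)) = 1 := Cfsg.Agent.H24.Dih.J_sq h
  obtain ⟨m, hm⟩ := hX.odd
  have hρc : σ ^ (2 ^ (n - 2)) * ρ = ρ * σ ^ (2 ^ (n - 2)) := by
    have h1 := hX.le hρ
    rw [Subgroup.mem_centralizer_iff] at h1
    exact h1 _ rfl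
  have hρN : ρ ^ Nat.card X = 1 := pow_card_of_mem hρ
  have hJN : (σ ^ (2 ^ (n - 2))) ^ Nat.card X = σ ^ (2 ^ (n - 2)) := by
    rw [hm, pow_succ, pow_mul, sq, hJJ, one_pow, one_mul]
  have hpow : (σ ^ (2 ^ (n - 2)) * ρ) ^ Nat.card X = σ ^ (2 ^ (n - 2)) := by
    have hc : Commute (σ ^ (2 ^ (n - 2))) ρ := hρc
    rw [hc.mul_pow, hρN, hJN, mul_one]
  have hinv : u * (σ ^ (2 ^ (n - 2)) * ρ) * u⁻¹ = (σ ^ (2 ^ (n - 2)) * ρ)⁻¹ := by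
    rw [← huv, mul_inv_rev, hui, hvi, ← mul_assoc u u v, huu, one_mul]
  have hconj : u * σ ^ (2 ^ (n - 2)) * u⁻¹ = σ ^ (2 ^ (n - 2)) := by
    calc u * σ ^ (2 ^ (n - 2)) * u⁻¹
        = u * (σ ^ (2 ^ (n - 2)) * ρ) ^ Nat.card X * u⁻¹ := by rw [hpow]
      _ = (u * (σ ^ (2 ^ (n - 2)) * ρ) * u⁻¹) ^ Nat.card X := (conj_pow).symm
      _ = ((σ ^ (2 ^ (n - 2)) * ρ)⁻¹) ^ Nat.card X := by rw [hinv]
      _ = ((σ ^ (2 ^ (n - 2)) * ρ) ^ Nat.card X)⁻¹ := inv_pow _ _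
      _ = (σ ^ (2 ^ (n - 2)))⁻¹ := by rw [hpow]
      _ = σ ^ (2 ^ (n - 2)) := inv_eq_of_mul_eq_one_left hJJ
  refine ⟨?_, ?_⟩
  · rw [Subgroup.mem_centralizer_iff]
    intro x hx
    rw [Set.mem_singleton_iff] at hx
    rw [hx]
    exact (mul_inv_eq_iff_eq_mul.mp hconj).symm
  · intro huJ
    rw [huJ] at huv
    have hvρ : v = ρ := mul_left_cancel huv
    have hdvd : orderOf v ∣ Nat.card X := by
      rw [hvρ]
      have h1 := orderOf_dvd_natCard (⟨ρ, hρ⟩ : X)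
      rwa [← Subgroup.orderOf_coe] at h1
    rw [hv, hm] at hdvd
    omega

theorem arith_J (S A B α β c x : ℕ) (hS : S = A + B) (hA : A * (4 * α) * α = c * x)
    (hB : B * (4 * β) * β = c * x) :
    S * (4 * α ^ 2 * β ^ 2) = c * x * (α ^ 2 + β ^ 2) := by
  subst hS
  calc (A + B) * (4 * α ^ 2 * β ^ 2)
      = (A * (4 * α) * α) * β ^ 2 + (B * (4 * β) * β) * α ^ 2 := by ring
    _ = (c * x) * β ^ 2 + (c * x) * α ^ 2 := by rw [hA, hB]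
    _ = c * x * (α ^ 2 + β ^ 2) := by ring

/-- The splitting of the pairs by the `C(J)`-class of the first involution (generic `π`). -/
theorem card_split (h : Hyp n P σ τ)
    (hconj : IsConj (σ ^ (2 ^ (n - 2))) τ ∧ IsConj (σ ^ (2 ^ (n - 2))) (σ * τ))
    (hclass : ∀ u : G, orderOf u = 2 →
      u ∈ Subgroup.centralizer ({σ ^ (2 ^ (n - 2))} : Set G) → u ≠ σ ^ (2 ^ (n - 2)) →
      (∃ g ∈ Subgroup.centralizer ({σ ^ (2 ^ (n - 2))} : Set G), u = g * τ * g⁻¹) ∨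
      (∃ g ∈ Subgroup.centralizer ({σ ^ (2 ^ (n - 2))} : Set G), u = g * (σ * τ) * g⁻¹))
    (hnot : ∀ g ∈ Subgroup.centralizer ({σ ^ (2 ^ (n - 2))} : Set G), g * τ * g⁻¹ ≠ σ * τ)
    (π : G)
    (hπ : ∀ u v ρ : G, orderOf u = 2 → orderOf v = 2 → ρ ∈ X → u * v = π * ρ →
      u ∈ Subgroup.centralizer ({σ ^ (2 ^ (n - 2))} : Set G) ∧ u ≠ σ ^ (2 ^ (n - 2))) :
    Nat.card {q : G × G // IsConj (σ ^ (2 ^ (n - 2))) q.1 ∧ IsConj (σ ^ (2 ^ (n - 2))) q.2 ∧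
        ∃ ρ ∈ X, q.1 * q.2 = π * ρ} =
      Nat.card {q : G × G //
        (∃ g ∈ Subgroup.centralizer ({σ ^ (2 ^ (n - 2))} : Set G), q.1 = g * τ * g⁻¹) ∧
          (orderOf q.2 = 2 ∧ ∃ ρ ∈ X, q.1 * q.2 = π * ρ)} +
      Nat.card {q : G × G //
        (∃ g ∈ Subgroup.centralizer ({σ ^ (2 ^ (n - 2))} : Set G), q.1 = g * (σ * τ) * g⁻¹) ∧
          (orderOf q.2 = 2 ∧ ∃ ρ ∈ X, q.1 * q.2 = π * ρ)} := by
  classical
  have hall := Cfsg.Agent.H24.Dih.all_conj h hconj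
  have hiff : ∀ q : G × G,
      (IsConj (σ ^ (2 ^ (n - 2))) q.1 ∧ IsConj (σ ^ (2 ^ (n - 2))) q.2 ∧
        ∃ ρ ∈ X, q.1 * q.2 = π * ρ) ↔
      (((∃ g ∈ Subgroup.centralizer ({σ ^ (2 ^ (n - 2))} : Set G), q.1 = g * τ * g⁻¹) ∧
          (orderOf q.2 = 2 ∧ ∃ ρ ∈ X, q.1 * q.2 = π * ρ)) ∨
       ((∃ g ∈ Subgroup.centralizer ({σ ^ (2 ^ (n - 2))} : Set G), q.1 = g * (σ * τ) * g⁻¹) ∧
          (orderOf q.2 = 2 ∧ ∃ ρ ∈ X, q.1 * q.2 = π * ρ))) := by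
    intro q
    constructor
    · rintro ⟨h1, h2, ρ, hρ, h3⟩
      have hu := (hall q.1).mpr h1
      have hv := (hall q.2).mpr h2
      obtain ⟨huC, huJ⟩ := hπ q.1 q.2 ρ hu hv hρ h3
      rcases hclass q.1 hu huC huJ with hc | hc
      · exact Or.inl ⟨hc, hv, ρ, hρ, h3⟩
      · exact Or.inr ⟨hc, hv, ρ, hρ, h3⟩
    · rintro (⟨⟨g, hg, hgu⟩, hv, ρ, hρ, h3⟩ | ⟨⟨g, hg, hgu⟩, hv, ρ, hρ, h3⟩)
      · refine ⟨?_, (hall q.2).mp hv, ρ, hρ, h3⟩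
        rw [hgu]
        exact hconj.1.trans (isConj_iff.mpr ⟨g, rfl⟩)
      · refine ⟨?_, (hall q.2).mp hv, ρ, hρ, h3⟩
        rw [hgu]
        exact hconj.2.trans (isConj_iff.mpr ⟨g, rfl⟩)
  have hdisj : Disjoint
      (fun q : G × G =>
        (∃ g ∈ Subgroup.centralizer ({σ ^ (2 ^ (n - 2))} : Set G), q.1 = g * τ * g⁻¹) ∧
          (orderOf q.2 = 2 ∧ ∃ ρ ∈ X, q.1 * q.2 = π * ρ))
      (fun q : G × G =>
        (∃ g ∈ Subgroup.centralizer ({σ ^ (2 ^ (n - 2))} : Set G), q.1 = g * (σ * τ) * g⁻¹) ∧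
          (orderOf q.2 = 2 ∧ ∃ ρ ∈ X, q.1 * q.2 = π * ρ)) := by
    rw [disjoint_iff_inf_le]
    rintro q ⟨⟨⟨g, hg, hgu⟩, -⟩, ⟨⟨g', hg', hgu'⟩, -⟩⟩
    apply hnot (g'⁻¹ * g) (Subgroup.mul_mem _ (Subgroup.inv_mem _ hg') hg)
    have h1 : (g'⁻¹ * g) * τ * (g'⁻¹ * g)⁻¹ = g'⁻¹ * (g * τ * g⁻¹) * g' := by group
    rw [h1, ← hgu, hgu']; group
  exact (Nat.card_congr ((Equiv.subtypeEquivRight hiff).trans
    (subtypeOrEquiv _ _ hdisj))).trans Nat.card_sum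

theorem card_invol_pairs_J_core (h : Hyp n P σ τ) (hX : Core n P σ X)
    (hconj : IsConj (σ ^ (2 ^ (n - 2))) τ ∧ IsConj (σ ^ (2 ^ (n - 2))) (σ * τ))
    (hclass : ∀ u : G, orderOf u = 2 →
      u ∈ Subgroup.centralizer ({σ ^ (2 ^ (n - 2))} : Set G) → u ≠ σ ^ (2 ^ (n - 2)) →
      (∃ g ∈ Subgroup.centralizer ({σ ^ (2 ^ (n - 2))} : Set G), u = g * τ * g⁻¹) ∨
      (∃ g ∈ Subgroup.centralizer ({σ ^ (2 ^ (n - 2))} : Set G), u = g * (σ * τ) * g⁻¹))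
    (hnot : ∀ g ∈ Subgroup.centralizer ({σ ^ (2 ^ (n - 2))} : Set G), g * τ * g⁻¹ ≠ σ * τ)
    (hιτ : ∀ g ∈ Subgroup.centralizer ({σ ^ (2 ^ (n - 2))} : Set G),
      Nat.card {v : G // orderOf v = 2 ∧ ∃ ρ ∈ X, g * τ * g⁻¹ * v = σ ^ (2 ^ (n - 2)) * ρ} *
        Nat.card ↥(X ⊓ Subgroup.centralizer ({τ} : Set G)) = Nat.card X)
    (hιστ : ∀ g ∈ Subgroup.centralizer ({σ ^ (2 ^ (n - 2))} : Set G),
      Nat.card {v : G // orderOf v = 2 ∧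
          ∃ ρ ∈ X, g * (σ * τ) * g⁻¹ * v = σ ^ (2 ^ (n - 2)) * ρ} *
        Nat.card ↥(X ⊓ Subgroup.centralizer ({σ * τ} : Set G)) = Nat.card X)
    (hcτ : Nat.card (Subgroup.centralizer ({σ ^ (2 ^ (n - 2)), τ} : Set G)) =
      4 * Nat.card ↥(X ⊓ Subgroup.centralizer ({τ} : Set G)))
    (hcστ : Nat.card (Subgroup.centralizer ({σ ^ (2 ^ (n - 2)), σ * τ} : Set G)) =
      4 * Nat.card ↥(X ⊓ Subgroup.centralizer ({σ * τ} : Set G))) :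
    Nat.card {q : G × G // IsConj (σ ^ (2 ^ (n - 2))) q.1 ∧ IsConj (σ ^ (2 ^ (n - 2))) q.2 ∧
        ∃ ρ ∈ X, q.1 * q.2 = σ ^ (2 ^ (n - 2)) * ρ} *
      (4 * Nat.card ↥(X ⊓ Subgroup.centralizer ({τ} : Set G)) ^ 2 *
        Nat.card ↥(X ⊓ Subgroup.centralizer ({σ * τ} : Set G)) ^ 2) =
    Nat.card (Subgroup.centralizer ({σ ^ (2 ^ (n - 2))} : Set G)) * Nat.card X *
      (Nat.card ↥(X ⊓ Subgroup.centralizer ({τ} : Set G)) ^ 2 +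
        Nat.card ↥(X ⊓ Subgroup.centralizer ({σ * τ} : Set G)) ^ 2) := by
  have hsplit := card_split (X := X) h hconj hclass hnot (σ ^ (2 ^ (n - 2)))
    (fun u v ρ hu hv hρ huv => mem_cent_J_of_pair h hX hu hv hρ huv)
  have hAτ := count_class_pairs (Subgroup.centralizer ({σ ^ (2 ^ (n - 2))} : Set G)) τ
    (fun u v => orderOf v = 2 ∧ ∃ ρ ∈ X, u * v = σ ^ (2 ^ (n - 2)) * ρ) _ _ hιτ
  have hAστ := count_class_pairs (Subgroup.centralizer ({σ ^ (2 ^ (n - 2))} : Set G)) (σ * τ)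
    (fun u v => orderOf v = 2 ∧ ∃ ρ ∈ X, u * v = σ ^ (2 ^ (n - 2)) * ρ) _ _ hιστ
  rw [card_cent_pair, hcτ] at hAτ
  rw [card_cent_pair, hcστ] at hAστ
  exact arith_J _ _ _ _ _ _ _ hsplit hAτ hAστ

end Cfsg.Agent.H11.Dih

#print axioms Cfsg.Agent.H11.Dih.card_invol_pairs_J_core
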