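import Mathlib
import Cfsg.Agent.H84.DihDefs
import Cfsg.Agent.H11.DihENL

set_option autoImplicit false
set_option linter.unusedSectionVars false

open Cfsg.Agent.H84.Dih

universe u

namespace Cfsg.Agent.H11.Dih

variable {G : Type u} [Group G] [Finite G] {n : ℕ} {P : Sylow 2 G} {σ τ : G} {X : Subgroup G}

/-- General form: a 2-element `π` normalizing an odd-order subgroup `X`; every element of the
coset `π X` is `X`-conjugate to an element of `π C_X(π)`. -/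
theorem sz_aux (π : G) (k : ℕ) (hπ : orderOf π = 2 ^ k) (X : Subgroup G)
    (hodd : Odd (Nat.card X)) (hnorm : ∀ x ∈ X, π * x * π⁻¹ ∈ X) :
    ∀ ρ ∈ X, ∃ y ∈ X, ∃ ρ' ∈ X ⊓ Subgroup.centralizer ({π} : Set G),
      π * ρ = y * (π * ρ') * y⁻¹ := by
  classical
  have hX₀ := mem_inf_cent π X
  have hnorm' := norm_inv π k hπ X hnorm
  have : Fintype ↥X := Fintype.ofFinite _
  have : Fintype ↥(X ⊓ Subgroup.centralizer ({π} : Set G)) := Fintype.ofFinite _
  have hmem : ∀ q : ↥X × ↥(X ⊓ Subgroup.centralizer ({π} : Set G)),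
      π⁻¹ * (q.1.1 * (π * q.2.1) * q.1.1⁻¹) ∈ X := by
    rintro ⟨⟨y, hy⟩, ⟨ρ', hρ'⟩⟩
    have h1 := hnorm' y hy
    have h2 := ((hX₀ ρ').mp hρ').1
    have e : π⁻¹ * (y * (π * ρ') * y⁻¹) = (π⁻¹ * y * π) * ρ' * y⁻¹ := by group
    show π⁻¹ * (y * (π * ρ') * y⁻¹) ∈ X
    rw [e]
    exact X.mul_mem (X.mul_mem h1 h2) (X.inv_mem hy)
  let Φ : ↥X × ↥(X ⊓ Subgroup.centralizer ({π} : Set G)) → ↥X := fun q => ⟨_, hmem q⟩
  have hΦ : ∀ q q' : ↥X × ↥(X ⊓ Subgroup.centralizer ({π} : Set G)), Φ q = Φ q' →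
      q.1.1 * (π * q.2.1) * q.1.1⁻¹ = q'.1.1 * (π * q'.2.1) * q'.1.1⁻¹ := by
    intro q q' hqq
    have hval : π⁻¹ * (q.1.1 * (π * q.2.1) * q.1.1⁻¹)
        = π⁻¹ * (q'.1.1 * (π * q'.2.1) * q'.1.1⁻¹) := congrArg Subtype.val hqq
    exact mul_left_cancel hval
  have hfib : ∀ a ∈ (Finset.univ :
      Finset (↥X × ↥(X ⊓ Subgroup.centralizer ({π} : Set G)))).image Φ,
      (Finset.univ.filter (fun q => Φ q = a)).card
        ≤ Fintype.card ↥(X ⊓ Subgroup.centralizer ({π} : Set G)) := by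
    intro a ha
    obtain ⟨q₀, -, rfl⟩ := Finset.mem_image.mp ha
    have hc : Fintype.card ↥(X ⊓ Subgroup.centralizer ({π} : Set G))
        = ((Finset.univ : Finset ↥(X ⊓ Subgroup.centralizer ({π} : Set G))).image
            Subtype.val).card := by
      rw [Finset.card_image_of_injective _ Subtype.val_injective, Finset.card_univ]
    rw [hc]
    apply Finset.card_le_card_of_injOn (fun q => q₀.1.1⁻¹ * q.1.1)
    · intro q hq
      have hq' : Φ q = Φ q₀ := (Finset.mem_filter.mp hq).2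
      have hval' := hΦ q q₀ hq'
      have hz : (q₀.1.1⁻¹ * q.1.1) * (π * q.2.1) * (q₀.1.1⁻¹ * q.1.1)⁻¹ = π * q₀.2.1 := by
        have h1 : (q₀.1.1⁻¹ * q.1.1) * (π * q.2.1) * (q₀.1.1⁻¹ * q.1.1)⁻¹
            = q₀.1.1⁻¹ * (q.1.1 * (π * q.2.1) * q.1.1⁻¹) * q₀.1.1 := by group
        rw [h1, hval']; group
      have hq2 := (hX₀ _).mp q.2.2
      have hq02 := (hX₀ _).mp q₀.2.2
      have hzπ := conj_key π k hπ X hodd _ _ _ hq2.1 hq2.2 hq02.1 hq02.2 hz
      have hzX₀ : q₀.1.1⁻¹ * q.1.1 ∈ X ⊓ Subgroup.centralizer ({π} : Set G) := by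
        rw [hX₀]
        exact ⟨X.mul_mem (X.inv_mem q₀.1.2) q.1.2, (mul_inv_eq_iff_eq_mul.mp hzπ).symm⟩
      exact Finset.mem_image.mpr ⟨⟨_, hzX₀⟩, Finset.mem_univ _, rfl⟩
    · intro q hq q' hq' heq
      have hq1 : Φ q = Φ q₀ := (Finset.mem_filter.mp hq).2
      have hq1' : Φ q' = Φ q₀ := (Finset.mem_filter.mp hq').2
      have e1 : q.1.1 = q'.1.1 := mul_left_cancel heq
      have e2 := hΦ q q' (hq1.trans hq1'.symm)
      rw [e1] at e2
      have e3 : q.2.1 = q'.2.1 := mul_left_cancel (mul_left_cancel (mul_right_cancel e2))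
      exact Prod.ext (Subtype.ext e1) (Subtype.ext e3)
  have hcard := Finset.card_le_mul_card_image (Finset.univ :
      Finset (↥X × ↥(X ⊓ Subgroup.centralizer ({π} : Set G))))
      (Fintype.card ↥(X ⊓ Subgroup.centralizer ({π} : Set G))) hfib
  rw [Finset.card_univ, Fintype.card_prod] at hcard
  have hpos : 0 < Fintype.card ↥(X ⊓ Subgroup.centralizer ({π} : Set G)) := Fintype.card_pos
  have h2 : Fintype.card ↥X ≤ (Finset.univ.image Φ).card := by
    have h3 : Fintype.card ↥(X ⊓ Subgroup.centralizer ({π} : Set G)) * Fintype.card ↥X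
        ≤ Fintype.card ↥(X ⊓ Subgroup.centralizer ({π} : Set G))
          * (Finset.univ.image Φ).card := by
      rw [mul_comm]; exact hcard
    exact Nat.le_of_mul_le_mul_left h3 hpos
  have himg : Finset.univ.image Φ = Finset.univ :=
    Finset.eq_univ_of_card _ (le_antisymm (Finset.card_le_univ _) h2)
  intro ρ hρ
  have hmemρ : (⟨ρ, hρ⟩ : ↥X) ∈ Finset.univ.image Φ := by rw [himg]; exact Finset.mem_univ _
  obtain ⟨q, -, hq⟩ := Finset.mem_image.mp hmemρ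
  refine ⟨q.1.1, q.1.2, q.2.1, q.2.2, ?_⟩
  have hq' : π⁻¹ * (q.1.1 * (π * q.2.1) * q.1.1⁻¹) = ρ := congrArg Subtype.val hq
  rw [← hq', mul_inv_cancel_left]

theorem sz (h : Hyp n P σ τ) (hX : Core n P σ X) :
    ∀ ρ ∈ X, ∃ y ∈ X, ∃ ρ' ∈ X ⊓ Subgroup.centralizer ({σ} : Set G),
      σ * ρ = y * (σ * ρ') * y⁻¹ := by
  have hσc : σ ∈ Subgroup.centralizer ({σ ^ (2 ^ (n - 2))} : Set G) := by
    rw [Subgroup.mem_centralizer_iff]
    intro x hx
    rw [Set.mem_singleton_iff] at hx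
    subst hx
    rw [← pow_succ, ← pow_succ']
  exact sz_aux σ (n - 1) h.hσo X hX.odd (fun x hx => hX.norm σ hσc x hx)

example (h : Hyp n P σ τ) (hX : Core n P σ X) :
    ∀ ρ ∈ X, ∃ y ∈ X, ∃ ρ' ∈ X ⊓ Subgroup.centralizer ({σ} : Set G),
      σ * ρ = y * (σ * ρ') * y⁻¹ := sz h hX

end Cfsg.Agent.H11.Dih

#print axioms Cfsg.Agent.H11.Dih.sz
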