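import Mathlib
import Cfsg.Agent.S1003
import Cfsg.Agent.H11.G168A

/-!
# Simple groups of order 168: the Sylow 2-subgroup
-/

set_option autoImplicit false

namespace Cfsg.Agent.H11.G168

open Cfsg.Agent.H21 Subgroup

theorem sylow_conj_mem {G : Type*} [Group G] [Finite G] {p : ℕ} [Fact p.Prime]
    (P Q : Sylow p G) : ∃ g : G, ∀ y ∈ (Q : Subgroup G), g * y * g⁻¹ ∈ (P : Subgroup G) := by
  obtain ⟨g, hg⟩ := MulAction.exists_smul_eq G Q P
  refine ⟨g, ?_⟩
  intro y hy
  rw [← hg, Sylow.smul_def, Sylow.pointwise_smul_def]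
  have := Subgroup.smul_mem_pointwise_smul y (MulAut.conj g) (Q : Subgroup G) hy
  simpa [MulAut.smul_def] using this

theorem orderOf_sq_of_four {Q : Type*} [Group Q] {x : Q} (hx4 : orderOf x = 4) :
    orderOf (x * x) = 2 := by
  have h4 : x ^ 4 = 1 := by rw [← hx4]; exact pow_orderOf_eq_one x
  apply orderOf_eq_prime
  · rw [← pow_two, ← pow_mul]; exact h4
  · intro h1
    have : orderOf x ∣ 2 := orderOf_dvd_of_pow_eq_one (by rw [pow_two]; exact h1)
    rw [hx4] at this
    omega

variable {G : Type*} [Group G] [Finite G] [IsSimpleGroup G]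

theorem not_comm (h : Nat.card G = 168) : ¬ IsMulCommutative G :=
  not_comm_of_not_prime (by rw [h]; norm_num)

/-- Element orders (weak form). -/
theorem order_cases (h : Nat.card G = 168) (g : G) :
    orderOf g = 7 ∨ orderOf g = 3 ∨ orderOf g = 1 ∨ orderOf g = 2 ∨ orderOf g = 4 ∨
      orderOf g = 8 := by
  have : Fact (Nat.Prime 3) := ⟨by norm_num⟩
  have : Fact (Nat.Prime 7) := ⟨by norm_num⟩
  obtain ⟨P7⟩ : Nonempty (Sylow 7 G) := inferInstance
  obtain ⟨P3⟩ : Nonempty (Sylow 3 G) := inferInstance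
  obtain ⟨h7, hP7, hC7⟩ := Cfsg.Agent.S1003.sylow7 h P7
  obtain ⟨h3, hP3, hC3⟩ := Cfsg.Agent.S1003.sylow3 h P3
  have hdvd : orderOf g ∣ 168 := h ▸ orderOf_dvd_natCard g
  by_cases h7' : 7 ∣ orderOf g
  · left
    have := orderOf_dvd_card_centralizer_of_dvd 7 P7 hP7 g h7'
    rw [hC7] at this
    exact Nat.dvd_antisymm this h7'
  by_cases h3' : 3 ∣ orderOf g
  · right; left
    have := orderOf_dvd_card_centralizer_of_dvd 3 P3 hP3 g h3'
    rw [hC3] at this
    exact Nat.dvd_antisymm this h3'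
  right; right
  have h8 : orderOf g ∣ 8 := by
    have hc : Nat.Coprime (orderOf g) 21 := by
      have h21 : (21 : ℕ) = 3 * 7 := by norm_num
      rw [h21]
      apply Nat.Coprime.mul_right
      · exact (Nat.Prime.coprime_iff_not_dvd (by norm_num)).2 h3' |>.symm
      · exact (Nat.Prime.coprime_iff_not_dvd (by norm_num)).2 h7' |>.symm
    have h168 : (168 : ℕ) = 8 * 21 := by norm_num
    rw [h168] at hdvd
    exact hc.dvd_of_dvd_mul_right hdvd
  exact dvd_eight h8

theorem card_order7 (h : Nat.card G = 168) : Nat.card {g : G // orderOf g = 7} = 48 := by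
  have : Fact (Nat.Prime 7) := ⟨by norm_num⟩
  obtain ⟨P7⟩ : Nonempty (Sylow 7 G) := inferInstance
  obtain ⟨h7, hP7, hC7⟩ := Cfsg.Agent.S1003.sylow7 h P7
  rw [card_orderOf_eq_prime 7 P7 hP7, h7]

theorem card_order3 (h : Nat.card G = 168) : Nat.card {g : G // orderOf g = 3} = 56 := by
  have : Fact (Nat.Prime 3) := ⟨by norm_num⟩
  obtain ⟨P3⟩ : Nonempty (Sylow 3 G) := inferInstance
  obtain ⟨h3, hP3, hC3⟩ := Cfsg.Agent.S1003.sylow3 h P3
  rw [card_orderOf_eq_prime 3 P3 hP3, h3]

theorem card_sylow2 (h : Nat.card G = 168) (T : Sylow 2 G) : Nat.card (T : Subgroup G) = 8 := by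
  have : Fact (Nat.Prime 2) := ⟨by norm_num⟩
  have := sylow_card_of_card_eq (p := 2) (k := 3) (m := 21) (by rw [h]; norm_num) (by norm_num) T
  simpa using this

theorem normalizer_sylow2 (h : Nat.card G = 168) (T : Sylow 2 G) :
    normalizer ((T : Subgroup G) : Set G) = T := by
  have : Fact (Nat.Prime 2) := ⟨by norm_num⟩
  obtain ⟨hP, -, hidx, hdvd, hmod, hne1, hfact, hNn, -⟩ :=
    simple_sylow_facts (not_comm h) (p := 2) (k := 3) (m := 21) (by rw [h]; norm_num) (by norm_num)
      (by norm_num) T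
  have hn := (Cfsg.Agent.S1003.result h).1
  rw [hn, h] at hNn
  have hN : Nat.card (normalizer ((T : Subgroup G) : Set G)) = 8 := by omega
  symm
  apply Subgroup.eq_of_le_of_card_ge le_normalizer
  rw [hN, card_sylow2 h T]

theorem centralizer_invol_isPGroup (h : Nat.card G = 168) {t : G} (ht : orderOf t = 2) :
    IsPGroup 2 (centralizer ({t} : Set G)) := by
  rw [IsPGroup.iff_orderOf]
  intro g
  have hg : (g : G) * t = t * (g : G) := by
    have := g.2
    rw [mem_centralizer_iff] at this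
    exact (this t rfl).symm
  rw [← Subgroup.orderOf_coe]
  have key : ∀ q : ℕ, q = 3 ∨ q = 7 → orderOf (g : G) ≠ q := by
    intro q hq hgq
    have hco : (orderOf (g : G)).Coprime (orderOf t) := by
      rw [hgq, ht]; rcases hq with rfl | rfl <;> norm_num
    have := (show Commute (g : G) t from hg).orderOf_mul_eq_mul_orderOf_of_coprime hco
    rw [hgq, ht] at this
    have hc := order_cases h ((g : G) * t)
    rw [this] at hc
    rcases hq with rfl | rfl <;> omega
  rcases order_cases h (g : G) with h1 | h1 | h1 | h1 | h1 | h1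
  · exact absurd h1 (key 7 (Or.inr rfl))
  · exact absurd h1 (key 3 (Or.inl rfl))
  · exact ⟨0, by rw [h1]; rfl⟩
  · exact ⟨1, by rw [h1]; rfl⟩
  · exact ⟨2, by rw [h1]; rfl⟩
  · exact ⟨3, by rw [h1]; rfl⟩

theorem card_centralizer_invol_dvd (h : Nat.card G = 168) {t : G} (ht : orderOf t = 2) :
    Nat.card (centralizer ({t} : Set G)) ∣ 8 := by
  have : Fact (Nat.Prime 2) := ⟨by norm_num⟩
  obtain ⟨k, hk⟩ := IsPGroup.iff_card.mp (centralizer_invol_isPGroup h ht)
  have hd : Nat.card (centralizer ({t} : Set G)) ∣ 168 := h ▸ Subgroup.card_subgroup_dvd_card _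
  rw [hk] at hd ⊢
  have hk3 : k ≤ 3 := by
    by_contra hcon
    have h1 : 2 ^ 4 ∣ 2 ^ k := pow_dvd_pow 2 (by omega)
    have h2 := h1.trans hd
    norm_num at h2
  exact pow_dvd_pow 2 hk3

theorem sylow2_not_comm (h : Nat.card G = 168) (T : Sylow 2 G) :
    ¬ ∀ a b : (T : Subgroup G), a * b = b * a := by
  intro hc
  have : Fact (Nat.Prime 2) := ⟨by norm_num⟩
  apply simple_not_normalizer_le_centralizer (not_comm h) T
  · intro hb
    have := card_sylow2 h T
    rw [hb, Subgroup.card_bot] at this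
    omega
  · intro a ha
    have ha' : a ∈ (T : Subgroup G) := by
      rw [← normalizer_sylow2 h T]; exact ha
    rw [mem_centralizer_iff]
    intro b hb
    exact congrArg Subtype.val (hc ⟨b, hb⟩ ⟨a, ha'⟩)

theorem no_order8 (h : Nat.card G = 168) (g : G) : orderOf g ≠ 8 := by
  intro h8
  have : Fact (Nat.Prime 2) := ⟨by norm_num⟩
  have hp : IsPGroup 2 (zpowers g) := by
    apply IsPGroup.of_card (n := 3)
    rw [Nat.card_zpowers, h8]; norm_num
  obtain ⟨T, hT⟩ := hp.exists_le_sylow
  have heq : zpowers g = (T : Subgroup G) :=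
    Subgroup.eq_of_le_of_card_ge hT (by rw [Nat.card_zpowers, h8, card_sylow2 h T])
  apply sylow2_not_comm h T
  intro a b
  have ha : (a : G) ∈ zpowers g := by rw [heq]; exact a.2
  have hb : (b : G) ∈ zpowers g := by rw [heq]; exact b.2
  obtain ⟨i, hi⟩ := mem_zpowers_iff.mp ha
  obtain ⟨j, hj⟩ := mem_zpowers_iff.mp hb
  apply Subtype.ext
  show (a : G) * b = b * a
  rw [← hi, ← hj]
  exact ((Commute.refl g).zpow_zpow i j).eq

/-- Element orders. -/
theorem order_cases' (h : Nat.card G = 168) (g : G) :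
    orderOf g = 1 ∨ orderOf g = 2 ∨ orderOf g = 3 ∨ orderOf g = 4 ∨ orderOf g = 7 := by
  rcases order_cases h g with h1 | h1 | h1 | h1 | h1 | h1
  · exact Or.inr (Or.inr (Or.inr (Or.inr h1)))
  · exact Or.inr (Or.inr (Or.inl h1))
  · exact Or.inl h1
  · exact Or.inr (Or.inl h1)
  · exact Or.inr (Or.inr (Or.inr (Or.inl h1)))
  · exact absurd h1 (no_order8 h g)

theorem sylow2_exists_order4 (h : Nat.card G = 168) (T : Sylow 2 G) :
    ∃ x ∈ (T : Subgroup G), orderOf x = 4 := by
  obtain ⟨x, hx⟩ := order8_exists_order4 (card_sylow2 h T) (sylow2_not_comm h T)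
  exact ⟨x.1, x.2, by rw [Subgroup.orderOf_coe]; exact hx⟩

theorem sq_central (h : Nat.card G = 168) (T : Sylow 2 G) {x : G} (hx : x ∈ (T : Subgroup G))
    (hx4 : orderOf x = 4) : ∀ t ∈ (T : Subgroup G), t * (x * x) = (x * x) * t := by
  intro t ht
  have := (order8_struct (card_sylow2 h T) (sylow2_not_comm h T) (x := ⟨x, hx⟩)
    (by rw [Subgroup.orderOf_mk]; exact hx4)).2 ⟨t, ht⟩
  exact congrArg Subtype.val this

theorem conj_inv (h : Nat.card G = 168) (T : Sylow 2 G) {x : G} (hx : x ∈ (T : Subgroup G))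
    (hx4 : orderOf x = 4) : ∀ t ∈ (T : Subgroup G), t ∉ zpowers x → t * x * t⁻¹ = x⁻¹ := by
  intro t ht htx
  have hnot : (⟨t, ht⟩ : (T : Subgroup G)) ∉ zpowers (⟨x, hx⟩ : (T : Subgroup G)) := by
    intro hmem
    obtain ⟨k, hk⟩ := mem_zpowers_iff.mp hmem
    apply htx
    rw [mem_zpowers_iff]
    refine ⟨k, ?_⟩
    have := congrArg Subtype.val hk
    simpa using this
  have := (order8_struct (card_sylow2 h T) (sylow2_not_comm h T) (x := ⟨x, hx⟩)
    (by rw [Subgroup.orderOf_mk]; exact hx4)).1 ⟨t, ht⟩ hnot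
  exact congrArg Subtype.val this

/-- The centralizer of an involution central in a Sylow 2-subgroup is that Sylow subgroup. -/
theorem centralizer_eq_of_invol (h : Nat.card G = 168) (T : Sylow 2 G) {z : G}
    (hz2 : orderOf z = 2) (hzc : ∀ t ∈ (T : Subgroup G), t * z = z * t) :
    centralizer ({z} : Set G) = T := by
  symm
  apply Subgroup.eq_of_le_of_card_ge
  · intro t ht
    rw [mem_centralizer_iff]
    intro y hy
    rw [Set.mem_singleton_iff] at hy
    rw [hy]
    exact (hzc t ht).symm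
  · rw [card_sylow2 h T]
    exact Nat.le_of_dvd (by norm_num) (card_centralizer_invol_dvd h hz2)

theorem centralizer_sq (h : Nat.card G = 168) (T : Sylow 2 G) {x : G}
    (hx : x ∈ (T : Subgroup G)) (hx4 : orderOf x = 4) :
    centralizer ({x * x} : Set G) = T :=
  centralizer_eq_of_invol h T (orderOf_sq_of_four hx4) (sq_central h T hx hx4)

/-- A nontrivial central element of a Sylow 2-subgroup is an involution. -/
theorem orderOf_central (h : Nat.card G = 168) (T : Sylow 2 G) {z : G}
    (hz : z ∈ (T : Subgroup G)) (hz1 : z ≠ 1) (hzc : ∀ t ∈ (T : Subgroup G), t * z = z * t) :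
    orderOf z = 2 := by
  have hd : orderOf z ∣ 8 := card_sylow2 h T ▸ orderOf_dvd_card_of_mem _ z hz
  rcases dvd_eight hd with h1 | h1 | h1 | h1
  · exact absurd (orderOf_eq_one_iff.mp h1) hz1
  · exact h1
  · exfalso
    -- some t ∈ T is outside ⟨z⟩
    have hlt : zpowers z < (T : Subgroup G) := by
      refine lt_of_le_of_ne (by rw [zpowers_le]; exact hz) ?_
      intro heq
      have := card_sylow2 h T
      rw [← heq, Nat.card_zpowers, h1] at this
      omega
    obtain ⟨t, ht, htz⟩ := SetLike.exists_of_lt hlt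
    have h2 := conj_inv h T hz h1 t ht htz
    have h3 : t * z * t⁻¹ = z := by rw [hzc t ht]; group
    rw [h3] at h2
    have h4 : z * z = 1 := by
      nth_rewrite 1 [h2]
      exact inv_mul_cancel z
    have : orderOf z ∣ 2 := orderOf_dvd_of_pow_eq_one (by rw [pow_two]; exact h4)
    rw [h1] at this
    omega
  · exact absurd h1 (no_order8 h z)

/-- Every Sylow 2-subgroup contains an involution outside a given cyclic subgroup of order 4. -/
theorem exists_invol_not_mem (h : Nat.card G = 168) (T : Sylow 2 G) {x : G}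
    (hx : x ∈ (T : Subgroup G)) (hx4 : orderOf x = 4) :
    ∃ b ∈ (T : Subgroup G), orderOf b = 2 ∧ b ∉ zpowers x := by
  by_contra hcon
  have : Fact (Nat.Prime 2) := ⟨by norm_num⟩
  have hall : ∀ b ∈ (T : Subgroup G), orderOf b = 2 → b ∈ zpowers x := by
    intro b hb hb2
    by_contra hbx
    exact hcon ⟨b, hb, hb2, hbx⟩
  -- uniqueness of the involution in `T`
  have huT : ∀ u ∈ (T : Subgroup G), ∀ v ∈ (T : Subgroup G), orderOf u = 2 → orderOf v = 2 →
      u = v := by
    intro u hu v hv hu2 hv2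
    have := Cfsg.Agent.H11.involution_unique_of_isCyclic (C := zpowers x)
      (a := ⟨u, hall u hu hu2⟩) (b := ⟨v, hall v hv hv2⟩)
      (by rw [Subgroup.orderOf_mk]; exact hu2) (by rw [Subgroup.orderOf_mk]; exact hv2)
    exact congrArg Subtype.val this
  -- uniqueness of the involution in every Sylow 2-subgroup
  have huQ : ∀ Q : Sylow 2 G, ∀ u ∈ (Q : Subgroup G), ∀ v ∈ (Q : Subgroup G), orderOf u = 2 →
      orderOf v = 2 → u = v := by
    intro Q u hu v hv hu2 hv2
    obtain ⟨g, hg⟩ := sylow_conj_mem T Q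
    have := huT _ (hg u hu) _ (hg v hv) (by rw [orderOf_conj', hu2]) (by rw [orderOf_conj', hv2])
    have h1 : g * u = g * v := by
      have h2 : g * u * g⁻¹ * g = g * v * g⁻¹ * g := by rw [this]
      simpa using h2
    exact mul_left_cancel h1
  -- every Sylow 2-subgroup is the centralizer of its involution
  have hcent : ∀ Q : Sylow 2 G, ∀ w ∈ (Q : Subgroup G), orderOf w = 2 →
      centralizer ({w} : Set G) = Q := by
    intro Q w hw hw2
    apply centralizer_eq_of_invol h Q hw2
    intro t ht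
    have h1 : t * w * t⁻¹ ∈ (Q : Subgroup G) := mul_mem (mul_mem ht hw) (inv_mem ht)
    have h2 := huQ Q _ h1 _ hw (by rw [orderOf_conj', hw2]) hw2
    calc t * w = (t * w * t⁻¹) * t := by group
      _ = w * t := by rw [h2]
  have hTI : ∀ (g : G) (Q Q' : Sylow 2 G), g ≠ 1 → g ∈ (Q : Subgroup G) →
      g ∈ (Q' : Subgroup G) → Q = Q' := by
    intro g Q Q' hg1 hgQ hgQ'
    have h2 : 2 ∣ orderOf g := by
      rcases order_cases h g with h1 | h1 | h1 | h1 | h1 | h1
      · exfalso
        have := orderOf_dvd_card_of_mem _ g hgQ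
        rw [h1, card_sylow2 h Q] at this
        omega
      · exfalso
        have := orderOf_dvd_card_of_mem _ g hgQ
        rw [h1, card_sylow2 h Q] at this
        omega
      · exact absurd (orderOf_eq_one_iff.mp h1) hg1
      · rw [h1]
      · rw [h1]; norm_num
      · rw [h1]; norm_num
    have hw2 : orderOf (g ^ (orderOf g / 2)) = 2 :=
      orderOf_pow_orderOf_div (orderOf_pos g).ne' h2
    apply Sylow.ext
    rw [← hcent Q _ (pow_mem hgQ _) hw2, ← hcent Q' _ (pow_mem hgQ' _) hw2]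
  have hlow := card_TI_le 2 T hTI
  rw [(Cfsg.Agent.S1003.result h).1, card_sylow2 h T] at hlow
  have hup := card_add_three_le (α := G) (fun g => orderOf g = 7) (fun g => orderOf g = 3)
    (fun g => g ≠ 1 ∧ ∃ k : ℕ, orderOf g = 2 ^ k)
    (by intro a h7 h3; rw [h7] at h3; omega)
    (by
      rintro a h7 ⟨-, k, hk⟩
      rw [h7] at hk
      have : 7 ∣ 2 ^ k := by rw [← hk]
      have := Nat.Prime.dvd_of_dvd_pow (by norm_num) this
      omega)
    (by
      rintro a h3 ⟨-, k, hk⟩
      rw [h3] at hk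
      have : 3 ∣ 2 ^ k := by rw [← hk]
      have := Nat.Prime.dvd_of_dvd_pow (by norm_num) this
      omega)
  rw [card_order7 h, card_order3 h, h] at hup
  omega

/-- A Sylow 2-subgroup of a simple group of order 168 is dihedral of order 8. -/
theorem sylow2_dihedral (h : Nat.card G = 168) (T : Sylow 2 G) :
    Nonempty (↥(T : Subgroup G) ≃* DihedralGroup 4) := by
  obtain ⟨x, hx, hx4⟩ := sylow2_exists_order4 h T
  obtain ⟨b, hb, hb2, hbx⟩ := exists_invol_not_mem h T hx hx4
  refine order8_dihedral (card_sylow2 h T) (sylow2_not_comm h T) (x := ⟨x, hx⟩) (b := ⟨b, hb⟩)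
    (by rw [Subgroup.orderOf_mk]; exact hx4) (by rw [Subgroup.orderOf_mk]; exact hb2) ?_
  intro hmem
  obtain ⟨k, hk⟩ := mem_zpowers_iff.mp hmem
  apply hbx
  rw [mem_zpowers_iff]
  refine ⟨k, ?_⟩
  have := congrArg Subtype.val hk
  simpa using this

end Cfsg.Agent.H11.G168
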