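import Mathlib
import Cfsg.Agent.H11.G168B
import Cfsg.Agent.H21.OrderCount
import Cfsg.Agent.H21.ConjCount

/-!
# Simple groups of order 168: conjugacy classes
-/

set_option autoImplicit false

namespace Cfsg.Agent.H11.G168

open Cfsg.Agent.H21 Subgroup

/-- If the class of `x` is as large as the set of elements of its order, all elements of that
order are conjugate. -/
theorem all_conj_of_card {G : Type*} [Group G] [Finite G] {x : G} {n : ℕ} (hx : orderOf x = n)
    (hc : Nat.card {g : G // orderOf g = n} ≤ Nat.card {g : G // IsConj x g}) :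
    ∀ s t : G, orderOf s = n → orderOf t = n → IsConj s t := by
  let f : {g : G // IsConj x g} → {g : G // orderOf g = n} := fun g => ⟨g.1, by
    obtain ⟨c, hc⟩ := isConj_iff.1 g.2
    rw [← hc, orderOf_conj', hx]⟩
  have hf : Function.Injective f := by
    intro a b hab
    have h : (a : G) = (b : G) := congrArg (fun t : {g : G // orderOf g = n} => (t : G)) hab
    exact Subtype.ext h
  have hb : Function.Bijective f := hf.bijective_of_nat_card_le hc
  have key : ∀ s : G, orderOf s = n → IsConj x s := by
    intro s hs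
    obtain ⟨⟨g, hg⟩, hgs⟩ := hb.2 ⟨s, hs⟩
    have : g = s := congrArg (fun t : {g : G // orderOf g = n} => (t : G)) hgs
    rw [← this]; exact hg
  intro s t hs ht
  exact (key s hs).symm.trans (key t ht)

theorem card_orderOf_one {G : Type*} [Group G] : Nat.card {g : G // orderOf g = 1} = 1 := by
  rw [Nat.card_eq_one_iff_unique]
  refine ⟨⟨?_⟩, ⟨⟨1, orderOf_one⟩⟩⟩
  rintro ⟨a, ha⟩ ⟨b, hb⟩
  apply Subtype.ext
  show a = b
  rw [orderOf_eq_one_iff.mp ha, orderOf_eq_one_iff.mp hb]

variable {G : Type*} [Group G] [Finite G] [IsSimpleGroup G]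

/-- The centralizer of an element of order 4 is the cyclic group it generates. -/
theorem card_centralizer_order4 (h : Nat.card G = 168) {x : G} (hx4 : orderOf x = 4) :
    Nat.card (centralizer ({x} : Set G)) = 4 := by
  have : Fact (Nat.Prime 2) := ⟨by norm_num⟩
  have hp : IsPGroup 2 (zpowers x) := by
    apply IsPGroup.of_card (n := 2)
    rw [Nat.card_zpowers, hx4]; norm_num
  obtain ⟨T, hT⟩ := hp.exists_le_sylow
  have hx : x ∈ (T : Subgroup G) := hT (mem_zpowers x)
  have hle : centralizer ({x} : Set G) ≤ (T : Subgroup G) := by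
    rw [← centralizer_sq h T hx hx4]
    intro g hg
    rw [mem_centralizer_iff] at hg ⊢
    intro y hy
    rw [Set.mem_singleton_iff] at hy
    have h1 := hg x rfl
    rw [hy]
    calc x * x * g = x * (x * g) := by group
      _ = x * (g * x) := by rw [h1]
      _ = (x * g) * x := by group
      _ = (g * x) * x := by rw [h1]
      _ = g * (x * x) := by group
  have hz : zpowers x ≤ centralizer ({x} : Set G) := by
    rw [zpowers_le, mem_centralizer_iff]
    intro y hy
    rw [Set.mem_singleton_iff] at hy
    rw [hy]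
  obtain ⟨b, hb, hb2, hbx⟩ := exists_invol_not_mem h T hx hx4
  have hbC : b ∉ centralizer ({x} : Set G) := by
    intro hbc
    rw [mem_centralizer_iff] at hbc
    have h1 := hbc x rfl
    have h2 := conj_inv h T hx hx4 b hb hbx
    have h3 : b * x * b⁻¹ = x := by rw [← h1]; group
    rw [h3] at h2
    have h4 : x * x = 1 := by
      nth_rewrite 1 [h2]
      exact inv_mul_cancel x
    have : orderOf x ∣ 2 := orderOf_dvd_of_pow_eq_one (by rw [pow_two]; exact h4)
    rw [hx4] at this
    omega
  have hd : Nat.card (centralizer ({x} : Set G)) ∣ 8 := by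
    rw [← card_sylow2 h T]; exact Subgroup.card_dvd_of_le hle
  have h4 : 4 ∣ Nat.card (centralizer ({x} : Set G)) := by
    have := Subgroup.card_dvd_of_le hz
    rwa [Nat.card_zpowers, hx4] at this
  rcases dvd_eight hd with h' | h' | h' | h'
  · rw [h'] at h4; omega
  · rw [h'] at h4; omega
  · exact h'
  · exfalso
    apply hbC
    have : centralizer ({x} : Set G) = (T : Subgroup G) :=
      Subgroup.eq_of_le_of_card_ge hle (by rw [h', card_sylow2 h T])
    rw [this]; exact hb

/-- There are 21 involutions and 42 elements of order 4. -/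
theorem card_order2_order4 (h : Nat.card G = 168) :
    Nat.card {g : G // orderOf g = 2} = 21 ∧ Nat.card {g : G // orderOf g = 4} = 42 ∧
    (∀ s t : G, orderOf s = 2 → orderOf t = 2 → IsConj s t) ∧
    (∀ s t : G, orderOf s = 4 → orderOf t = 4 → IsConj s t) := by
  have : Fact (Nat.Prime 2) := ⟨by norm_num⟩
  obtain ⟨T⟩ : Nonempty (Sylow 2 G) := inferInstance
  obtain ⟨x, hx, hx4⟩ := sylow2_exists_order4 h T
  have hz2 : orderOf (x * x) = 2 := orderOf_sq_of_four hx4
  have hcz : Nat.card {g : G // IsConj (x * x) g} = 21 := by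
    have h1 := card_conj_mul_card_centralizer (x * x)
    rw [centralizer_sq h T hx hx4, card_sylow2 h T, h] at h1
    omega
  have hcx : Nat.card {g : G // IsConj x g} = 42 := by
    have h1 := card_conj_mul_card_centralizer x
    rw [card_centralizer_order4 h hx4, h] at h1
    omega
  have h2 := card_conj_le_card_orderOf (x * x)
  have h4 := card_conj_le_card_orderOf x
  rw [hz2, hcz] at h2
  rw [hx4, hcx] at h4
  have hsum := sum_card_orderOf_le (G := G) ({1, 2, 3, 4, 7} : Finset ℕ)
  rw [Finset.sum_insert (by decide), Finset.sum_insert (by decide), Finset.sum_insert (by decide),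
    Finset.sum_insert (by decide), Finset.sum_singleton, card_orderOf_one, card_order3 h,
    card_order7 h, h] at hsum
  have e2 : Nat.card {g : G // orderOf g = 2} = 21 := by omega
  have e4 : Nat.card {g : G // orderOf g = 4} = 42 := by omega
  refine ⟨e2, e4, ?_, ?_⟩
  · exact all_conj_of_card hz2 (by rw [e2, hcz])
  · exact all_conj_of_card hx4 (by rw [e4, hcx])

/-- The centralizer of an element of prime order `p ∈ {3, 7}`. -/
theorem card_centralizer_of_prime (h : Nat.card G = 168) {p : ℕ} [Fact p.Prime]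
    (hcard : ∀ P : Sylow p G, Nat.card (P : Subgroup G) = p ∧
      Nat.card (centralizer ((P : Subgroup G) : Set G)) = p) {y : G} (hy : orderOf y = p) :
    Nat.card (centralizer ({y} : Set G)) = p := by
  have hp : IsPGroup p (zpowers y) := by
    apply IsPGroup.of_card (n := 1)
    rw [Nat.card_zpowers, hy, pow_one]
  obtain ⟨P, hP⟩ := hp.exists_le_sylow
  obtain ⟨hP1, hP2⟩ := hcard P
  have hPy : (P : Subgroup G) = zpowers y :=
    eq_zpowers_of_card_prime (P : Subgroup G) hP1 y (hP (mem_zpowers y)) hy
  have hle : centralizer ({y} : Set G) ≤ centralizer ((P : Subgroup G) : Set G) := by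
    intro g hg
    rw [mem_centralizer_iff] at hg ⊢
    intro t ht
    rw [SetLike.mem_coe, hPy] at ht
    obtain ⟨k, rfl⟩ := mem_zpowers_iff.mp ht
    have h1 : Commute y g := hg y rfl
    exact (h1.zpow_left k).eq
  have hz : zpowers y ≤ centralizer ({y} : Set G) := by
    rw [zpowers_le, mem_centralizer_iff]
    intro t ht
    rw [Set.mem_singleton_iff] at ht
    rw [ht]
  have h1 := Nat.card_le_card_of_injective _ (Subgroup.inclusion_injective hle)
  have h2 := Nat.card_le_card_of_injective _ (Subgroup.inclusion_injective hz)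
  rw [hP2] at h1
  rw [Nat.card_zpowers, hy] at h2
  omega

theorem card_centralizer_order3 (h : Nat.card G = 168) {y : G} (hy : orderOf y = 3) :
    Nat.card (centralizer ({y} : Set G)) = 3 := by
  have : Fact (Nat.Prime 3) := ⟨by norm_num⟩
  exact card_centralizer_of_prime h
    (fun P => ⟨(Cfsg.Agent.S1003.sylow3 h P).2.1, (Cfsg.Agent.S1003.sylow3 h P).2.2⟩) hy

theorem card_centralizer_order7 (h : Nat.card G = 168) {y : G} (hy : orderOf y = 7) :
    Nat.card (centralizer ({y} : Set G)) = 7 := by
  have : Fact (Nat.Prime 7) := ⟨by norm_num⟩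
  exact card_centralizer_of_prime h
    (fun P => ⟨(Cfsg.Agent.S1003.sylow7 h P).2.1, (Cfsg.Agent.S1003.sylow7 h P).2.2⟩) hy

theorem conj_order3 (h : Nat.card G = 168) :
    ∀ s t : G, orderOf s = 3 → orderOf t = 3 → IsConj s t := by
  have : Fact (Nat.Prime 3) := ⟨by norm_num⟩
  obtain ⟨y, hy⟩ := exists_prime_orderOf_dvd_card' (G := G) 3 (by rw [h]; norm_num)
  have hc : Nat.card {g : G // IsConj y g} = 56 := by
    have h1 := card_conj_mul_card_centralizer y
    rw [card_centralizer_order3 h hy, h] at h1
    omega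
  exact all_conj_of_card hy (by rw [card_order3 h, hc])

theorem card_conj_order7 (h : Nat.card G = 168) {x : G} (hx : orderOf x = 7) :
    Nat.card {g : G // IsConj x g} = 24 := by
  have h1 := card_conj_mul_card_centralizer x
  rw [card_centralizer_order7 h hx, h] at h1
  omega

theorem card_normalizer_sylow7 (h : Nat.card G = 168) [Fact (Nat.Prime 7)] (P : Sylow 7 G) :
    Nat.card (normalizer ((P : Subgroup G) : Set G)) = 21 := by
  obtain ⟨hP, -, hidx, hdvd, hmod, hne1, hfact, hNn, -⟩ :=
    simple_sylow_facts (not_comm h) (p := 7) (k := 1) (m := 24) (by rw [h]; norm_num)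
      (by norm_num) (by norm_num) P
  rw [(Cfsg.Agent.S1003.result h).2.2, h] at hNn
  omega

theorem card_normalizer_sylow3 (h : Nat.card G = 168) [Fact (Nat.Prime 3)] (P : Sylow 3 G) :
    Nat.card (normalizer ((P : Subgroup G) : Set G)) = 6 := by
  obtain ⟨hP, -, hidx, hdvd, hmod, hne1, hfact, hNn, -⟩ :=
    simple_sylow_facts (not_comm h) (p := 3) (k := 1) (m := 56) (by rw [h]; norm_num)
      (by norm_num) (by norm_num) P
  rw [(Cfsg.Agent.S1003.result h).2.1, h] at hNn
  omega

theorem not_conj_inv_order7 (h : Nat.card G = 168) {x : G} (hx : orderOf x = 7) :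
    ¬ IsConj x x⁻¹ := by
  intro hconj
  have : Fact (Nat.Prime 7) := ⟨by norm_num⟩
  obtain ⟨c, hc⟩ := isConj_iff.1 hconj
  have hp : IsPGroup 7 (zpowers x) := by
    apply IsPGroup.of_card (n := 1)
    rw [Nat.card_zpowers, hx, pow_one]
  obtain ⟨P, hP⟩ := hp.exists_le_sylow
  have hP1 := (Cfsg.Agent.S1003.sylow7 h P).2.1
  have hPx : (P : Subgroup G) = zpowers x :=
    eq_zpowers_of_card_prime (P : Subgroup G) hP1 x (hP (mem_zpowers x)) hx
  have hc' : c⁻¹ * x * c = x⁻¹ := by
    have : x = c⁻¹ * x⁻¹ * c := by rw [← hc]; group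
    calc c⁻¹ * x * c = (c⁻¹ * x⁻¹ * c)⁻¹ := by group
      _ = x⁻¹ := by rw [← this]
  have hcN : c ∈ normalizer ((P : Subgroup G) : Set G) := by
    apply Cfsg.Agent.S1018.mem_normalizer_of_conj
    · intro t ht
      rw [hPx] at ht ⊢
      obtain ⟨k, rfl⟩ := mem_zpowers_iff.mp ht
      have : c * x ^ k * c⁻¹ = (c * x * c⁻¹) ^ k := by rw [conj_zpow]
      rw [this, hc]
      exact zpow_mem (inv_mem (mem_zpowers x)) k
    · intro t ht
      rw [hPx] at ht ⊢
      obtain ⟨k, rfl⟩ := mem_zpowers_iff.mp ht
      have : c⁻¹ * x ^ k * c = (c⁻¹ * x * c) ^ k := by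
        have := conj_zpow (a := c⁻¹) (b := x) (i := k)
        rw [inv_inv] at this
        exact this.symm
      rw [this, hc']
      exact zpow_mem (inv_mem (mem_zpowers x)) k
  have hdvd : orderOf c ∣ 21 := by
    rw [← card_normalizer_sylow7 h P]
    exact orderOf_dvd_card_of_mem _ c hcN
  -- `c * c` centralizes `x`
  have hcc : (c * c) * x = x * (c * c) := by
    have h1 : c * x = x⁻¹ * c := by
      calc c * x = (c * x * c⁻¹) * c := by group
        _ = x⁻¹ * c := by rw [hc]
    have h2 : c * x⁻¹ = x * c := by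
      calc c * x⁻¹ = (c * x * c⁻¹)⁻¹ * c := by group
        _ = x * c := by rw [hc, inv_inv]
    calc c * c * x = c * (c * x) := by group
      _ = c * (x⁻¹ * c) := by rw [h1]
      _ = (c * x⁻¹) * c := by group
      _ = (x * c) * c := by rw [h2]
      _ = x * (c * c) := by group
  -- `c` is a power of `c * c`
  have hodd : Odd (orderOf c) := by
    rcases Nat.even_or_odd (orderOf c) with he | ho
    · exfalso
      have : 2 ∣ 21 := (even_iff_two_dvd.mp he).trans hdvd
      omega
    · exact ho
  obtain ⟨m, hm⟩ := hodd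
  have hcpow : (c * c) ^ (m + 1) = c := by
    rw [← pow_two, ← pow_mul]
    have : 2 * (m + 1) = orderOf c + 1 := by omega
    rw [this, pow_succ, pow_orderOf_eq_one, one_mul]
  have hcx : c * x = x * c := by
    have h1 : Commute (c * c) x := hcc
    have h2 := (h1.pow_left (m + 1)).eq
    rwa [hcpow] at h2
  have hxx : x = x⁻¹ := by
    calc x = c * x * c⁻¹ := by rw [hcx]; group
      _ = x⁻¹ := hc
  have h4 : x * x = 1 := by
    nth_rewrite 1 [hxx]
    exact inv_mul_cancel x
  have : orderOf x ∣ 2 := orderOf_dvd_of_pow_eq_one (by rw [pow_two]; exact h4)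
  rw [hx] at this
  omega

end Cfsg.Agent.H11.G168
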