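import Mathlib
import Cfsg.Agent.H11.G168C
import Cfsg.Agent.H11.Four
import Cfsg.Agent.H21.SylowLocal
import Cfsg.Agent.H3.PGroup

/-!
# Simple groups of order 168: Klein four-subgroups of a Sylow 2-subgroup
-/

set_option autoImplicit false

namespace Cfsg.Agent.H11.G168

open Cfsg.Agent.H21 Subgroup

theorem invol_mem_zpowers {Q : Type*} [Group Q] {x v : Q} (hx4 : orderOf x = 4)
    (hv : v ∈ zpowers x) (hv1 : v ≠ 1) (hvv : v * v = 1) : v = x * x := by
  have h4 : x ^ 4 = 1 := by rw [← hx4]; exact pow_orderOf_eq_one x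
  obtain ⟨r, hr, rfl⟩ := exists_pow_of_mem_zpowers (n := 4) (by norm_num) h4 hv
  have hne2 : x ^ 2 ≠ 1 := by
    intro h2
    have : orderOf x ∣ 2 := orderOf_dvd_of_pow_eq_one h2
    rw [hx4] at this; omega
  interval_cases r
  · exact absurd (pow_zero x) hv1
  · exfalso; apply hne2; rw [pow_two]; simpa using hvv
  · exact pow_two x
  · exfalso; apply hne2
    have h6 : x ^ 6 = 1 := by rw [show 6 = 3 + 3 from rfl, pow_add]; exact hvv
    calc x ^ 2 = x ^ 6 * (x ^ 4)⁻¹ := by group
      _ = 1 := by rw [h6, h4]; simp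

theorem eq_fourSub {Q : Type*} [Group Q] [Finite Q] {U : Subgroup Q} (hU : IsKleinFour U)
    {a b : Q} (ha : a * a = 1) (hb : b * b = 1) (hab : a * b = b * a) (ha1 : a ≠ 1) (hb1 : b ≠ 1)
    (hne : a ≠ b) (haU : a ∈ U) (hbU : b ∈ U) : U = fourSub a b ha hb hab := by
  symm
  apply Subgroup.eq_of_le_of_card_ge
  · intro y hy
    rcases mem_fourSub.mp hy with rfl | rfl | rfl | rfl
    · exact one_mem U
    · exact haU
    · exact hbU
    · exact mul_mem haU hbU
  · rw [hU.card_four, (fourSub_isKleinFour a b ha hb hab ha1 hb1 hne).card_four]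

variable {G : Type*} [Group G] [Finite G] [IsSimpleGroup G]

/-- The centralizer of an element of order 4 is the cyclic group it generates. -/
theorem centralizer_order4_eq (h : Nat.card G = 168) {x : G} (hx4 : orderOf x = 4) :
    centralizer ({x} : Set G) = zpowers x := by
  symm
  apply Subgroup.eq_of_le_of_card_ge
  · rw [zpowers_le, mem_centralizer_iff]
    intro y hy
    rw [Set.mem_singleton_iff] at hy
    rw [hy]
  · rw [card_centralizer_order4 h hx4, Nat.card_zpowers, hx4]

theorem coset_mem (h : Nat.card G = 168) (T : Sylow 2 G) {x : G} (hx : x ∈ (T : Subgroup G))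
    (hx4 : orderOf x = 4) {s t : G} (hs : s ∈ (T : Subgroup G)) (ht : t ∈ (T : Subgroup G))
    (hsx : s ∉ zpowers x) (htx : t ∉ zpowers x) : s⁻¹ * t ∈ zpowers x := by
  rw [← centralizer_order4_eq h hx4, mem_centralizer_iff]
  intro y hy
  rw [Set.mem_singleton_iff] at hy
  rw [hy]
  have h1 := conj_inv h T hx hx4 s hs hsx
  have h2 := conj_inv h T hx hx4 t ht htx
  calc x * (s⁻¹ * t) = s⁻¹ * (s * x * s⁻¹) * t := by group
    _ = s⁻¹ * (t * x * t⁻¹) * t := by rw [h1, h2]
    _ = s⁻¹ * t * x := by group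

theorem sq_ne_one_of_four {Q : Type*} [Group Q] {x : Q} (hx4 : orderOf x = 4) : x * x ≠ 1 := by
  intro h2
  have : orderOf x ∣ 2 := orderOf_dvd_of_pow_eq_one (by rw [pow_two]; exact h2)
  rw [hx4] at this; omega

/-- A Klein four-subgroup of a Sylow 2-subgroup contains the central involution and is not
contained in the cyclic subgroup of order 4. -/
theorem klein_struct (h : Nat.card G = 168) (T : Sylow 2 G) {x : G} (hx : x ∈ (T : Subgroup G))
    (hx4 : orderOf x = 4) {U : Subgroup G} (hUT : U ≤ (T : Subgroup G)) (hU : IsKleinFour U) :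
    x * x ∈ U ∧ ∃ u ∈ U, u ∉ zpowers x := by
  have hne2 : x * x ≠ 1 := sq_ne_one_of_four hx4
  have hex : ∃ u ∈ U, u ∉ zpowers x := by
    by_contra hcon
    have hle : U ≤ zpowers x := by
      intro u hu
      by_contra hux
      exact hcon ⟨u, hu, hux⟩
    have heq : U = zpowers x := by
      apply Subgroup.eq_of_le_of_card_ge hle
      rw [Nat.card_zpowers, hx4, hU.card_four]
    have hxU : x ∈ U := by rw [heq]; exact mem_zpowers x
    exact hne2 (kleinFour_mul_self hU hxU)
  refine ⟨?_, hex⟩
  obtain ⟨u, hu, hux⟩ := hex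
  obtain ⟨v, hv, hv1, hvu⟩ := kleinFour_exists_ne hU u
  by_cases hvx : v ∈ zpowers x
  · rw [← invol_mem_zpowers hx4 hvx hv1 (kleinFour_mul_self hU hv)]; exact hv
  · have h1 := coset_mem h T hx hx4 (hUT hu) (hUT hv) hux hvx
    have h2 : u⁻¹ * v ∈ U := mul_mem (inv_mem hu) hv
    have h3 : u⁻¹ * v ≠ 1 := by
      intro h3
      apply hvu
      have : u = v := by
        calc u = u * (u⁻¹ * v) := by rw [h3, mul_one]
          _ = v := by group
      exact this.symm
    rw [← invol_mem_zpowers hx4 h1 h3 (kleinFour_mul_self hU h2)]; exact h2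

/-- The two Klein four-subgroups of a Sylow 2-subgroup. -/
theorem klein_in_sylow (h : Nat.card G = 168) (T : Sylow 2 G) :
    ∃ V₁ V₂ : Subgroup G, V₁ ≤ (T : Subgroup G) ∧ V₂ ≤ (T : Subgroup G) ∧ IsKleinFour V₁ ∧
      IsKleinFour V₂ ∧ V₁ ≠ V₂ ∧
      ∀ U : Subgroup G, U ≤ (T : Subgroup G) → IsKleinFour U → U = V₁ ∨ U = V₂ := by
  obtain ⟨x, hx, hx4⟩ := sylow2_exists_order4 h T
  obtain ⟨b, hb, hb2, hbx⟩ := exists_invol_not_mem h T hx hx4
  have h4 : x ^ 4 = 1 := by rw [← hx4]; exact pow_orderOf_eq_one x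
  have hz : (x * x) * (x * x) = 1 := by
    calc (x * x) * (x * x) = x ^ 4 := by
          rw [show (4 : ℕ) = 2 + 2 from rfl, pow_add, pow_two]
      _ = 1 := h4
  have hz1 : x * x ≠ 1 := sq_ne_one_of_four hx4
  have hbb : b * b = 1 := by
    rw [← pow_two, ← hb2]; exact pow_orderOf_eq_one b
  have hb1 : b ≠ 1 := by
    rintro rfl
    exact hbx (one_mem _)
  have hconj := conj_inv h T hx hx4 b hb hbx
  have hcT : b * x ∈ (T : Subgroup G) := mul_mem hb hx
  have hcc : (b * x) * (b * x) = 1 := by
    calc (b * x) * (b * x) = (b * x * b⁻¹) * (b * b) * x := by group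
      _ = 1 := by rw [hconj, hbb]; group
  have hzb : (x * x) * b = b * (x * x) := (sq_central h T hx hx4 b hb).symm
  have hzc : (x * x) * (b * x) = (b * x) * (x * x) := (sq_central h T hx hx4 (b * x) hcT).symm
  have hzx : x * x ∈ zpowers x := mul_mem (mem_zpowers x) (mem_zpowers x)
  have hcx : b * x ∉ zpowers x := by
    intro hc
    apply hbx
    have : b = (b * x) * x⁻¹ := by group
    rw [this]
    exact mul_mem hc (inv_mem (mem_zpowers x))
  have hc1 : b * x ≠ 1 := by
    intro hc
    exact hcx (hc ▸ one_mem _)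
  have hzneb : x * x ≠ b := by
    intro hc
    exact hbx (hc ▸ hzx)
  have hznec : x * x ≠ b * x := by
    intro hc
    exact hcx (hc ▸ hzx)
  have hx1 : x ≠ 1 := by
    rintro rfl
    exact hz1 (one_mul 1)
  refine ⟨fourSub (x * x) b hz hbb hzb, fourSub (x * x) (b * x) hz hcc hzc, ?_, ?_,
    fourSub_isKleinFour _ _ hz hbb hzb hz1 hb1 hzneb,
    fourSub_isKleinFour _ _ hz hcc hzc hz1 hc1 hznec, ?_, ?_⟩
  · intro y hy
    rcases mem_fourSub.mp hy with rfl | rfl | rfl | rfl
    · exact one_mem _
    · exact mul_mem hx hx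
    · exact hb
    · exact mul_mem (mul_mem hx hx) hb
  · intro y hy
    rcases mem_fourSub.mp hy with rfl | rfl | rfl | rfl
    · exact one_mem _
    · exact mul_mem hx hx
    · exact hcT
    · exact mul_mem (mul_mem hx hx) hcT
  · intro heq
    have hbV : b ∈ fourSub (x * x) (b * x) hz hcc hzc := by
      rw [← heq, mem_fourSub]; right; right; left; rfl
    rcases mem_fourSub.mp hbV with h1 | h1 | h1 | h1
    · exact hb1 h1
    · exact hzneb h1.symm
    · apply hx1
      have : b * 1 = b * x := by rw [mul_one]; exact h1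
      exact (mul_left_cancel this).symm
    · rw [hzc] at h1
      have h5 : b * 1 = b * (x * (x * x)) := by
        rw [mul_one]
        calc b = b * x * (x * x) := h1
          _ = b * (x * (x * x)) := by group
      have h6 : x * (x * x) = 1 := (mul_left_cancel h5).symm
      apply hx1
      calc x = x ^ 4 * (x * (x * x))⁻¹ := by group
        _ = 1 := by rw [h4, h6]; simp
  · intro U hUT hU
    obtain ⟨hzU, u, hu, hux⟩ := klein_struct h T hx hx4 hUT hU
    have h1 := coset_mem h T hx hx4 hb (hUT hu) hbx hux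
    obtain ⟨r, hr, hr'⟩ := exists_pow_of_mem_zpowers (n := 4) (by norm_num) h4 h1
    have hur : u = b * x ^ r := by rw [← hr']; group
    have hcase : b ∈ U ∨ b * x ∈ U := by
      interval_cases r
      · left
        rw [pow_zero, mul_one] at hur
        rw [← hur]; exact hu
      · right
        rw [pow_one] at hur
        rw [← hur]; exact hu
      · left
        have : b = u * (x * x) := by
          rw [hur, pow_two, mul_assoc, hz, mul_one]
        rw [this]; exact mul_mem hu hzU
      · right
        have : b * x = u * (x * x) := by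
          rw [hur]
          calc b * x = b * x * ((x * x) * (x * x)) := by rw [hz, mul_one]
            _ = b * x ^ 3 * (x * x) := by
              rw [show (3 : ℕ) = 1 + 2 from rfl, pow_add, pow_one, pow_two]
              simp only [mul_assoc]
        rw [this]; exact mul_mem hu hzU
    rcases hcase with hbU | hcU
    · left
      exact eq_fourSub hU hz hbb hzb hz1 hb1 hzneb hzU hbU
    · right
      exact eq_fourSub hU hz hcc hzc hz1 hc1 hznec hzU hcU

/-- A Sylow 2-subgroup contains exactly two Klein four-subgroups. -/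
theorem card_klein_in_sylow (h : Nat.card G = 168) (T : Sylow 2 G) :
    Nat.card {U : Subgroup G // U ≤ (T : Subgroup G) ∧ IsKleinFour ↥U} = 2 := by
  obtain ⟨V₁, V₂, h1, h2, hk1, hk2, hne, hall⟩ := klein_in_sylow h T
  rw [Nat.card_eq_two_iff]
  refine ⟨⟨V₁, h1, hk1⟩, ⟨V₂, h2, hk2⟩, ?_, ?_⟩
  · intro heq; exact hne (congrArg Subtype.val heq)
  · ext ⟨U, hUT, hU⟩
    simp only [Set.mem_insert_iff, Set.mem_singleton_iff, Set.mem_univ, iff_true]
    rcases hall U hUT hU with rfl | rfl
    · left; rfl
    · right; rfl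

/-- A subgroup of order 4 of a Sylow 2-subgroup is normalized by it. -/
theorem sylow_le_normalizer_of_card_four (h : Nat.card G = 168) (T : Sylow 2 G) {U : Subgroup G}
    (hUT : U ≤ (T : Subgroup G)) (hc : Nat.card U = 4) :
    (T : Subgroup G) ≤ normalizer (U : Set G) := by
  have h1 := Cfsg.Agent.H3.relIndex_mul_card_of_le hUT
  rw [hc, card_sylow2 h T] at h1
  have h2 : U.relIndex (T : Subgroup G) = 2 := by omega
  have h3 : (U.subgroupOf (T : Subgroup G)).Normal := Subgroup.normal_of_index_eq_two h2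
  exact (Subgroup.normal_subgroupOf_iff_le_normalizer hUT).mp h3

/-- Distinct Klein four-subgroups of a Sylow 2-subgroup are not conjugate. -/
theorem klein_not_conj (h : Nat.card G = 168) (T : Sylow 2 G) (U W : Subgroup G)
    (hUT : U ≤ (T : Subgroup G)) (hWT : W ≤ (T : Subgroup G)) (hU : IsKleinFour U)
    (hW : IsKleinFour W) (hne : U ≠ W) (g : G) : U.map (MulAut.conj g).toMonoidHom ≠ W := by
  intro heq
  have : Fact (Nat.Prime 2) := ⟨by norm_num⟩
  have hTU := sylow_le_normalizer_of_card_four h T hUT hU.card_four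
  have hTW := sylow_le_normalizer_of_card_four h T hWT hW.card_four
  have hKW : (T : Subgroup G).map (MulAut.conj g).toMonoidHom ≤ normalizer (W : Set G) := by
    rw [← heq, ← Subgroup.map_equiv_normalizer_eq U (MulAut.conj g)]
    exact Subgroup.map_mono hTU
  obtain ⟨n, hn, hnK⟩ := exists_mem_conj_le_sylow (normalizer (W : Set G)) T hTW _
    (T.isPGroup'.map _) hKW
  have hng : n * g ∈ (T : Subgroup G) := by
    rw [← normalizer_sylow2 h T]
    apply mem_normalizer_fintype
    intro t ht
    have ht' : t ∈ (T : Subgroup G) := ht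
    have := hnK (g * t * g⁻¹) (Subgroup.mem_map.mpr ⟨t, ht', by simp [MulAut.conj_apply]⟩)
    have e : n * g * t * (n * g)⁻¹ = n * (g * t * g⁻¹) * n⁻¹ := by group
    rw [e]; exact this
  have hUW : U ≤ W := by
    intro u hu
    have hinv : (n * g)⁻¹ ∈ normalizer (U : Set G) := hTU (inv_mem hng)
    have hu' : (n * g)⁻¹ * u * (n * g) ∈ U := by
      have := (mem_normalizer_iff.mp hinv u).mp hu
      simpa using this
    have h1 : g * ((n * g)⁻¹ * u * (n * g)) * g⁻¹ ∈ W := by
      rw [← heq]
      exact Subgroup.mem_map.mpr ⟨_, hu', by simp [MulAut.conj_apply]⟩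
    have h2 := (mem_normalizer_iff.mp hn _).mp h1
    have e : n * (g * ((n * g)⁻¹ * u * (n * g)) * g⁻¹) * n⁻¹ = u := by group
    rwa [e] at h2
  exact hne (Subgroup.eq_of_le_of_card_ge hUW (by rw [hU.card_four, hW.card_four]))

/-- The normalizer of a Klein four-subgroup has order 24. -/
theorem card_normalizer_klein (h : Nat.card G = 168) {U : Subgroup G} (hU : IsKleinFour U) :
    Nat.card (normalizer (U : Set G)) = 24 := by
  have : Fact (Nat.Prime 2) := ⟨by norm_num⟩
  have hp : IsPGroup 2 U := IsPGroup.of_card (n := 2) (by rw [hU.card_four]; norm_num)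
  obtain ⟨T, hUT⟩ := hp.exists_le_sylow
  obtain ⟨x, hx, hx4⟩ := sylow2_exists_order4 h T
  obtain ⟨hzU, u, hu, hux⟩ := klein_struct h T hx hx4 hUT hU
  have hu1 : u ≠ 1 := by rintro rfl; exact hux (one_mem _)
  have hu2 : orderOf u = 2 :=
    orderOf_eq_prime (by rw [pow_two]; exact kleinFour_mul_self hU hu) hu1
  have hC : Nat.card (centralizer ({u} : Set G)) = 8 := by
    obtain ⟨-, -, hconj, -⟩ := card_order2_order4 h
    obtain ⟨c, hc⟩ := isConj_iff.1 (hconj (x * x) u (orderOf_sq_of_four hx4) hu2)
    rw [← hc, card_centralizer_conj, centralizer_sq h T hx hx4, card_sylow2 h T]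
  have hpC : IsPGroup 2 (centralizer ({u} : Set G)) := centralizer_invol_isPGroup h hu2
  obtain ⟨T', hCT'⟩ := hpC.exists_le_sylow
  have hCeq : centralizer ({u} : Set G) = T' :=
    Subgroup.eq_of_le_of_card_ge hCT' (by rw [hC, card_sylow2 h T'])
  have hUT' : U ≤ (T' : Subgroup G) := by
    rw [← hCeq]
    intro v hv
    rw [mem_centralizer_iff]
    intro y hy
    rw [Set.mem_singleton_iff] at hy
    rw [hy]
    exact kleinFour_comm hU hu hv
  have hTN := sylow_le_normalizer_of_card_four h T hUT hU.card_four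
  have hT'N := sylow_le_normalizer_of_card_four h T' hUT' hU.card_four
  have hxC : x ∉ (T' : Subgroup G) := by
    rw [← hCeq, mem_centralizer_iff]
    intro hc
    have h1 := hc u rfl
    have h2 := conj_inv h T hx hx4 u (hUT hu) hux
    have h3 : u * x * u⁻¹ = x := by rw [h1]; group
    rw [h3] at h2
    apply sq_ne_one_of_four hx4
    nth_rewrite 1 [h2]
    exact inv_mul_cancel x
  have h8 : 8 ∣ Nat.card (normalizer (U : Set G)) := by
    rw [← card_sylow2 h T]; exact Subgroup.card_dvd_of_le hTN
  have hd : Nat.card (normalizer (U : Set G)) ∣ 168 := by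
    rw [← h]; exact Subgroup.card_subgroup_dvd_card _
  have hne8 : Nat.card (normalizer (U : Set G)) ≠ 8 := by
    intro h8'
    have e1 : (T' : Subgroup G) = normalizer (U : Set G) :=
      Subgroup.eq_of_le_of_card_ge hT'N (by rw [h8', card_sylow2 h T'])
    have e2 : (T : Subgroup G) = normalizer (U : Set G) :=
      Subgroup.eq_of_le_of_card_ge hTN (by rw [h8', card_sylow2 h T])
    apply hxC
    rw [e1, ← e2]; exact hx
  have hne168 : Nat.card (normalizer (U : Set G)) ≠ 168 := by
    intro h168
    have htop : normalizer (U : Set G) = ⊤ := Subgroup.eq_top_of_card_eq _ (by rw [h168, h])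
    have hn : U.Normal := normalizer_eq_top_iff.mp htop
    rcases hn.eq_bot_or_eq_top with hb | ht
    · have := hU.card_four; rw [hb] at this; simp at this
    · have := hU.card_four; rw [ht, Subgroup.card_top, h] at this; omega
  have hne56 : Nat.card (normalizer (U : Set G)) ≠ 56 := by
    intro h56
    have hidx : (normalizer (U : Set G)).index = 3 := by
      have := Subgroup.card_mul_index (normalizer (U : Set G))
      rw [h56, h] at this; omega
    have htop : normalizer (U : Set G) ≠ ⊤ := by
      intro ht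
      rw [ht, Subgroup.card_top, h] at h56; omega
    have h1 := two_mul_card_dvd_factorial_index (not_comm h) _ htop
    rw [hidx, h] at h1
    have h2 : Nat.factorial 3 = 6 := by decide
    rw [h2] at h1
    omega
  obtain ⟨k, hk⟩ := h8
  rw [hk] at hd hne8 hne168 hne56 ⊢
  have hk21 : k ∣ 21 := by
    have : 8 * k ∣ 8 * 21 := hd
    exact (Nat.mul_dvd_mul_iff_left (by norm_num)).mp this
  have hkle : k ≤ 21 := Nat.le_of_dvd (by norm_num) hk21
  have hkpos : 0 < k := Nat.pos_of_dvd_of_pos hk21 (by norm_num)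
  interval_cases k <;> omega

end Cfsg.Agent.H11.G168
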