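import Mathlib
import Cfsg.Agent.H11.G168D

/-!
# Simple groups of order 168: subgroups of order 24 are symmetric groups of degree 4
-/

set_option autoImplicit false

namespace Cfsg.Agent.H11.G168

open Cfsg.Agent.H21 Subgroup

variable {G : Type*} [Group G] [Finite G] [IsSimpleGroup G]

theorem card_normalizer_zpowers3 (h : Nat.card G = 168) {y : G} (hy : orderOf y = 3) :
    Nat.card (normalizer ((zpowers y : Subgroup G) : Set G)) = 6 := by
  have : Fact (Nat.Prime 3) := ⟨by norm_num⟩
  have hp : IsPGroup 3 (zpowers y) := by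
    apply IsPGroup.of_card (n := 1)
    rw [Nat.card_zpowers, hy, pow_one]
  obtain ⟨P, hP⟩ := hp.exists_le_sylow
  have hP1 := (Cfsg.Agent.S1003.sylow3 h P).2.1
  have hPy : (P : Subgroup G) = zpowers y :=
    eq_zpowers_of_card_prime (P : Subgroup G) hP1 y (hP (mem_zpowers y)) hy
  rw [← hPy]; exact card_normalizer_sylow3 h P

theorem card_normalizer_zpowers7 (h : Nat.card G = 168) {y : G} (hy : orderOf y = 7) :
    Nat.card (normalizer ((zpowers y : Subgroup G) : Set G)) = 21 := by
  have : Fact (Nat.Prime 7) := ⟨by norm_num⟩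
  have hp : IsPGroup 7 (zpowers y) := by
    apply IsPGroup.of_card (n := 1)
    rw [Nat.card_zpowers, hy, pow_one]
  obtain ⟨P, hP⟩ := hp.exists_le_sylow
  have hP1 := (Cfsg.Agent.S1003.sylow7 h P).2.1
  have hPy : (P : Subgroup G) = zpowers y :=
    eq_zpowers_of_card_prime (P : Subgroup G) hP1 y (hP (mem_zpowers y)) hy
  rw [← hPy]; exact card_normalizer_sylow7 h P

theorem centralizer_order3_eq (h : Nat.card G = 168) {y : G} (hy : orderOf y = 3) :
    centralizer ({y} : Set G) = zpowers y := by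
  symm
  apply Subgroup.eq_of_le_of_card_ge
  · rw [zpowers_le, mem_centralizer_iff]
    intro t ht
    rw [Set.mem_singleton_iff] at ht
    rw [ht]
  · rw [card_centralizer_order3 h hy, Nat.card_zpowers, hy]

/-- The order of a Sylow `p`-subgroup of a subgroup, for `p ∈ {3, 7}`. -/
theorem card_sylow_sub (h : Nat.card G = 168) (S : Subgroup G) {p : ℕ} [Fact (Nat.Prime p)]
    (hp2 : ¬ p * p ∣ 168) (h3 : p ∣ Nat.card S) (P : Sylow p ↥S) :
    Nat.card (P : Subgroup S) = p := by
  obtain ⟨m, hm⟩ := h3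
  have hd : Nat.card S ∣ 168 := by rw [← h]; exact Subgroup.card_subgroup_dvd_card S
  have hm3 : ¬ p ∣ m := by
    rintro ⟨j, rfl⟩
    rw [hm] at hd
    exact hp2 (Dvd.dvd.trans ⟨j, by ring⟩ hd)
  have := sylow_card_of_card_eq (p := p) (k := 1) (m := m) (by rw [hm]; ring) hm3 P
  simpa using this

/-- The normalizer in `S` of a subgroup of prime order embeds in its normalizer in `G`. -/
theorem normalizer_sub_map_le (S : Subgroup G) {p : ℕ} [Fact (Nat.Prime p)] (P : Sylow p ↥S)
    (hcP : Nat.card (P : Subgroup S) = p) (y : ↥S) (hyP : y ∈ (P : Subgroup S))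
    (hy : orderOf y = p) :
    (normalizer ((P : Subgroup S) : Set S)).map S.subtype ≤
      normalizer ((zpowers (y : G) : Subgroup G) : Set G) := by
  have hPy : (P : Subgroup S) = zpowers y := eq_zpowers_of_card_prime _ hcP y hyP hy
  rintro _ ⟨s, hs, rfl⟩
  apply mem_normalizer_fintype
  intro n hn
  have hn' : n ∈ zpowers (y : G) := hn
  obtain ⟨k, rfl⟩ := mem_zpowers_iff.mp hn'
  have hconj : s * y * s⁻¹ ∈ (P : Subgroup S) := (mem_normalizer_iff.mp hs y).mp hyP
  rw [hPy] at hconj
  obtain ⟨j, hj⟩ := mem_zpowers_iff.mp hconj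
  have hj' : (y : G) ^ j = (s : G) * (y : G) * (s : G)⁻¹ := by
    have := congrArg Subtype.val hj
    simpa using this
  have e : S.subtype s * (y : G) ^ k * (S.subtype s)⁻¹ = ((y : G) ^ j) ^ k := by
    rw [hj', conj_zpow]; rfl
  show S.subtype s * (y : G) ^ k * (S.subtype s)⁻¹ ∈ zpowers (y : G)
  rw [e]
  exact zpow_mem (zpow_mem (mem_zpowers _) j) k

theorem sylow3_sub_count (h : Nat.card G = 168) (S : Subgroup G) (h3 : 3 ∣ Nat.card S)
    [Fact (Nat.Prime 3)] (P : Sylow 3 ↥S) :
    Nat.card (normalizer ((P : Subgroup S) : Set S)) ∣ 6 ∧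
    Nat.card (normalizer ((P : Subgroup S) : Set S)) * Nat.card (Sylow 3 ↥S) = Nat.card S ∧
    Nat.card (Sylow 3 ↥S) % 3 = 1 := by
  have hcP := card_sylow_sub h S (by norm_num) h3 P
  obtain ⟨y, hyP, hy⟩ := exists_mem_orderOf_eq_prime (P : Subgroup S) 3 (by rw [hcP])
  have hle := normalizer_sub_map_le S P hcP y hyP hy
  have hyG : orderOf (y : G) = 3 := by rw [Subgroup.orderOf_coe]; exact hy
  refine ⟨?_, ?_, ?_⟩
  · have := Subgroup.card_dvd_of_le hle
    rwa [Subgroup.card_map_of_injective S.subtype_injective, card_normalizer_zpowers3 h hyG]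
      at this
  · rw [Sylow.card_eq_index_normalizer P]
    exact Subgroup.card_mul_index _
  · have := card_sylow_modEq_one 3 ↥S
    exact this

theorem sylow3_of_card_24 (h : Nat.card G = 168) (S : Subgroup G) (hS : Nat.card S = 24)
    [Fact (Nat.Prime 3)] (P : Sylow 3 ↥S) :
    Nat.card (Sylow 3 ↥S) = 4 ∧ Nat.card (normalizer ((P : Subgroup S) : Set S)) = 6 := by
  obtain ⟨hd, hmul, hmod⟩ := sylow3_sub_count h S (by rw [hS]; norm_num) P
  rw [hS] at hmul
  have hle : Nat.card (normalizer ((P : Subgroup S) : Set S)) ≤ 6 :=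
    Nat.le_of_dvd (by norm_num) hd
  generalize Nat.card (normalizer ((P : Subgroup S) : Set S)) = c at *
  generalize Nat.card (Sylow 3 ↥S) = n at *
  interval_cases c <;> omega

theorem sylow3_of_card_12 (h : Nat.card G = 168) (S : Subgroup G) (hS : Nat.card S = 12)
    [Fact (Nat.Prime 3)] (P : Sylow 3 ↥S) :
    Nat.card (Sylow 3 ↥S) = 4 ∧ Nat.card (normalizer ((P : Subgroup S) : Set S)) = 3 := by
  obtain ⟨hd, hmul, hmod⟩ := sylow3_sub_count h S (by rw [hS]; norm_num) P
  rw [hS] at hmul
  have hle : Nat.card (normalizer ((P : Subgroup S) : Set S)) ≤ 6 :=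
    Nat.le_of_dvd (by norm_num) hd
  generalize Nat.card (normalizer ((P : Subgroup S) : Set S)) = c at *
  generalize Nat.card (Sylow 3 ↥S) = n at *
  interval_cases c <;> omega

/-- In a subgroup of order 24, the normalizer of a subgroup of order 3 is contained in it. -/
theorem normalizer3_le_of_card_24 (h : Nat.card G = 168) (S : Subgroup G) (hS : Nat.card S = 24)
    {y : G} (hyS : y ∈ S) (hy : orderOf y = 3) :
    normalizer ((zpowers y : Subgroup G) : Set G) ≤ S := by
  have : Fact (Nat.Prime 3) := ⟨by norm_num⟩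
  have hy' : orderOf (⟨y, hyS⟩ : S) = 3 := by rw [Subgroup.orderOf_mk]; exact hy
  have hp : IsPGroup 3 (zpowers (⟨y, hyS⟩ : S)) := by
    apply IsPGroup.of_card (n := 1)
    rw [Nat.card_zpowers, hy', pow_one]
  obtain ⟨P, hP⟩ := hp.exists_le_sylow
  have hcP := card_sylow_sub h S (by norm_num) (by rw [hS]; norm_num) P
  have hle := normalizer_sub_map_le S P hcP ⟨y, hyS⟩ (hP (mem_zpowers _)) hy'
  have h6 := (sylow3_of_card_24 h S hS P).2
  have heq : (normalizer ((P : Subgroup S) : Set S)).map S.subtype =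
      normalizer ((zpowers y : Subgroup G) : Set G) := by
    apply Subgroup.eq_of_le_of_card_ge hle
    rw [Subgroup.card_map_of_injective S.subtype_injective, h6, card_normalizer_zpowers3 h hy]
  rw [← heq]
  exact Subgroup.map_subtype_le _

/-- A subgroup of order 24 is isomorphic to the symmetric group of degree 4. -/
theorem perm4_of_card_24 (h : Nat.card G = 168) (S : Subgroup G) (hS : Nat.card S = 24) :
    Nonempty (↥S ≃* Equiv.Perm (Fin 4)) := by
  have : Fact (Nat.Prime 3) := ⟨by norm_num⟩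
  obtain ⟨P⟩ : Nonempty (Sylow 3 ↥S) := inferInstance
  have h3 : 3 ∣ Nat.card S := by rw [hS]; norm_num
  have hn4 := (sylow3_of_card_24 h S hS P).1
  have hcard : ∀ Q : Sylow 3 ↥S, Nat.card (Q : Subgroup S) = 3 := fun Q =>
    card_sylow_sub h S (by norm_num) h3 Q
  let φ : ↥S →* Equiv.Perm (Sylow 3 ↥S) := MulAction.toPermHom ↥S (Sylow 3 ↥S)
  have hfix : ∀ k ∈ φ.ker, ∀ Q : Sylow 3 ↥S, k • Q = Q := by
    intro k hk Q
    have h1 : φ k = 1 := MonoidHom.mem_ker.mp hk
    have := congrArg (fun σ : Equiv.Perm (Sylow 3 ↥S) => σ Q) h1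
    simpa [φ] using this
  -- an element of order 3 cannot lie in the kernel
  have hno3 : ∀ k ∈ φ.ker, orderOf k ≠ 3 := by
    intro k hk hk3
    have hall : ∀ Q : Sylow 3 ↥S, (Q : Subgroup S) = zpowers k := by
      intro Q
      have hN : k ∈ normalizer ((Q : Subgroup S) : Set S) :=
        Sylow.smul_eq_iff_mem_normalizer.mp (hfix k hk Q)
      have hkQ : k ∈ (Q : Subgroup S) :=
        mem_sylow_of_mem_normalizer Q k 1 (by rw [hk3, pow_one]) hN
      exact eq_zpowers_of_card_prime _ (hcard Q) k hkQ hk3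
    have hsub : Subsingleton (Sylow 3 ↥S) := ⟨fun Q Q' => Sylow.ext ((hall Q).trans (hall Q').symm)⟩
    have := Finite.card_le_one_iff_subsingleton.mpr hsub
    omega
  have hinj : Function.Injective φ := by
    rw [injective_iff_map_eq_one]
    intro k hk1
    have hk : k ∈ φ.ker := MonoidHom.mem_ker.mpr hk1
    obtain ⟨y, hyP, hy⟩ := exists_mem_orderOf_eq_prime (P : Subgroup S) 3 (by rw [hcard P])
    have hyG : orderOf (y : G) = 3 := by rw [Subgroup.orderOf_coe]; exact hy
    have hPy : (P : Subgroup S) = zpowers y := eq_zpowers_of_card_prime _ (hcard P) y hyP hy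
    have hN : k ∈ normalizer ((P : Subgroup S) : Set S) :=
      Sylow.smul_eq_iff_mem_normalizer.mp (hfix k hk P)
    have hconj : k * y * k⁻¹ ∈ (P : Subgroup S) := (mem_normalizer_iff.mp hN y).mp hyP
    have hcP : k * y * k⁻¹ * y⁻¹ ∈ (P : Subgroup S) := mul_mem hconj (inv_mem hyP)
    have hcK : k * y * k⁻¹ * y⁻¹ ∈ φ.ker := by
      have hnorm : φ.ker.Normal := inferInstance
      have h1 := hnorm.conj_mem k⁻¹ (inv_mem hk) y
      have h2 := mul_mem hk h1
      have e : k * (y * k⁻¹ * y⁻¹) = k * y * k⁻¹ * y⁻¹ := by group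
      rwa [e] at h2
    have hc1 : k * y * k⁻¹ * y⁻¹ = 1 := by
      by_contra hne
      exact hno3 _ hcK (orderOf_eq_of_mem_card_prime (by norm_num) _ (hcard P) _ hcP hne)
    have hcomm : (y : G) * (k : G) = (k : G) * (y : G) := by
      have h1 : k * y = y * k := by
        calc k * y = (k * y * k⁻¹ * y⁻¹) * (y * k) := by group
          _ = y * k := by rw [hc1, one_mul]
      have := congrArg Subtype.val h1
      simpa using this.symm
    have hkz : (k : G) ∈ zpowers (y : G) := by
      rw [← centralizer_order3_eq h hyG, mem_centralizer_iff]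
      intro t ht
      rw [Set.mem_singleton_iff] at ht
      rw [ht]; exact hcomm
    have hkP : k ∈ (P : Subgroup S) := by
      rw [hPy]
      obtain ⟨j, hj⟩ := mem_zpowers_iff.mp hkz
      rw [mem_zpowers_iff]
      refine ⟨j, Subtype.ext ?_⟩
      simpa using hj
    by_contra hne
    exact hno3 k hk (orderOf_eq_of_mem_card_prime (by norm_num) _ (hcard P) k hkP hne)
  have hbij : Function.Bijective φ := by
    apply hinj.bijective_of_nat_card_le
    rw [Nat.card_perm, hn4, hS]
    decide
  exact ⟨(MulEquiv.ofBijective φ hbij).trans (Equiv.permCongrHom (Finite.equivFinOfCardEq hn4))⟩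

end Cfsg.Agent.H11.G168
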