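import Mathlib
import Cfsg.Agent.H11.G168E
import Cfsg.Agent.H11.FourCore

/-!
# Simple groups of order 168: maximal subgroups
-/

set_option autoImplicit false

namespace Cfsg.Agent.H11.G168

open Cfsg.Agent.H21 Subgroup

theorem le_normalizer_of_index_two {Q : Type*} [Group Q] [Finite Q] {H M : Subgroup Q}
    (hle : H ≤ M) (hc : Nat.card M = 2 * Nat.card H) : M ≤ normalizer (H : Set Q) := by
  have h1 := Cfsg.Agent.H3.relIndex_mul_card_of_le hle
  rw [hc] at h1
  have hpos : 0 < Nat.card H := Nat.card_pos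
  have h2 : H.relIndex M = 2 := Nat.eq_of_mul_eq_mul_right hpos h1
  have h3 : (H.subgroupOf M).Normal := Subgroup.normal_of_index_eq_two h2
  exact (Subgroup.normal_subgroupOf_iff_le_normalizer hle).mp h3

variable {G : Type*} [Group G] [Finite G] [IsSimpleGroup G]

/-- A proper subgroup has order at most 24. -/
theorem card_le_of_ne_top (h : Nat.card G = 168) (H : Subgroup G) (hH : H ≠ ⊤) :
    Nat.card H ≤ 24 := by
  have h1 := two_mul_card_dvd_factorial_index (not_comm h) H hH
  rw [h] at h1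
  have h2 := Subgroup.card_mul_index H
  rw [h] at h2
  by_contra hcon
  have h7 : H.index ≤ 6 := by
    by_contra h7
    have h8 : 7 ≤ H.index := by omega
    have : Nat.card H * 7 ≤ Nat.card H * H.index := Nat.mul_le_mul_left _ h8
    omega
  have h3 : H.index.factorial ∣ Nat.factorial 6 := Nat.factorial_dvd_factorial h7
  have h4 : (2 * 168) ∣ Nat.factorial 6 := h1.trans h3
  have h5 : Nat.factorial 6 = 720 := by decide
  rw [h5] at h4
  omega

theorem ne_top_of_card_lt (h : Nat.card G = 168) {L : Subgroup G} (hc : Nat.card L < 168) :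
    L ≠ ⊤ := by
  rintro rfl
  rw [Subgroup.card_top, h] at hc
  omega

theorem isCoatom_of_card_24 (h : Nat.card G = 168) {M : Subgroup G} (hM : Nat.card M = 24) :
    IsCoatom M := by
  refine ⟨ne_top_of_card_lt h (by rw [hM]; norm_num), ?_⟩
  intro b hb
  by_contra hne
  have h1 := card_le_of_ne_top h b hne
  have h2 : M = b := Subgroup.eq_of_le_of_card_ge hb.le (by rw [hM]; exact h1)
  exact hb.ne h2

theorem not_coatom (h : Nat.card G = 168) {M L : Subgroup G} (hM : IsCoatom M) (hle : M ≤ L)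
    (h1 : Nat.card M < Nat.card L) (h2 : Nat.card L < 168) : False := by
  have hlt : M < L := lt_of_le_of_ne hle (by rintro rfl; omega)
  exact ne_top_of_card_lt h h2 (hM.2 L hlt)

/-- The centralizer of an involution is a Sylow 2-subgroup. -/
theorem centralizer_invol_sylow (h : Nat.card G = 168) {u : G} (hu2 : orderOf u = 2) :
    ∃ T' : Sylow 2 G, centralizer ({u} : Set G) = T' := by
  have : Fact (Nat.Prime 2) := ⟨by norm_num⟩
  obtain ⟨T⟩ : Nonempty (Sylow 2 G) := inferInstance
  obtain ⟨x, hx, hx4⟩ := sylow2_exists_order4 h T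
  have hC : Nat.card (centralizer ({u} : Set G)) = 8 := by
    obtain ⟨-, -, hconj, -⟩ := card_order2_order4 h
    obtain ⟨c, hc⟩ := isConj_iff.1 (hconj (x * x) u (orderOf_sq_of_four hx4) hu2)
    rw [← hc, card_centralizer_conj, centralizer_sq h T hx hx4, card_sylow2 h T]
  have hpC : IsPGroup 2 (centralizer ({u} : Set G)) := centralizer_invol_isPGroup h hu2
  obtain ⟨T', hCT'⟩ := hpC.exists_le_sylow
  exact ⟨T', Subgroup.eq_of_le_of_card_ge hCT' (by rw [hC, card_sylow2 h T'])⟩

/-- A nontrivial central element of a Sylow 2-subgroup is the square of any element of order 4. -/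
theorem central_eq_sq (h : Nat.card G = 168) (T : Sylow 2 G) {x : G} (hx : x ∈ (T : Subgroup G))
    (hx4 : orderOf x = 4) {t : G} (ht : t ∈ (T : Subgroup G)) (ht1 : t ≠ 1)
    (hc : ∀ s ∈ (T : Subgroup G), s * t = t * s) : t = x * x := by
  have ht2 : orderOf t = 2 := orderOf_central h T ht ht1 hc
  have htt : t * t = 1 := by rw [← pow_two, ← ht2]; exact pow_orderOf_eq_one t
  by_cases htx : t ∈ zpowers x
  · exact invol_mem_zpowers hx4 htx ht1 htt
  · exfalso
    have h1 := conj_inv h T hx hx4 t ht htx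
    have h2 : t * x * t⁻¹ = x := by rw [← hc x hx]; group
    rw [h2] at h1
    apply sq_ne_one_of_four hx4
    nth_rewrite 1 [h1]
    exact inv_mul_cancel x

/-- A Klein four-subgroup is determined by its normalizer. -/
theorem klein_eq_of_normalizer_eq (h : Nat.card G = 168) {U U' : Subgroup G} (hU : IsKleinFour U)
    (hU' : IsKleinFour U') (heq : normalizer (U : Set G) = normalizer (U' : Set G)) : U = U' := by
  have : Fact (Nat.Prime 2) := ⟨by norm_num⟩
  have hp' : IsPGroup 2 U' := IsPGroup.of_card (n := 2) (by rw [hU'.card_four]; norm_num)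
  apply Subgroup.eq_of_le_of_card_ge
  · intro u hu
    by_cases hu1 : u = 1
    · rw [hu1]; exact one_mem _
    have hu2 : orderOf u = 2 :=
      orderOf_eq_prime (by rw [pow_two]; exact kleinFour_mul_self hU hu) hu1
    obtain ⟨T', hT'⟩ := centralizer_invol_sylow h hu2
    have hUT' : U ≤ (T' : Subgroup G) := by
      rw [← hT']
      intro v hv
      rw [mem_centralizer_iff]
      intro y hy
      rw [Set.mem_singleton_iff] at hy
      rw [hy]
      exact kleinFour_comm hU hu hv
    have hT'N : (T' : Subgroup G) ≤ normalizer (U' : Set G) := by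
      rw [← heq]
      exact sylow_le_normalizer_of_card_four h T' hUT' hU.card_four
    have hsup := T'.is_maximal' (T'.isPGroup'.to_sup_of_normal_right' hp' hT'N) le_sup_left
    have hU'T' : U' ≤ (T' : Subgroup G) := by
      rw [← hsup]; exact le_sup_right
    obtain ⟨x, hx, hx4⟩ := sylow2_exists_order4 h T'
    have hz := (klein_struct h T' hx hx4 hU'T' hU').1
    have hcen : ∀ s ∈ (T' : Subgroup G), s * u = u * s := by
      intro s hs
      rw [← hT', mem_centralizer_iff] at hs
      exact (hs u rfl).symm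
    rw [central_eq_sq h T' hx hx4 (hUT' hu) hu1 hcen]
    exact hz
  · rw [hU.card_four, hU'.card_four]

/-- Every element of order 3 lies in a subgroup of order 24. -/
theorem exists_card24_mem_order3 (h : Nat.card G = 168) {y : G} (hy : orderOf y = 3) :
    ∃ S : Subgroup G, Nat.card S = 24 ∧ y ∈ S := by
  have : Fact (Nat.Prime 2) := ⟨by norm_num⟩
  have : Fact (Nat.Prime 3) := ⟨by norm_num⟩
  obtain ⟨T⟩ : Nonempty (Sylow 2 G) := inferInstance
  obtain ⟨V₁, V₂, h1, h2, hk1, hk2, hne, hall⟩ := klein_in_sylow h T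
  have hN := card_normalizer_klein h hk1
  obtain ⟨y', hy'N, hy'⟩ := exists_mem_orderOf_eq_prime (normalizer (V₁ : Set G)) 3
    (by rw [hN]; norm_num)
  obtain ⟨c, hc⟩ := isConj_iff.1 (conj_order3 h y' y hy' hy)
  refine ⟨(normalizer (V₁ : Set G)).map (MulAut.conj c).toMonoidHom, ?_, ?_⟩
  · rw [Subgroup.card_map_of_injective (MulAut.conj c).injective, hN]
  · exact Subgroup.mem_map.mpr ⟨y', hy'N, by simp [MulAut.conj_apply, hc]⟩

theorem coatom_not_two_group (h : Nat.card G = 168) {M : Subgroup G} (hM : IsCoatom M)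
    (hp : IsPGroup 2 M) (hlt : Nat.card M < 8) : False := by
  have : Fact (Nat.Prime 2) := ⟨by norm_num⟩
  obtain ⟨T, hT⟩ := hp.exists_le_sylow
  exact not_coatom h hM hT (by rw [card_sylow2 h T]; exact hlt)
    (by rw [card_sylow2 h T]; norm_num)

theorem coatom_card_ne_8 (h : Nat.card G = 168) {M : Subgroup G} (hM : IsCoatom M)
    (hc : Nat.card M = 8) : False := by
  have : Fact (Nat.Prime 2) := ⟨by norm_num⟩
  have hp : IsPGroup 2 M := IsPGroup.of_card (n := 3) (by rw [hc]; norm_num)
  obtain ⟨T, hT⟩ := hp.exists_le_sylow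
  have hMT : M = T := Subgroup.eq_of_le_of_card_ge hT (by rw [hc, card_sylow2 h T])
  obtain ⟨V₁, V₂, h1, h2, hk1, hk2, hne, hall⟩ := klein_in_sylow h T
  have hTN := sylow_le_normalizer_of_card_four h T h1 hk1.card_four
  have hN := card_normalizer_klein h hk1
  have hle : M ≤ normalizer (V₁ : Set G) := by rw [hMT]; exact hTN
  exact not_coatom h hM hle (by rw [hc, hN]; norm_num) (by rw [hN]; norm_num)

theorem coatom_card_ne_3 (h : Nat.card G = 168) {M : Subgroup G} (hM : IsCoatom M)
    (hc : Nat.card M = 3) : False := by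
  have : Fact (Nat.Prime 3) := ⟨by norm_num⟩
  obtain ⟨y, hyM, hy⟩ := exists_mem_orderOf_eq_prime M 3 (by rw [hc])
  have hMy : M = zpowers y := eq_zpowers_of_card_prime M hc y hyM hy
  have hN := card_normalizer_zpowers3 h hy
  have hle : M ≤ normalizer ((zpowers y : Subgroup G) : Set G) := by
    rw [hMy]; exact le_normalizer
  exact not_coatom h hM hle (by rw [hc, hN]; norm_num) (by rw [hN]; norm_num)

theorem coatom_card_ne_7 (h : Nat.card G = 168) {M : Subgroup G} (hM : IsCoatom M)
    (hc : Nat.card M = 7) : False := by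
  have : Fact (Nat.Prime 7) := ⟨by norm_num⟩
  obtain ⟨y, hyM, hy⟩ := exists_mem_orderOf_eq_prime M 7 (by rw [hc])
  have hMy : M = zpowers y := eq_zpowers_of_card_prime M hc y hyM hy
  have hN := card_normalizer_zpowers7 h hy
  have hle : M ≤ normalizer ((zpowers y : Subgroup G) : Set G) := by
    rw [hMy]; exact le_normalizer
  exact not_coatom h hM hle (by rw [hc, hN]; norm_num) (by rw [hN]; norm_num)

theorem card_ne_14 (h : Nat.card G = 168) {M : Subgroup G} (hc : Nat.card M = 14) : False := by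
  have : Fact (Nat.Prime 7) := ⟨by norm_num⟩
  obtain ⟨y, hyM, hy⟩ := exists_mem_orderOf_eq_prime M 7 (by rw [hc]; norm_num)
  have hle : zpowers y ≤ M := by rw [zpowers_le]; exact hyM
  have hN := le_normalizer_of_index_two hle (by rw [hc, Nat.card_zpowers, hy])
  have hd := Subgroup.card_dvd_of_le hN
  rw [hc, card_normalizer_zpowers7 h hy] at hd
  omega

theorem coatom_card_ne_6 (h : Nat.card G = 168) {M : Subgroup G} (hM : IsCoatom M)
    (hc : Nat.card M = 6) : False := by
  have : Fact (Nat.Prime 3) := ⟨by norm_num⟩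
  obtain ⟨y, hyM, hy⟩ := exists_mem_orderOf_eq_prime M 3 (by rw [hc]; norm_num)
  have hle : zpowers y ≤ M := by rw [zpowers_le]; exact hyM
  have hN := le_normalizer_of_index_two hle (by rw [hc, Nat.card_zpowers, hy])
  obtain ⟨S, hS, hyS⟩ := exists_card24_mem_order3 h hy
  have hNS := normalizer3_le_of_card_24 h S hS hyS hy
  exact not_coatom h hM (hN.trans hNS) (by rw [hc, hS]; norm_num) (by rw [hS]; norm_num)

theorem not_comm_of_card_21 (h : Nat.card G = 168) {M : Subgroup G} (hc : Nat.card M = 21) :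
    ¬ IsMulCommutative M := by
  intro hcomm
  have : Fact (Nat.Prime 3) := ⟨by norm_num⟩
  have : Fact (Nat.Prime 7) := ⟨by norm_num⟩
  obtain ⟨y, hyM, hy⟩ := exists_mem_orderOf_eq_prime M 7 (by rw [hc]; norm_num)
  obtain ⟨w, hwM, hw⟩ := exists_mem_orderOf_eq_prime M 3 (by rw [hc]; norm_num)
  have h1 : (⟨y, hyM⟩ : M) * ⟨w, hwM⟩ = ⟨w, hwM⟩ * ⟨y, hyM⟩ := hcomm.is_comm.comm _ _
  have h2 : y * w = w * y := congrArg Subtype.val h1
  have hwC : w ∈ centralizer ({y} : Set G) := by
    rw [mem_centralizer_iff]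
    intro t ht
    rw [Set.mem_singleton_iff] at ht
    rw [ht]; exact h2
  have hd := orderOf_dvd_card_of_mem _ w hwC
  rw [hw, card_centralizer_order7 h hy] at hd
  omega

theorem coatom_card_ne_12 (h : Nat.card G = 168) {M : Subgroup G} (hM : IsCoatom M)
    (hc : Nat.card M = 12) : False := by
  have : Fact (Nat.Prime 2) := ⟨by norm_num⟩
  have : Fact (Nat.Prime 3) := ⟨by norm_num⟩
  obtain ⟨P⟩ : Nonempty (Sylow 3 ↥M) := inferInstance
  obtain ⟨Q⟩ : Nonempty (Sylow 2 ↥M) := inferInstance
  have hn4 := (sylow3_of_card_12 h M hc P).1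
  have hcP := card_sylow_sub h M (by norm_num) (by rw [hc]; norm_num) P
  have h8 : Nat.card {m : ↥M // orderOf m = 3} = 8 := by
    rw [card_orderOf_eq_prime 3 P hcP, hn4]
  have hcQ : Nat.card (Q : Subgroup M) = 4 := by
    have := sylow_card_of_card_eq (p := 2) (k := 2) (m := 3) (by rw [hc]; norm_num) (by norm_num) Q
    simpa using this
  have hQ3 : ∀ m ∈ (Q : Subgroup M), orderOf m ≠ 3 := by
    intro m hm h3
    have := orderOf_dvd_card_of_mem _ m hm
    rw [h3, hcQ] at this
    omega
  have hcover : ∀ m : ↥M, orderOf m ≠ 3 → m ∈ (Q : Subgroup M) := by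
    intro m₀ hm₀
    by_contra hnot
    have hup := card_add_three_le (α := ↥M) (fun m => m ∈ (Q : Subgroup M))
      (fun m => orderOf m = 3) (fun m => m = m₀)
      (by intro a ha h3; exact hQ3 a ha h3)
      (by intro a ha h0; rw [h0] at ha; exact hnot ha)
      (by intro a h3 h0; rw [h0] at h3; exact hm₀ h3)
    have h1 : Nat.card {m : ↥M // m = m₀} = 1 := Nat.card_unique
    have h4 : Nat.card {m : ↥M // m ∈ (Q : Subgroup M)} = 4 := hcQ
    rw [h8, hc, h1, h4] at hup
    omega
  have hnormal : ∀ m : ↥M, ∀ q ∈ (Q : Subgroup M), m * q * m⁻¹ ∈ (Q : Subgroup M) := by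
    intro m q hq
    apply hcover
    rw [orderOf_conj']
    exact hQ3 q hq
  have hcQ' : Nat.card ((Q : Subgroup M).map M.subtype) = 4 := by
    rw [Subgroup.card_map_of_injective M.subtype_injective, hcQ]
  have hMN : M ≤ normalizer (((Q : Subgroup M).map M.subtype : Subgroup G) : Set G) := by
    intro m hm
    apply mem_normalizer_fintype
    intro n hn
    have hn' : n ∈ (Q : Subgroup M).map M.subtype := hn
    obtain ⟨q, hq, rfl⟩ := Subgroup.mem_map.mp hn'
    exact Subgroup.mem_map.mpr ⟨⟨m, hm⟩ * q * ⟨m, hm⟩⁻¹, hnormal ⟨m, hm⟩ q hq, rfl⟩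
  by_cases hsq : ∀ q ∈ (Q : Subgroup M).map M.subtype, q * q = 1
  · have hK : IsKleinFour ((Q : Subgroup M).map M.subtype) :=
      isKleinFour_of_card_sq _ hcQ' hsq
    have hN := card_normalizer_klein h hK
    exact not_coatom h hM hMN (by rw [hc, hN]; norm_num) (by rw [hN]; norm_num)
  · have hex : ∃ q ∈ (Q : Subgroup M).map M.subtype, q * q ≠ 1 := by
      by_contra hcon
      apply hsq
      intro q hq
      by_contra hne
      exact hcon ⟨q, hq, hne⟩
    obtain ⟨q, hq, hqq⟩ := hex
    have hq4 : orderOf q = 4 := by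
      have hd := orderOf_dvd_card_of_mem _ q hq
      rw [hcQ'] at hd
      have hle : orderOf q ≤ 4 := Nat.le_of_dvd (by norm_num) hd
      have h1 : orderOf q ≠ 1 := by
        intro h1
        rw [orderOf_eq_one_iff] at h1
        rw [h1] at hqq; simp at hqq
      have h2 : orderOf q ≠ 2 := by
        intro h2
        apply hqq
        rw [← pow_two, ← h2]; exact pow_orderOf_eq_one q
      have h0 : 0 < orderOf q := orderOf_pos q
      generalize orderOf q = o at *
      interval_cases o <;> omega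
    have hQz : (Q : Subgroup M).map M.subtype = zpowers q := by
      symm
      apply Subgroup.eq_of_le_of_card_ge
      · rw [zpowers_le]; exact hq
      · rw [hcQ', Nat.card_zpowers, hq4]
    have h4 : q ^ 4 = 1 := by rw [← hq4]; exact pow_orderOf_eq_one q
    have hq44 : q * q * (q * q) = 1 := by
      calc q * q * (q * q) = q ^ 4 := by
            rw [show (4 : ℕ) = 2 + 2 from rfl, pow_add, pow_two]
        _ = 1 := h4
    have hMC : M ≤ centralizer ({q * q} : Set G) := by
      intro m hm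
      rw [mem_centralizer_iff]
      intro t ht
      rw [Set.mem_singleton_iff] at ht
      rw [ht]
      have hmq : m * q * m⁻¹ ∈ zpowers q := by
        rw [← hQz]
        exact (mem_normalizer_iff.mp (hMN hm) q).mp hq
      have hinv : (m * q * m⁻¹) * (m * q * m⁻¹) = q * q := by
        apply invol_mem_zpowers hq4 (mul_mem hmq hmq)
        · intro h1
          apply hqq
          have h2 : m * (q * q) * m⁻¹ = 1 := by rw [← h1]; group
          calc q * q = m⁻¹ * (m * (q * q) * m⁻¹) * m := by group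
            _ = 1 := by rw [h2]; group
        · have h2 : (m * q * m⁻¹) * (m * q * m⁻¹) * ((m * q * m⁻¹) * (m * q * m⁻¹)) =
              m * (q * q * (q * q)) * m⁻¹ := by group
          rw [h2, hq44]; group
      calc q * q * m = (m * q * m⁻¹) * (m * q * m⁻¹) * m := by rw [hinv]
        _ = m * (q * q) := by group
    have hd := Subgroup.card_dvd_of_le hMC
    have hd8 := card_centralizer_invol_dvd h (orderOf_sq_of_four hq4)
    have hd' := hd.trans hd8
    rw [hc] at hd'
    omega

/-- A maximal subgroup has order 21 or 24. -/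
theorem coatom_card (h : Nat.card G = 168) {M : Subgroup G} (hM : IsCoatom M) :
    Nat.card M = 21 ∨ Nat.card M = 24 := by
  have hle := card_le_of_ne_top h M hM.1
  have hd : Nat.card M ∣ 168 := by rw [← h]; exact Subgroup.card_subgroup_dvd_card M
  have hpos : 0 < Nat.card M := Nat.card_pos
  by_contra hcon
  have hlist : Nat.card M = 1 ∨ Nat.card M = 2 ∨ Nat.card M = 3 ∨ Nat.card M = 4 ∨
      Nat.card M = 6 ∨ Nat.card M = 7 ∨ Nat.card M = 8 ∨ Nat.card M = 12 ∨ Nat.card M = 14 := by
    obtain ⟨d, hd⟩ := hd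
    generalize Nat.card M = c at *
    interval_cases c <;> omega
  have : Fact (Nat.Prime 2) := ⟨by norm_num⟩
  rcases hlist with h1 | h1 | h1 | h1 | h1 | h1 | h1 | h1 | h1
  · exact coatom_not_two_group h hM (IsPGroup.of_card (n := 0) (by rw [h1]; norm_num))
      (by rw [h1]; norm_num)
  · exact coatom_not_two_group h hM (IsPGroup.of_card (n := 1) (by rw [h1]; norm_num))
      (by rw [h1]; norm_num)
  · exact coatom_card_ne_3 h hM h1
  · exact coatom_not_two_group h hM (IsPGroup.of_card (n := 2) (by rw [h1]; norm_num))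
      (by rw [h1]; norm_num)
  · exact coatom_card_ne_6 h hM h1
  · exact coatom_card_ne_7 h hM h1
  · exact coatom_card_ne_8 h hM h1
  · exact coatom_card_ne_12 h hM h1
  · exact card_ne_14 h h1

/-- A subgroup of order 21 is the normalizer of a subgroup of order 7. -/
theorem eq_normalizer_of_card_21 (h : Nat.card G = 168) {M : Subgroup G}
    (hc : Nat.card M = 21) :
    ∃ y : G, orderOf y = 7 ∧ M = normalizer ((zpowers y : Subgroup G) : Set G) := by
  have : Fact (Nat.Prime 7) := ⟨by norm_num⟩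
  obtain ⟨P⟩ : Nonempty (Sylow 7 ↥M) := inferInstance
  have hcP := card_sylow_sub h M (by norm_num) (by rw [hc]; norm_num) P
  obtain ⟨y, hyP, hy⟩ := exists_mem_orderOf_eq_prime (P : Subgroup M) 7 (by rw [hcP])
  have hyG : orderOf (y : G) = 7 := by rw [Subgroup.orderOf_coe]; exact hy
  have hle := normalizer_sub_map_le M P hcP y hyP hy
  have hmod : Nat.card (Sylow 7 ↥M) % 7 = 1 := card_sylow_modEq_one 7 ↥M
  have hmul : Nat.card (normalizer ((P : Subgroup M) : Set M)) * Nat.card (Sylow 7 ↥M) =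
      Nat.card M := by
    rw [Sylow.card_eq_index_normalizer P]; exact Subgroup.card_mul_index _
  rw [hc] at hmul
  have hN : Nat.card (normalizer ((P : Subgroup M) : Set M)) = 21 := by
    have hle : Nat.card (Sylow 7 ↥M) ≤ 21 := Nat.le_of_dvd (by norm_num) (Dvd.intro_left _ hmul)
    generalize Nat.card (normalizer ((P : Subgroup M) : Set M)) = c at *
    generalize Nat.card (Sylow 7 ↥M) = n at *
    interval_cases n <;> omega
  have himg : (normalizer ((P : Subgroup M) : Set M)).map M.subtype =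
      normalizer ((zpowers (y : G) : Subgroup G) : Set G) := by
    apply Subgroup.eq_of_le_of_card_ge hle
    rw [Subgroup.card_map_of_injective M.subtype_injective, hN, card_normalizer_zpowers7 h hyG]
  have himg2 : (normalizer ((P : Subgroup M) : Set M)).map M.subtype = M := by
    apply Subgroup.eq_of_le_of_card_ge (Subgroup.map_subtype_le _)
    rw [Subgroup.card_map_of_injective M.subtype_injective, hN, hc]
  exact ⟨y, hyG, himg2.symm.trans himg⟩

theorem conj_zpowers7 (h : Nat.card G = 168) {y y' : G} (hy : orderOf y = 7)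
    (hy' : orderOf y' = 7) :
    ∃ g : G, (zpowers y).map (MulAut.conj g).toMonoidHom = zpowers y' := by
  have : Fact (Nat.Prime 7) := ⟨by norm_num⟩
  have hp : ∀ t : G, orderOf t = 7 → ∃ P : Sylow 7 G, (P : Subgroup G) = zpowers t := by
    intro t ht
    have hp : IsPGroup 7 (zpowers t) := by
      apply IsPGroup.of_card (n := 1)
      rw [Nat.card_zpowers, ht, pow_one]
    obtain ⟨P, hP⟩ := hp.exists_le_sylow
    exact ⟨P, eq_zpowers_of_card_prime (P : Subgroup G) (Cfsg.Agent.S1003.sylow7 h P).2.1 t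
      (hP (mem_zpowers t)) ht⟩
  obtain ⟨P, hP⟩ := hp y hy
  obtain ⟨P', hP'⟩ := hp y' hy'
  obtain ⟨g, hg⟩ := sylow_conj_mem P' P
  refine ⟨g, ?_⟩
  apply Subgroup.eq_of_le_of_card_ge
  · rintro _ ⟨t, ht, rfl⟩
    rw [← hP']
    have := hg t (by rw [hP]; exact ht)
    simpa [MulAut.conj_apply] using this
  · rw [Subgroup.card_map_of_injective (MulAut.conj g).injective, Nat.card_zpowers,
      Nat.card_zpowers, hy, hy']

theorem perm4_conj_a : ∀ g : Equiv.Perm (Fin 4),
    g * (Equiv.swap 0 1 * Equiv.swap 2 3) * g⁻¹ = 1 ∨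
    g * (Equiv.swap 0 1 * Equiv.swap 2 3) * g⁻¹ = Equiv.swap 0 1 * Equiv.swap 2 3 ∨
    g * (Equiv.swap 0 1 * Equiv.swap 2 3) * g⁻¹ = Equiv.swap 0 2 * Equiv.swap 1 3 ∨
    g * (Equiv.swap 0 1 * Equiv.swap 2 3) * g⁻¹ =
      (Equiv.swap 0 1 * Equiv.swap 2 3) * (Equiv.swap 0 2 * Equiv.swap 1 3) := by
  decide

theorem perm4_conj_b : ∀ g : Equiv.Perm (Fin 4),
    g * (Equiv.swap 0 2 * Equiv.swap 1 3) * g⁻¹ = 1 ∨
    g * (Equiv.swap 0 2 * Equiv.swap 1 3) * g⁻¹ = Equiv.swap 0 1 * Equiv.swap 2 3 ∨
    g * (Equiv.swap 0 2 * Equiv.swap 1 3) * g⁻¹ = Equiv.swap 0 2 * Equiv.swap 1 3 ∨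
    g * (Equiv.swap 0 2 * Equiv.swap 1 3) * g⁻¹ =
      (Equiv.swap 0 1 * Equiv.swap 2 3) * (Equiv.swap 0 2 * Equiv.swap 1 3) := by
  decide

theorem exists_normal_klein_perm4 :
    ∃ O : Subgroup (Equiv.Perm (Fin 4)), O.Normal ∧ IsKleinFour O := by
  have ha : (Equiv.swap 0 1 * Equiv.swap 2 3 : Equiv.Perm (Fin 4)) *
      (Equiv.swap 0 1 * Equiv.swap 2 3) = 1 := by decide
  have hb : (Equiv.swap 0 2 * Equiv.swap 1 3 : Equiv.Perm (Fin 4)) *
      (Equiv.swap 0 2 * Equiv.swap 1 3) = 1 := by decide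
  have hab : (Equiv.swap 0 1 * Equiv.swap 2 3 : Equiv.Perm (Fin 4)) *
      (Equiv.swap 0 2 * Equiv.swap 1 3) =
      (Equiv.swap 0 2 * Equiv.swap 1 3) * (Equiv.swap 0 1 * Equiv.swap 2 3) := by decide
  refine ⟨fourSub _ _ ha hb hab, ⟨?_⟩,
    fourSub_isKleinFour _ _ ha hb hab (by decide) (by decide) (by decide)⟩
  intro n hn g
  have hA : g * (Equiv.swap 0 1 * Equiv.swap 2 3) * g⁻¹ ∈ fourSub _ _ ha hb hab :=
    mem_fourSub.mpr (perm4_conj_a g)
  have hB : g * (Equiv.swap 0 2 * Equiv.swap 1 3) * g⁻¹ ∈ fourSub _ _ ha hb hab :=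
    mem_fourSub.mpr (perm4_conj_b g)
  rcases mem_fourSub.mp hn with rfl | rfl | rfl | rfl
  · simp
  · exact hA
  · exact hB
  · have := mul_mem hA hB
    have e : g * (Equiv.swap 0 1 * Equiv.swap 2 3) * g⁻¹ *
        (g * (Equiv.swap 0 2 * Equiv.swap 1 3) * g⁻¹) =
        g * ((Equiv.swap 0 1 * Equiv.swap 2 3) * (Equiv.swap 0 2 * Equiv.swap 1 3)) * g⁻¹ := by
      group
    rwa [e] at this

theorem exists_normal_klein_of_perm4 {M : Type*} [Group M] (e : M ≃* Equiv.Perm (Fin 4)) :
    ∃ O : Subgroup M, O.Normal ∧ IsKleinFour O := by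
  obtain ⟨O, hn, hk⟩ := exists_normal_klein_perm4
  refine ⟨O.map e.symm.toMonoidHom, hn.map _ e.symm.surjective, ?_⟩
  exact isKleinFour_of_mulEquiv (O.equivMapOfInjective e.symm.toMonoidHom e.symm.injective) hk

/-- A subgroup isomorphic to the symmetric group of degree 4 is the normalizer of a Klein
four-subgroup. -/
theorem eq_normalizer_klein_of_perm4 (h : Nat.card G = 168) {M : Subgroup G}
    (e : ↥M ≃* Equiv.Perm (Fin 4)) :
    ∃ O : Subgroup G, IsKleinFour O ∧ M = normalizer (O : Set G) := by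
  obtain ⟨O, hn, hk⟩ := exists_normal_klein_of_perm4 e
  have hcM : Nat.card M = 24 := by
    rw [Nat.card_congr e.toEquiv, Nat.card_perm, Nat.card_fin]; rfl
  have hk' : IsKleinFour (O.map M.subtype) :=
    isKleinFour_of_mulEquiv (O.equivMapOfInjective M.subtype M.subtype_injective) hk
  refine ⟨O.map M.subtype, hk', ?_⟩
  apply Subgroup.eq_of_le_of_card_ge
  · intro m hm
    apply mem_normalizer_fintype
    intro n hn'
    have hn'' : n ∈ O.map M.subtype := hn'
    obtain ⟨q, hq, rfl⟩ := Subgroup.mem_map.mp hn''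
    exact Subgroup.mem_map.mpr ⟨⟨m, hm⟩ * q * ⟨m, hm⟩⁻¹, hn.conj_mem q hq ⟨m, hm⟩, rfl⟩
  · rw [card_normalizer_klein h hk', hcM]

/-- The normalizer of a Klein four-subgroup is conjugate to the normalizer of one of the two
Klein four-subgroups of a fixed Sylow 2-subgroup. -/
theorem conj_normalizer_klein (T : Sylow 2 G) {V₁ V₂ : Subgroup G}
    (hall : ∀ U : Subgroup G, U ≤ (T : Subgroup G) → IsKleinFour U → U = V₁ ∨ U = V₂)
    {O : Subgroup G} (hO : IsKleinFour O) :
    ∃ g : G, normalizer (O : Set G) = (normalizer (V₁ : Set G)).map (MulAut.conj g).toMonoidHom ∨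
      normalizer (O : Set G) = (normalizer (V₂ : Set G)).map (MulAut.conj g).toMonoidHom := by
  have : Fact (Nat.Prime 2) := ⟨by norm_num⟩
  have hp : IsPGroup 2 O := IsPGroup.of_card (n := 2) (by rw [hO.card_four]; norm_num)
  obtain ⟨T', hOT'⟩ := hp.exists_le_sylow
  obtain ⟨g, hg⟩ := sylow_conj_mem T T'
  have hle : O.map (MulAut.conj g).toMonoidHom ≤ (T : Subgroup G) := by
    rintro _ ⟨t, ht, rfl⟩
    have := hg t (hOT' ht)
    simpa [MulAut.conj_apply] using this
  have hk : IsKleinFour (O.map (MulAut.conj g).toMonoidHom) :=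
    isKleinFour_of_mulEquiv (O.equivMapOfInjective _ (MulAut.conj g).injective) hO
  have hback : ∀ V : Subgroup G, O.map (MulAut.conj g).toMonoidHom = V →
      normalizer (O : Set G) = (normalizer (V : Set G)).map (MulAut.conj g⁻¹).toMonoidHom := by
    intro V hV
    rw [← hV, ← Subgroup.map_equiv_normalizer_eq, Subgroup.map_map]
    have hid : (MulAut.conj g⁻¹).toMonoidHom.comp (MulAut.conj g).toMonoidHom =
        MonoidHom.id G := by
      ext t
      simp [MulAut.conj_apply, mul_assoc]
    rw [hid, Subgroup.map_id]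
  refine ⟨g⁻¹, ?_⟩
  rcases hall _ hle hk with h1 | h1
  · left; exact hback V₁ h1
  · right; exact hback V₂ h1

end Cfsg.Agent.H11.G168
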