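import Mathlib
import Cfsg.Agent.H86.GsDefs

/-!
# S5665 (helper86's project), piece GS-EXT: the skew structure `(J, δ)` of a quadratic field
subalgebra of unitary type
-/

set_option autoImplicit false

namespace Cfsg.Agent.H11.Gs

open Cfsg Cfsg.Geo Cfsg.Agent.H95 Cfsg.Agent.H86.Gs
open scoped MatrixGroups Matrix

universe u

theorem gsExt : StExt.{u} := by
  intro m F _ _ hodd K hK hadj hnsa
  -- characteristic not two
  have h2 : (2 : F) ≠ 0 := by
    intro h
    have h3 : ringChar F ∣ 2 := by
      apply ringChar.dvd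
      exact_mod_cast h
    have h4 : ringChar F = 2 :=
      ((Nat.dvd_prime Nat.prime_two).mp h3).resolve_left CharP.ringChar_ne_one
    have h5 := FiniteField.even_card_of_char_two h4
    rcases hodd with ⟨c, hc⟩
    omega
  -- a basis `j, 1` of `K`
  have hfr : Module.finrank F K = 2 := hK.finrank_eq
  have : Module.Finite F K := Module.finite_of_finrank_pos (by rw [hfr]; norm_num)
  obtain ⟨j, hj⟩ : ∃ j : K, j ∉ Submodule.span F {(1 : K)} := by
    by_contra hcon
    push Not at hcon
    have : Module.finrank F K ≤ 1 :=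
      finrank_le_one (1 : K) (fun w => Submodule.mem_span_singleton.mp (hcon w))
    omega
  have h1 : (1 : K) ≠ 0 := by
    intro h
    apply hj
    have : j = 0 := by rw [← mul_one j, h, mul_zero]
    rw [this]; exact Submodule.zero_mem _
  have hli : LinearIndependent F ![j, (1 : K)] := by
    rw [LinearIndependent.pair_iff]
    intro s r hsr
    by_cases hs : s = 0
    · subst hs
      rw [zero_smul, zero_add] at hsr
      exact ⟨rfl, (smul_eq_zero.mp hsr).resolve_right h1⟩
    · exfalso
      apply hj
      rw [Submodule.mem_span_singleton]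
      refine ⟨-(s⁻¹ * r), ?_⟩
      have : j = s⁻¹ • (s • j) := by rw [smul_smul, inv_mul_cancel₀ hs, one_smul]
      rw [this, eq_neg_of_add_eq_zero_left hsr, smul_neg, smul_smul, neg_smul]
  have hspan : Submodule.span F (Set.range ![j, (1 : K)]) = ⊤ :=
    hli.span_eq_top_of_card_eq_finrank' (by rw [hfr]; rfl)
  have hrep : ∀ k : K, ∃ a b : F, a • j + b • (1 : K) = k := by
    intro k
    have hk : k ∈ Submodule.span F (Set.range ![j, (1 : K)]) := by rw [hspan]; trivial
    rw [Matrix.range_cons_cons_empty] at hk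
    exact Submodule.mem_span_pair.mp hk
  have hnot : ∀ c : F, (j : Mat m F) ≠ c • (1 : Mat m F) := by
    intro c hc
    apply hj
    rw [Submodule.mem_span_singleton]
    exact ⟨c, Subtype.ext (by simpa using hc.symm)⟩
  have hrepM : ∀ k : Mat m F, k ∈ K → ∃ a b : F, k = a • (j : Mat m F) + b • (1 : Mat m F) := by
    intro k hk
    obtain ⟨a, b, hab⟩ := hrep ⟨k, hk⟩
    refine ⟨a, b, ?_⟩
    have := congrArg (Subtype.val) hab
    simpa using this.symm
  have hone : (1 : Mat m F) ≠ 0 := by
    intro h
    apply h1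
    exact Subtype.ext h
  have hind : ∀ a b : F, a • (j : Mat m F) + b • (1 : Mat m F) = 0 → a = 0 ∧ b = 0 := by
    intro a b h
    by_cases ha : a = 0
    · subst ha
      rw [zero_smul, zero_add] at h
      exact ⟨rfl, (smul_eq_zero.mp h).resolve_right hone⟩
    · exfalso
      apply hnot (-(a⁻¹ * b))
      have e : (j : Mat m F) = a⁻¹ • (a • (j : Mat m F)) := by
        rw [smul_smul, inv_mul_cancel₀ ha, one_smul]
      rw [e, eq_neg_of_add_eq_zero_left h, smul_neg, smul_smul, neg_smul]
  -- the action of `a • j + b • 1`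
  have hact : ∀ (a b : F) (A : Mat m F) (x : V m F),
      (a • A + b • (1 : Mat m F)) *ᵥ x = a • (A *ᵥ x) + b • x := by
    intro a b A x
    rw [Matrix.add_mulVec, Matrix.smul_mulVec, Matrix.smul_mulVec, Matrix.one_mulVec]
  -- adjoints are unique
  have huniq : ∀ A B : Mat m F,
      (∀ u v : V m F, sympForm m F u (A *ᵥ v) = sympForm m F u (B *ᵥ v)) → A = B := by
    intro A B h
    apply Cfsg.Agent.H17.matrix_ext_mulVec
    intro v
    have h1 : A *ᵥ v - B *ᵥ v = 0 := by
      apply Cfsg.Agent.H17.sympForm_nd m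
      intro c
      have e : A *ᵥ v - B *ᵥ v = A *ᵥ v + (-1 : F) • (B *ᵥ v) := by
        rw [neg_one_smul, sub_eq_add_neg]
      rw [e, sympForm_add_right, sympForm_smul_right, h c v]
      ring
    exact sub_eq_zero.mp h1
  -- the adjoint of `j`
  obtain ⟨j', hj'K, hj'⟩ := hadj j j.2
  obtain ⟨a, b, hab⟩ := hrepM j' hj'K
  have hj'' : ∀ u v : V m F, sympForm m F (j' *ᵥ u) v = sympForm m F u ((j : Mat m F) *ᵥ v) := by
    intro u v
    rw [sympForm_skew, ← hj', sympForm_skew, neg_neg]
  have hjeq : (j : Mat m F) = a • j' + b • (1 : Mat m F) := by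
    apply huniq
    intro u v
    rw [← hj'', hact]
    conv_lhs => rw [hab, hact]
    rw [sympForm_add_left, sympForm_smul_left, sympForm_smul_left, sympForm_add_right,
      sympForm_smul_right, sympForm_smul_right, hj']
  have hrel : (a * a - 1) • (j : Mat m F) + (a * b + b) • (1 : Mat m F) = 0 := by
    have e : (a * a - 1) • (j : Mat m F) + (a * b + b) • (1 : Mat m F) =
        a • (a • (j : Mat m F) + b • (1 : Mat m F)) + b • (1 : Mat m F) - (j : Mat m F) := by
      module
    rw [e, ← hab, ← hjeq, sub_self]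
  obtain ⟨haa, hb⟩ := hind _ _ hrel
  have ha : a = -1 := by
    have h3 : (a - 1) * (a + 1) = 0 := by linear_combination haa
    rcases mul_eq_zero.mp h3 with h4 | h4
    · exfalso
      have ha1 : a = 1 := by linear_combination h4
      subst ha1
      have hb0 : b = 0 := by
        have h5 : (2 : F) * b = 0 := by linear_combination hb
        exact (mul_eq_zero.mp h5).resolve_left h2
      subst hb0
      have hjj : j' = (j : Mat m F) := by rw [hab, one_smul, zero_smul, add_zero]
      apply hnsa
      intro k hk u v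
      obtain ⟨c, d, rfl⟩ := hrepM k hk
      rw [hact, hact, sympForm_add_left, sympForm_smul_left, sympForm_smul_left,
        sympForm_add_right, sympForm_smul_right, sympForm_smul_right, hj', hjj]
    · linear_combination h4
  subst ha
  -- the skew element
  have hJK : (j : Mat m F) - (b / 2) • (1 : Mat m F) ∈ K :=
    K.sub_mem j.2 (K.smul_mem K.one_mem _)
  have hJact : ∀ x : V m F, ((j : Mat m F) - (b / 2) • (1 : Mat m F)) *ᵥ x =
      (j : Mat m F) *ᵥ x + (-(b / 2)) • x := by
    intro x
    rw [Matrix.sub_mulVec, Matrix.smul_mulVec, Matrix.one_mulVec, neg_smul, sub_eq_add_neg]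
  have hskew : ∀ x y : V m F,
      sympForm m F (((j : Mat m F) - (b / 2) • (1 : Mat m F)) *ᵥ x) y =
        - sympForm m F x (((j : Mat m F) - (b / 2) • (1 : Mat m F)) *ᵥ y) := by
    intro x y
    rw [hJact, hJact, sympForm_add_left, sympForm_smul_left, sympForm_add_right,
      sympForm_smul_right, hj', hab, hact, sympForm_add_right, sympForm_smul_right,
      sympForm_smul_right]
    field_simp
    ring
  obtain ⟨c, d, hcd⟩ := hrepM _ (K.mul_mem hJK hJK)
  -- `J * J` is self-adjoint, hence a scalar
  have hc : c = 0 := by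
    have hsa : ((j : Mat m F) - (b / 2) • (1 : Mat m F)) * ((j : Mat m F) - (b / 2) • (1 : Mat m F))
        = c • j' + d • (1 : Mat m F) := by
      apply huniq
      intro u v
      rw [hact, sympForm_add_right, sympForm_smul_right, sympForm_smul_right, ← hj',
        ← Matrix.mulVec_mulVec, ← neg_neg (sympForm m F u _), ← hskew, ← hskew,
        Matrix.mulVec_mulVec, hcd, hact, sympForm_add_left, sympForm_smul_left,
        sympForm_smul_left]
    have hrel2 : (2 * c) • (j : Mat m F) + (-(c * b)) • (1 : Mat m F) = 0 := by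
      have e : (2 * c) • (j : Mat m F) + (-(c * b)) • (1 : Mat m F) =
          (c • (j : Mat m F) + d • (1 : Mat m F)) -
            (c • ((-1 : F) • (j : Mat m F) + b • (1 : Mat m F)) + d • (1 : Mat m F)) := by
        module
      rw [e, ← hab, ← hsa, ← hcd, sub_self]
    have h5 := (hind _ _ hrel2).1
    exact (mul_eq_zero.mp h5).resolve_left h2
  subst hc
  rw [zero_smul, zero_add] at hcd
  have hJne : ∀ s : F, (j : Mat m F) - (b / 2) • (1 : Mat m F) + s • (1 : Mat m F) ≠ 0 := by
    intro s h
    apply hnot (b / 2 - s)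
    have e : (j : Mat m F) = ((j : Mat m F) - (b / 2) • (1 : Mat m F) + s • (1 : Mat m F)) +
        (b / 2 - s) • (1 : Mat m F) := by module
    rw [e, h, zero_add]
  refine ⟨(j : Mat m F) - (b / 2) • (1 : Mat m F), -d, ⟨h2, ?_, hskew, ?_⟩, ?_⟩
  · intro x
    rw [Matrix.mulVec_mulVec, hcd, Matrix.smul_mulVec, Matrix.one_mulVec, neg_smul, neg_neg]
  · intro s hs
    have hd : d = s * s := by linear_combination -hs
    have hprod : ((j : Mat m F) - (b / 2) • (1 : Mat m F) + (-s) • (1 : Mat m F)) *
        ((j : Mat m F) - (b / 2) • (1 : Mat m F) + s • (1 : Mat m F)) = 0 := by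
      have e : ((j : Mat m F) - (b / 2) • (1 : Mat m F) + (-s) • (1 : Mat m F)) *
          ((j : Mat m F) - (b / 2) • (1 : Mat m F) + s • (1 : Mat m F)) =
          ((j : Mat m F) - (b / 2) • (1 : Mat m F)) * ((j : Mat m F) - (b / 2) • (1 : Mat m F))
            - (s * s) • (1 : Mat m F) := by
        simp only [add_mul, mul_add, mul_smul_comm, smul_mul_assoc, mul_one, one_mul]
        module
      rw [e, hcd, hd, sub_self]
    obtain ⟨y, hyK, hxy⟩ := hK.inv _ (K.add_mem hJK (K.smul_mem K.one_mem (-s))) (hJne (-s))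
    have hcomm := hK.comm _ (K.add_mem hJK (K.smul_mem K.one_mem (-s))) y hyK
    apply hJne s
    calc (j : Mat m F) - (b / 2) • (1 : Mat m F) + s • (1 : Mat m F)
        = (((j : Mat m F) - (b / 2) • (1 : Mat m F) + (-s) • (1 : Mat m F)) * y) *
            ((j : Mat m F) - (b / 2) • (1 : Mat m F) + s • (1 : Mat m F)) := by
          rw [hxy, one_mul]
      _ = y * (((j : Mat m F) - (b / 2) • (1 : Mat m F) + (-s) • (1 : Mat m F)) *
            ((j : Mat m F) - (b / 2) • (1 : Mat m F) + s • (1 : Mat m F))) := by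
          rw [hcomm, mul_assoc]
      _ = 0 := by rw [hprod, mul_zero]
  · intro k
    constructor
    · intro hk
      obtain ⟨a', b', rfl⟩ := hrepM k hk
      refine ⟨b' + a' * (b / 2), a', ?_⟩
      module
    · rintro ⟨a', b', rfl⟩
      exact K.add_mem (K.smul_mem K.one_mem a') (K.smul_mem hJK b')

example : Cfsg.Agent.H86.Gs.StExt.{u} := gsExt

end Cfsg.Agent.H11.Gs

#print axioms Cfsg.Agent.H11.Gs.gsExt
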