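import Mathlib
import Cfsg.Agent.H66.HHFDefs
import Cfsg.Agent.H3.Critical

/-!
# S3786, piece CRITQ: a critical pair inside an arbitrary `q`-subgroup
-/

set_option autoImplicit false

namespace Cfsg.Agent.H11.HHF

open Cfsg Cfsg.Agent.H66.HHF
open scoped commutatorElement

universe u

theorem critQ_holds : CritQStatement.{u} := by
  intro H _ _ q _ Q hQp
  have hqp : q.Prime := Fact.out
  obtain ⟨H0, K0, hH0c, hK0c, hK0H0, hK0cent, hcentK0, hpow, hcomm⟩ :=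
    Cfsg.Agent.H3.critical_subgroup_exists hQp
  -- a normalizing element also normalizes backwards (finiteness)
  have hconj : ∀ g : H, (∀ x ∈ Q, g * x * g⁻¹ ∈ Q) → ∀ x ∈ Q, g⁻¹ * x * g ∈ Q := by
    intro g hg x hx
    have hinj : Function.Injective (fun x : Q => (⟨g * x * g⁻¹, hg x x.2⟩ : Q)) := by
      intro a b hab
      have h1 : g * (a : H) * g⁻¹ = g * (b : H) * g⁻¹ := congrArg (fun z : Q => (z : H)) hab
      apply Subtype.ext
      exact mul_left_cancel (mul_right_cancel h1)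
    have hsurj := Finite.injective_iff_surjective.mp hinj
    obtain ⟨y, hy⟩ := hsurj ⟨x, hx⟩
    have h1 : g * (y : H) * g⁻¹ = x := congrArg (fun z : Q => (z : H)) hy
    have h2 : g⁻¹ * x * g = y := by rw [← h1]; group
    rw [h2]; exact y.2
  have hinv : ∀ g : H, (∀ x ∈ Q, g * x * g⁻¹ ∈ Q) → ∀ (L : Subgroup Q), L.Characteristic →
      ∀ x ∈ L.map Q.subtype, g * x * g⁻¹ ∈ L.map Q.subtype := by
    intro g hg L hL
    let ψ : ↥Q ≃* ↥Q :=
      { toFun := fun x => ⟨g * x * g⁻¹, hg x x.2⟩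
        invFun := fun x => ⟨g⁻¹ * x * g, hconj g hg x x.2⟩
        left_inv := fun x => Subtype.ext (by simp only []; group)
        right_inv := fun x => Subtype.ext (by simp only []; group)
        map_mul' := fun x y => Subtype.ext (by simp only [Subgroup.coe_mul]; group) }
    rintro _ ⟨c, hc, rfl⟩
    have h1 : ψ c ∈ L := Subgroup.characteristic_iff_map_le.mp hL ψ ⟨c, hc, rfl⟩
    exact ⟨ψ c, h1, rfl⟩
  -- elements of `Q` centralizing `C` lie in `Z`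
  have hcentZ : ∀ k ∈ Q, (∀ c ∈ H0.map Q.subtype, k * c = c * k) →
      k ∈ K0.map Q.subtype := by
    intro k hk hkc
    refine ⟨⟨k, hk⟩, hcentK0 ?_, rfl⟩
    rw [Subgroup.mem_centralizer_iff]
    intro c hc
    apply Subtype.ext
    have := hkc c ⟨c, hc, rfl⟩
    simpa using this.symm
  -- elements of `Q` normalize `Q`
  have hQself : ∀ x ∈ Q, ∀ w ∈ Q, x * w * x⁻¹ ∈ Q := fun x hx w hw =>
    mul_mem (mul_mem hx hw) (inv_mem hx)
  refine ⟨H0.map Q.subtype, K0.map Q.subtype, Subgroup.map_subtype_le _,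
    Subgroup.map_mono hK0H0, ?_, ?_, ?_, ?_⟩
  · intro g hg
    exact ⟨hinv g hg H0 hH0c, hinv g hg K0 hK0c⟩
  · rintro _ ⟨x, hx, rfl⟩ _ ⟨z, hz, rfl⟩
    have h := Subgroup.mem_centralizer_iff.mp (hK0cent hz) x hx
    have h' := congrArg (Subtype.val : ↥Q → H) h
    simpa using h'
  · rintro _ ⟨x, hx, rfl⟩ _ ⟨y, hy, rfl⟩
    refine ⟨⁅x, y⁆, hcomm x hx y, ?_⟩
    simp [commutatorElement_def]
  · intro y hyQ hy hyC x hx
    -- `k = y x y⁻¹ x⁻¹` centralizes `C`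
    have hkQ : y * x * y⁻¹ * x⁻¹ ∈ Q := mul_mem (hyQ x hx) (inv_mem hx)
    have hkZ : y * x * y⁻¹ * x⁻¹ ∈ K0.map Q.subtype := by
      apply hcentZ _ hkQ
      intro c hc
      have h1 : x⁻¹ * c * x⁻¹⁻¹ ∈ H0.map Q.subtype :=
        hinv x⁻¹ (hQself x⁻¹ (inv_mem hx)) H0 hH0c c hc
      have h2 := hyC _ h1
      have h3 := hyC c hc
      have h4 : y * (x⁻¹ * c * x⁻¹⁻¹) * y⁻¹ = x⁻¹ * c * x⁻¹⁻¹ := by
        rw [h2]; group
      have h5 : y * c * y⁻¹ = c := by rw [h3]; group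
      calc y * x * y⁻¹ * x⁻¹ * c = y * x * (y⁻¹ * (x⁻¹ * c * x⁻¹⁻¹) * y) * y⁻¹ * x⁻¹ := by group
        _ = y * x * (x⁻¹ * c * x⁻¹⁻¹) * y⁻¹ * x⁻¹ := by
          have h6 : y⁻¹ * (x⁻¹ * c * x⁻¹⁻¹) * y = x⁻¹ * c * x⁻¹⁻¹ := by
            rw [mul_assoc, ← h2, inv_mul_cancel_left]
          rw [h6]
        _ = (y * c * y⁻¹) * (y * x * y⁻¹ * x⁻¹) := by group
        _ = c * (y * x * y⁻¹ * x⁻¹) := by rw [h5]
    have hkC : y * x * y⁻¹ * x⁻¹ ∈ H0.map Q.subtype :=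
      Subgroup.map_mono hK0H0 hkZ
    have hyk : y * (y * x * y⁻¹ * x⁻¹) = (y * x * y⁻¹ * x⁻¹) * y := hyC _ hkC
    -- `y ^ m x y ^ (-m) = k ^ m x`
    have hpowk : ∀ m : ℕ, y ^ m * x * (y ^ m)⁻¹ = (y * x * y⁻¹ * x⁻¹) ^ m * x := by
      intro m
      induction m with
      | zero => simp
      | succ m ih =>
        have hc : Commute y ((y * x * y⁻¹ * x⁻¹) ^ m) := Commute.pow_right hyk m
        calc y ^ (m + 1) * x * (y ^ (m + 1))⁻¹ = y * (y ^ m * x * (y ^ m)⁻¹) * y⁻¹ := by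
              rw [pow_succ']; group
          _ = y * ((y * x * y⁻¹ * x⁻¹) ^ m * x) * y⁻¹ := by rw [ih]
          _ = (y * (y * x * y⁻¹ * x⁻¹) ^ m) * x * y⁻¹ := by group
          _ = ((y * x * y⁻¹ * x⁻¹) ^ m * y) * x * y⁻¹ := by rw [hc.eq]
          _ = (y * x * y⁻¹ * x⁻¹) ^ m * (y * x * y⁻¹ * x⁻¹) * x := by group
          _ = (y * x * y⁻¹ * x⁻¹) ^ (m + 1) * x := by rw [pow_succ]
    have h1 := hpowk (orderOf y)
    rw [pow_orderOf_eq_one, one_mul, inv_one, mul_one] at h1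
    have h2 : (y * x * y⁻¹ * x⁻¹) ^ orderOf y = 1 := by
      have : (y * x * y⁻¹ * x⁻¹) ^ orderOf y * x = 1 * x := by rw [← h1, one_mul]
      exact mul_right_cancel this
    -- `k` is a `q`-element
    obtain ⟨j, hj⟩ := hQp ⟨_, hkQ⟩
    have hj' : (y * x * y⁻¹ * x⁻¹) ^ q ^ j = 1 := by
      have := congrArg (Subtype.val : ↥Q → H) hj
      simpa using this
    have hd1 : orderOf (y * x * y⁻¹ * x⁻¹) ∣ orderOf y := orderOf_dvd_of_pow_eq_one h2
    have hd2 : orderOf (y * x * y⁻¹ * x⁻¹) ∣ q ^ j := orderOf_dvd_of_pow_eq_one hj'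
    have hcop : (orderOf y).Coprime (q ^ j) := Nat.Coprime.pow_right j hy
    have hone : orderOf (y * x * y⁻¹ * x⁻¹) = 1 :=
      Nat.eq_one_of_dvd_coprimes hcop hd1 hd2
    have hk1 : y * x * y⁻¹ * x⁻¹ = 1 := orderOf_eq_one_iff.mp hone
    calc y * x = (y * x * y⁻¹ * x⁻¹) * (x * y) := by group
      _ = x * y := by rw [hk1, one_mul]

example : CritQStatement.{u} := critQ_holds

end Cfsg.Agent.H11.HHF

#print axioms Cfsg.Agent.H11.HHF.critQ_holds
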