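import Mathlib
import Cfsg.Agent.H66.HHFDefs
import Cfsg.Agent.H80.SylowNorm

/-!
# S3786, piece FAITH: a `D`-invariant `q`-subgroup of `Kb` not centralized by `z`
-/

set_option autoImplicit false

namespace Cfsg.Agent.H11.HHF

open Cfsg Cfsg.Agent.H66.HHF

universe u

theorem faith_holds : FaithStatement.{u} := by
  intro H _ _ p _ Kb D hKn hKc hD z hz
  have hp : p.Prime := Fact.out
  haveI := hKn
  obtain ⟨k, hk, hzk⟩ := hz
  have hex : ∃ (q : ℕ) (_ : Fact q.Prime) (S : Sylow q Kb),
      D ≤ Subgroup.normalizer (((S : Subgroup Kb).map Kb.subtype : Subgroup H) : Set H) ∧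
      ∃ a ∈ (S : Subgroup Kb).map Kb.subtype, z * a ≠ a * z := by
    by_contra hcon
    push Not at hcon
    have hCN : Kb ⊓ Subgroup.centralizer ({z} : Set H) = Kb := by
      apply Subgroup.eq_of_le_of_card_ge inf_le_left
      apply Nat.le_of_dvd Nat.card_pos
      rw [← Nat.factorization_prime_le_iff_dvd (Nat.card_pos.ne') (Nat.card_pos.ne')]
      intro q hq
      haveI : Fact q.Prime := ⟨hq⟩
      obtain ⟨S, hS⟩ := Cfsg.Agent.H80.exists_sylow_normalized q p Kb hKc D hD
      have h1 : (S : Subgroup Kb).map Kb.subtype ≤ Kb ⊓ Subgroup.centralizer ({z} : Set H) := by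
        intro a ha
        refine Subgroup.mem_inf.mpr ⟨Subgroup.map_subtype_le _ ha, ?_⟩
        rw [Subgroup.mem_centralizer_iff]
        intro w hw
        rw [Set.mem_singleton_iff] at hw
        rw [hw]
        exact hcon q ‹_› S hS a ha
      have h2 := Subgroup.card_dvd_of_le h1
      rw [Subgroup.card_map_of_injective Kb.subtype_injective, Sylow.card_eq_multiplicity] at h2
      exact (Nat.Prime.pow_dvd_iff_le_factorization hq (Nat.card_pos.ne')).mp h2
    have h3 : k ∈ Kb ⊓ Subgroup.centralizer ({z} : Set H) := by rw [hCN]; exact hk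
    exact hzk (Subgroup.mem_centralizer_iff.mp h3.2 z rfl)
  obtain ⟨q, hqF, S, hSx, a, haS, hya⟩ := hex
  have hq : q.Prime := hqF.out
  obtain ⟨Q, hQ⟩ : ∃ Q : Subgroup H, Q = (S : Subgroup Kb).map Kb.subtype := ⟨_, rfl⟩
  rw [← hQ] at hSx haS
  have hQN : Q ≤ Kb := by rw [hQ]; exact Subgroup.map_subtype_le _
  have hQq : IsPGroup q Q := by rw [hQ]; exact S.isPGroup'.map Kb.subtype
  have hQc : (Nat.card Q).Coprime p :=
    Nat.Coprime.coprime_dvd_left (Subgroup.card_dvd_of_le hQN) hKc
  have hqp : q ≠ p := by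
    intro hqp
    obtain ⟨j, hj⟩ := IsPGroup.iff_card.mp hQq
    rw [hj, hqp] at hQc
    have hj0 : j = 0 := by
      by_contra hj0
      have h1 : p.Coprime p := (Nat.coprime_pow_left_iff (Nat.pos_of_ne_zero hj0) p p).mp hQc
      exact hp.one_lt.ne' ((Nat.coprime_self p).mp h1)
    rw [hj0, pow_zero] at hj
    have hQbot : Q = ⊥ := Subgroup.card_eq_one.mp hj
    rw [hQbot, Subgroup.mem_bot] at haS
    rw [haS] at hya
    simp at hya
  refine ⟨q, hqF, Q, hqp, hQq, hQN, ?_, a, haS, hya⟩
  intro d hd x hx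
  exact (Subgroup.mem_normalizer_iff.mp (hSx hd) x).mp hx

example : FaithStatement.{u} := faith_holds

end Cfsg.Agent.H11.HHF

#print axioms Cfsg.Agent.H11.HHF.faith_holds
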