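import Mathlib
import Cfsg.Agent.H94.JxPFacts
import Cfsg.Agent.H97.JyPFacts
import Cfsg.Agent.H31.X.CharP2

/-! JX-PSIDE (kill sub-project of S2953): the P-side input of helper52's KB glue, from
helper94's G-level facts and helper97's abstract `pfacts`.  With `D = O₂(K ⊔ T)`: `|T : D| = 2`
elementwise, `T ∖ D` inverts `K` modulo `D`, and `K` has an element of order 3 outside `M`. -/

set_option autoImplicit false
open Cfsg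

namespace Cfsg.Agent.H11.Jx

open Cfsg.Agent.H64.Jz

universe u

theorem pside_explicit {G : Type u} [Group G] [Finite G] (S : Sylow 2 G) (M T K L : Subgroup G)
    (hB : Base S M T K L) :
    (∀ a ∈ T, ∀ b ∈ T, a ∉ pCoreOf 2 (K ⊔ T) → b ∉ pCoreOf 2 (K ⊔ T) →
      a * b ∈ pCoreOf 2 (K ⊔ T)) ∧
    (∀ x ∈ T, x ∉ pCoreOf 2 (K ⊔ T) → ∀ g ∈ K, x * g * x⁻¹ * g ∈ pCoreOf 2 (K ⊔ T)) ∧
    ∃ k ∈ K, k ^ 3 = 1 ∧ k ∉ M := by
  obtain ⟨hQT, -, hPQ, -, hidx2, -, -⟩ := Cfsg.Agent.H94.Jx.pfacts S M T K L hB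
  obtain ⟨⟨hc2, hsolv, hZ⟩, hO, hM, hMJ, hT, hTS, hK, hLmax, hKL⟩ := hB
  obtain ⟨L₀, hL₀max, hKL₀, huniq, hsub₀, hSyl₀⟩ :=
    Cfsg.Agent.S2950.result hc2 hsolv hZ hO S M hM hMJ T hT K hK
  have hLL₀ : L = L₀ := huniq L hLmax hKL
  subst hLL₀
  have hT2 : IsPGroup 2 ↥T := hT.1.1
  have hTM : T ≤ M := hT.1.2.2.1
  have hKleL : K ≤ L := le_sup_left.trans hKL
  obtain ⟨hgen, hKJ, hO3, -, -, -⟩ := hK.1.1
  have hKn : (K.subgroupOf (K ⊔ T)).Normal :=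
    Cfsg.Agent.S2952.result hc2 hsolv hZ hO S M hM hMJ T hT K hK
  have hPK : K ⊔ T ≤ Subgroup.normalizer (K : Set G) :=
    (Subgroup.normal_subgroupOf_iff_le_normalizer le_sup_left).mp hKn
  have hTK : T ≤ Subgroup.normalizer (K : Set G) := le_sup_right.trans hPK
  have hQLT : pCoreOf 2 L ≤ T := Cfsg.Agent.Helper55.J48.pCoreOf_le_of_sylowIn hSyl₀
  have hOK : pCoreOf 2 K ≤ K := Cfsg.Agent.H31.X.H54.pCoreOf_le K
  have hOT : pCoreOf 2 K ≤ T := (Cfsg.Agent.H54.Uq.o2sn K L hKleL hsub₀).trans hQLT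
  have hOnK : K ≤ Subgroup.normalizer (pCoreOf 2 K : Set G) :=
    Cfsg.Agent.H31.X.H54.le_normalizer_pCoreOf K
  have hOnT : T ≤ Subgroup.normalizer (pCoreOf 2 K : Set G) :=
    hTK.trans (Cfsg.Agent.H31.X.H54.normalizer_le_normalizer_pCoreOf K)
  obtain ⟨D, k, hDT, hOD, hKD, hTD, -, hinv, -, -, hkK, hkO, hk3, hKO, -⟩ :=
    Cfsg.Agent.H97.Jy.pfacts K T (pCoreOf 2 K) hT2 hTK hOK hOT hO3 hOnK hOnT hgen
  have hDQ : D ≤ pCoreOf 2 (K ⊔ T) :=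
    Cfsg.Agent.H31.X.H54.le_pCoreOf (hDT.trans le_sup_right) (sup_le hKD hTD) (hT2.to_le hDT)
  refine ⟨?_, ?_, k, hkK, hk3, ?_⟩
  · intro a ha b hb haQ hbQ
    have h2 : ((pCoreOf 2 (K ⊔ T)).subgroupOf T).index = 2 := hidx2
    have := (Subgroup.mul_mem_iff_of_index_two h2 (a := (⟨a, ha⟩ : ↥T))
      (b := (⟨b, hb⟩ : ↥T))).mpr
      ⟨fun h => absurd (Subgroup.mem_subgroupOf.mp h) haQ,
       fun h => absurd (Subgroup.mem_subgroupOf.mp h) hbQ⟩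
    exact Subgroup.mem_subgroupOf.mp this
  · intro x hx hxQ g hg
    exact hDQ (hOD (hinv x hx (fun h => hxQ (hDQ h)) g hg))
  · intro hkM
    apply hK.2.1
    intro g hg
    obtain ⟨o, ho, i, rfl⟩ := hKO g hg
    exact M.mul_mem (hTM (hOT ho)) (M.pow_mem hkM i)

/-- helper52's `StPSide` (post 11203), stated inline. -/
theorem pside : ∀ {G : Type u} [Group G] [Finite G] (S : Sylow 2 G) (M T K L : Subgroup G),
    Cfsg.Agent.H64.Jz.Base S M T K L →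
    (∀ a ∈ T, ∀ b ∈ T, a ∉ pCoreOf 2 (K ⊔ T) → b ∉ pCoreOf 2 (K ⊔ T) →
      a * b ∈ pCoreOf 2 (K ⊔ T)) ∧
    (∀ x ∈ T, x ∉ pCoreOf 2 (K ⊔ T) → ∀ g ∈ K, x * g * x⁻¹ * g ∈ pCoreOf 2 (K ⊔ T)) ∧
    ∃ k ∈ K, k ^ 3 = 1 ∧ k ∉ M :=
  fun S M T K L hB => pside_explicit S M T K L hB

end Cfsg.Agent.H11.Jx

#print axioms Cfsg.Agent.H11.Jx.pside
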