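import Mathlib
import Cfsg.Agent.H64.JzDefs
import Cfsg.Agent.H64.JyDefs
import Cfsg.Agent.S2948
import Cfsg.Agent.S2950
import Cfsg.Agent.S2951
import Cfsg.Agent.S2952
import Cfsg.Agent.H59.PushKill2
import Cfsg.Agent.H52.SrAsm
import Cfsg.Agent.H40.SrDEC
import Cfsg.Agent.H32.SrVNG
import Cfsg.Agent.H31.X.CharP2
import Cfsg.Agent.Helper55.J48
import Cfsg.Agent.H54.UqO2SN
import Cfsg.Agent.H63.SnIfV

/-! JY-GOOD (piece Y1 of helper64's project for S2953): the per-`P` clause for `P = K ⊔ T`. -/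

set_option autoImplicit false
open Cfsg
open scoped commutatorElement

namespace Cfsg.Agent.H11.Jy

open Cfsg.Agent.H64.Jz

universe u

theorem mem_oc {G : Type u} [Group G] (X : Subgroup G) {x : G} :
    x ∈ omegaCenterOf X ↔ x ∈ X ∧ x ∈ Subgroup.centralizer (X : Set G) ∧ x ^ 2 = 1 := by
  constructor
  · exact fun h => Cfsg.Agent.H63.Sn.mem_omegaCenterOf X h
  · rintro ⟨h1, h2, h3⟩
    unfold omegaCenterOf omegaOne
    exact Subgroup.subset_closure ⟨⟨h1, h2⟩, h3⟩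

/-- JY-GOOD: from `Base S M T K L`, the per-`P` clause of S2953 for `P = K ⊔ T`, with `L` as
the unique maximal 2-local over `P`. -/
theorem good_explicit {G : Type u} [Group G] [Finite G] (S : Sylow 2 G) (M T K L : Subgroup G)
    (hB : Base S M T K L) :
    Subgroup.centralizer (pCoreOf 2 (K ⊔ T) : Set G) ≤ pCoreOf 2 (K ⊔ T) ∧
    IsSylowTwoIn T (K ⊔ T) ∧ (pCoreOf 2 (K ⊔ T)).relIndex (K ⊔ T) = 6 ∧
    ¬ ⁅K ⊔ T, K ⊔ T⁆ ≤ pCoreOf 2 (K ⊔ T) ∧ ⁅omegaCenterOf T, K ⊔ T⁆ ≠ ⊥ ∧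
    IsMaximalTwoLocal L ∧ K ⊔ T ≤ L ∧ IsSylowTwoIn T L ∧
    ∀ L' : Subgroup G, IsMaximalTwoLocal L' → K ⊔ T ≤ L' → L' = L := by
  have : Fact (Nat.Prime 2) := ⟨Nat.prime_two⟩
  obtain ⟨⟨hc2, hsolv, hZ⟩, hO, hM, hMJ, hT, hTS, hK, hLmax, hKL⟩ := hB
  obtain ⟨L₀, hL₀max, hKL₀, huniq, hsub₀, hSyl₀⟩ :=
    Cfsg.Agent.S2950.result hc2 hsolv hZ hO S M hM hMJ T hT K hK
  have hLL₀ : L = L₀ := huniq L hLmax hKL
  subst hLL₀
  have hT2 : IsPGroup 2 ↥T := hT.1.1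
  have hT1 : T ≠ ⊥ := hT.1.2.1
  have hJT : thompsonSubgroupOf 2 T ≤ T := Subgroup.map_subtype_le _
  have hKleL : K ≤ L := le_sup_left.trans hKL
  have hTL : T ≤ L := hSyl₀.1
  have hPL : K ⊔ T ≤ L := sup_le hKleL hTL
  have hKc : IsJComponent T K := hK.1.1
  obtain ⟨hgen, hKJ, hO3, -, -, -⟩ := hKc
  have hKn : (K.subgroupOf (K ⊔ T)).Normal :=
    Cfsg.Agent.S2952.result hc2 hsolv hZ hO S M hM hMJ T hT K hK
  have hPK : K ⊔ T ≤ Subgroup.normalizer (K : Set G) :=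
    (Subgroup.normal_subgroupOf_iff_le_normalizer le_sup_left).mp hKn
  have hTK : T ≤ Subgroup.normalizer (K : Set G) := le_sup_right.trans hPK
  have hQLT : pCoreOf 2 L ≤ T := Cfsg.Agent.Helper55.J48.pCoreOf_le_of_sylowIn hSyl₀
  have hOK : pCoreOf 2 K ≤ K := Cfsg.Agent.H31.X.H54.pCoreOf_le K
  have hOT : pCoreOf 2 K ≤ T := (Cfsg.Agent.H54.Uq.o2sn K L hKleL hsub₀).trans hQLT
  have hTP : T ≤ K ⊔ T := le_sup_right
  -- `K` is not inside a 2-group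
  have hKnot : ∀ X : Subgroup G, IsPGroup 2 ↥X → ¬ K ≤ X := by
    intro X hX hle
    have hK2 : IsPGroup 2 ↥K := hX.to_le hle
    obtain ⟨n, hn⟩ := IsPGroup.iff_card.mp hK2
    have h3 : 3 ∣ Nat.card ↥K := by
      have h := Subgroup.relIndex_mul_relIndex (⊥ : Subgroup G) (pCoreOf 2 K) K bot_le hOK
      rw [Subgroup.relIndex_bot_left, Subgroup.relIndex_bot_left, hO3] at h
      exact Dvd.intro_left _ h
    rw [hn] at h3
    have h32 := Nat.Prime.dvd_of_dvd_pow Nat.prime_three h3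
    omega
  -- `K` does not normalize `T`
  have hnotN : ¬ (∀ k ∈ K, ∀ t ∈ T, k * t * k⁻¹ ∈ T) := by
    intro h
    apply hKnot T hT2
    have h1 : ⁅K, thompsonSubgroupOf 2 T⁆ ≤ T := by
      rw [Subgroup.commutator_le]
      intro k hk j hj
      rw [commutatorElement_def]
      exact mul_mem (h k hk j (hJT hj)) (inv_mem (hJT hj))
    rw [hKJ] at h1
    exact h1
  obtain ⟨Q, hQT, hPQ, hQ2, hdich⟩ :=
    Cfsg.Agent.H59.PushKill.pstruct K T (pCoreOf 2 K) hT2 hTK hOK hOT hO3 hgen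
  have hQP : Q ≤ K ⊔ T := hQT.trans hTP
  have hQeq : pCoreOf 2 (K ⊔ T) = Q := by
    apply le_antisymm
    · rcases hdich (pCoreOf 2 (K ⊔ T)) (Cfsg.Agent.H31.X.H54.pCoreOf_le _)
        (fun x hx => Cfsg.Agent.H59.PushKill.cj_eq_of_mem_normalizer
          (Cfsg.Agent.H31.X.H54.le_normalizer_pCoreOf (K ⊔ T) hx)) with h | h
      · exact h
      · exact absurd h (hKnot _ (Cfsg.Agent.H31.X.H54.isPGroup_pCoreOf _))
    · exact Cfsg.Agent.H31.X.H54.le_pCoreOf hQP hPQ (hT2.to_le hQT)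
  have h3 : T.relIndex (K ⊔ T) = 3 := by
    have hKP : K ≤ K ⊔ T := le_sup_left
    haveI : (K.subgroupOf (K ⊔ T)).Normal := hKn
    have hsup : K.subgroupOf (K ⊔ T) ⊔ T.subgroupOf (K ⊔ T) = ⊤ := by
      rw [← Subgroup.subgroupOf_sup hKP hTP, Subgroup.subgroupOf_self]
    have hT0 : IsPGroup 2 ↥(T.subgroupOf (K ⊔ T)) := hT2.comap_subtype
    exact Cfsg.Agent.H59.PushKill.index_eq_three (K.subgroupOf (K ⊔ T)) (T.subgroupOf (K ⊔ T))
      ((pCoreOf 2 K).subgroupOf (K ⊔ T)) hsup hT0 (fun x hx => hOK hx) (fun x hx => hOT hx)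
      (by rw [Subgroup.relIndex_subgroupOf hKP]; exact hO3)
  have hQT2 : Q.relIndex T = 2 := by
    have hne0 : Q.relIndex T ≠ 0 := by
      show (Q.subgroupOf T).index ≠ 0
      exact Subgroup.index_ne_zero_of_finite
    have hne1 : Q.relIndex T ≠ 1 := by
      intro h1
      have hTQ : T ≤ Q := Subgroup.relIndex_eq_one.mp h1
      apply hnotN
      intro k hk t ht
      have hkN : k ∈ Subgroup.normalizer (Q : Set G) := hPQ (Subgroup.mem_sup_left hk)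
      exact hQT ((Subgroup.mem_normalizer_iff.mp hkN t).mp (hTQ ht))
    omega
  have hc : (pCoreOf 2 (K ⊔ T)).relIndex (K ⊔ T) = 6 := by
    rw [hQeq, ← Subgroup.relIndex_mul_relIndex Q T (K ⊔ T) hQT hTP, hQT2, h3]
  have hd : ¬ ⁅K ⊔ T, K ⊔ T⁆ ≤ pCoreOf 2 (K ⊔ T) := by
    rw [hQeq]
    intro hcomm
    apply hnotN
    intro k hk t ht
    have h1 : ⁅k, t⁆ ∈ Q :=
      hcomm (Subgroup.commutator_mem_commutator (Subgroup.mem_sup_left hk) (hTP ht))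
    have e : k * t * k⁻¹ = ⁅k, t⁆ * t := by
      rw [commutatorElement_def]
      group
    rw [e]
    exact mul_mem (hQT h1) ht
  have ha : Subgroup.centralizer (pCoreOf 2 (K ⊔ T) : Set G) ≤ pCoreOf 2 (K ⊔ T) := by
    have h1 : pCoreOf 2 L ≤ pCoreOf 2 (K ⊔ T) :=
      Cfsg.Agent.H31.X.H54.le_pCoreOf (hQLT.trans hTP)
        (hPL.trans (Cfsg.Agent.H31.X.H54.le_normalizer_pCoreOf L))
        (Cfsg.Agent.H31.X.H54.isPGroup_pCoreOf L)
    exact ((Subgroup.centralizer_le (SetLike.coe_subset_coe.mpr h1)).trans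
      (Cfsg.Agent.Helper55.J48.centralizer_pCoreOf_le hc2 hLmax.1)).trans h1
  have hb : IsSylowTwoIn T (K ⊔ T) := by
    refine ⟨hTP, hT2, ?_⟩
    rw [h3]
    exact ⟨1, rfl⟩
  have he : ⁅omegaCenterOf T, K ⊔ T⁆ ≠ ⊥ := by
    obtain ⟨hne, hcl⟩ := Cfsg.Agent.S2951.result hc2 hsolv hZ hO S M hM hMJ T hT hTS K hK L hLmax
      hKL (omegaCenterOf (S : Subgroup G)) (omegaCenterOf (thompsonSubgroupOf 2 T)) rfl rfl
    obtain ⟨w, hw, hw1⟩ : ∃ w ∈ omegaCenterOf (thompsonSubgroupOf 2 T) ⊓ wOf K, w ≠ 1 := by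
      by_contra hcon
      push Not at hcon
      exact hne ((Subgroup.eq_bot_iff_forall _).mpr hcon)
    obtain ⟨hwZ, hwW⟩ := Subgroup.mem_inf.mp hw
    have hwT : w ∈ omegaCenterOf T := by
      have hwJ := (mem_oc _).mp hwZ
      have key : w ∈ omegaCenterOf (S : Subgroup G) → w ∈ omegaCenterOf T := by
        intro hwS
        have hwS' := (mem_oc _).mp hwS
        rw [mem_oc]
        exact ⟨hJT hwJ.1, Subgroup.centralizer_le (SetLike.coe_subset_coe.mpr hTS) hwS'.2.1,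
          hwS'.2.2⟩
      rcases hcl with h | h | h
      · exact key (by rw [h.1]; exact hwZ)
      · exact key (by rw [h.1]; exact hwZ)
      · rw [h.1]
        exact hwZ
    have hL2 : IsTwoLocal L := hLmax.1
    have hLM : ¬ L ≤ M := fun h => hK.2.1 (hKleL.trans h)
    have h48 := Cfsg.Agent.S2948.result hc2 hsolv hZ hO S M hM hMJ T hT L hL2 hLM T hSyl₀ hJT
    have hLT : L ∈ jOvergroups T := h48.2.2.1
    obtain ⟨-, -, hVQ, hQL, -⟩ := Cfsg.Agent.H32.Sr.vng L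
    have hfp := (Cfsg.Agent.H52.Sr.comp1 Cfsg.Agent.H40.Sr.dec hc2 hsolv hZ T hT2 hT1 L hLT
      (hVQ.trans hQL) K hK.1.1 hKleL).2.2.2
    have hwC : w ∉ Subgroup.centralizer (K : Set G) := by
      intro hcen
      have hmem : w ∈ wOf K ⊓ Subgroup.centralizer (K : Set G) :=
        Subgroup.mem_inf.mpr ⟨hwW, hcen⟩
      rw [hfp] at hmem
      exact hw1 (Subgroup.mem_bot.mp hmem)
    rw [Subgroup.mem_centralizer_iff] at hwC
    push Not at hwC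
    obtain ⟨k, hk, hkw⟩ := hwC
    intro hbot
    have hmem : ⁅w, k⁆ ∈ ⁅omegaCenterOf T, K ⊔ T⁆ :=
      Subgroup.commutator_mem_commutator hwT (Subgroup.mem_sup_left hk)
    rw [hbot, Subgroup.mem_bot, commutatorElement_eq_one_iff_mul_comm] at hmem
    exact hkw hmem.symm
  exact ⟨ha, hb, hc, hd, he, hLmax, hPL, hSyl₀,
    fun L' h1 h2 => huniq L' h1 ((sup_le_sup_left hJT K).trans h2)⟩

/-- JY-GOOD (all of it): `Good T (K ⊔ T)`. -/
theorem good : Cfsg.Agent.H64.Jy.StGood.{u} := by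
  intro G _ _ S M T K L hB
  obtain ⟨ha, hb, hc, hd, he, hLmax, hPL, hSyl, huniq⟩ := good_explicit S M T K L hB
  exact ⟨ha, hb, hc, hd, he, L, hLmax, hPL, hSyl, huniq⟩

/-- JY-GOODA. -/
theorem goodA : Cfsg.Agent.H64.Jy.StGoodA.{u} := by
  intro G _ _ S M T K L hB
  obtain ⟨ha, hb, -, -, -, hLmax, hPL, hSyl, huniq⟩ := good_explicit S M T K L hB
  exact ⟨ha, hb, L, hLmax, hPL, hSyl, huniq⟩

/-- JY-GOODB. -/
theorem goodB : Cfsg.Agent.H64.Jy.StGoodB.{u} := by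
  intro G _ _ S M T K L hB
  obtain ⟨-, -, hc, hd, -⟩ := good_explicit S M T K L hB
  exact ⟨hc, hd⟩

/-- JY-GOODC. -/
theorem goodC : Cfsg.Agent.H64.Jy.StGoodC.{u} := by
  intro G _ _ S M T K L hB
  exact (good_explicit S M T K L hB).2.2.2.2.1

example : Cfsg.Agent.H64.Jy.StGood.{u} := good.{u}
example : Cfsg.Agent.H64.Jy.StGoodA.{u} := goodA.{u}
example : Cfsg.Agent.H64.Jy.StGoodB.{u} := goodB.{u}
example : Cfsg.Agent.H64.Jy.StGoodC.{u} := goodC.{u}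

end Cfsg.Agent.H11.Jy

#print axioms Cfsg.Agent.H11.Jy.good
#print axioms Cfsg.Agent.H11.Jy.goodA
#print axioms Cfsg.Agent.H11.Jy.goodB
#print axioms Cfsg.Agent.H11.Jy.goodC
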