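import Mathlib
import Cfsg.Agent.H64.JzDefs
import Cfsg.Agent.H64.JyDefs
import Cfsg.Agent.S2950
import Cfsg.Agent.H66.JyNotin
import Cfsg.Agent.Helper55.UqBase
import Cfsg.Agent.H11.JyGood

/-! (X1) STAR and (X2) PF of helper52's JY-KILL2 plan (S2953), in explicit form. -/

set_option autoImplicit false
open Cfsg

namespace Cfsg.Agent.H11.Jx

open Cfsg.Agent.H64.Jz

universe u

/-- STAR (explicit form): for `T ≠ S`, no nontrivial subgroup `F ≤ T` is normalized by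
`K ⊔ T` and by `N_S(T)`. -/
theorem star_explicit {G : Type u} [Group G] [Finite G] (S : Sylow 2 G) (M T K L : Subgroup G)
    (hB : Base S M T K L) (hne : T ≠ (S : Subgroup G)) (F : Subgroup G) (hF1 : F ≠ ⊥)
    (hFT : F ≤ T) (hPF : K ⊔ T ≤ Subgroup.normalizer (F : Set G))
    (hx : ∀ x ∈ (S : Subgroup G), x ∈ Subgroup.normalizer (T : Set G) →
      x ∈ Subgroup.normalizer (F : Set G)) : False := by
  obtain ⟨x, hxS, hxN, hxL⟩ := Cfsg.Agent.H66.Jy.notin_of_base S M T K L hB hne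
  have hB' := hB
  obtain ⟨⟨hc2, hsolv, hZ⟩, hO, hM, hMJ, hT, hTS, hK, hLmax, hKL⟩ := hB'
  have hT2 : IsPGroup 2 ↥T := hT.1.1
  have h2loc : IsTwoLocal (Subgroup.normalizer (F : Set G)) := ⟨F, hT2.to_le hFT, hF1, rfl⟩
  obtain ⟨L', hL', hle⟩ := Cfsg.Agent.Helper55.Uq.exists_maximalTwoLocal h2loc
  have hJT : thompsonSubgroupOf 2 T ≤ T := Subgroup.map_subtype_le _
  obtain ⟨L₀, -, -, huniq, -, -⟩ := Cfsg.Agent.S2950.result hc2 hsolv hZ hO S M hM hMJ T hT K hK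
  have e : L' = L := by
    rw [huniq L' hL' ((sup_le_sup_left hJT K).trans (hPF.trans hle)), huniq L hLmax hKL]
  apply hxL
  rw [← e]
  exact hle (hx x hxS hxN)

/-- PF (explicit form). -/
theorem pf_explicit {G : Type u} [Group G] [Finite G] (S : Sylow 2 G) (M T K L : Subgroup G)
    (hB : Base S M T K L) :
    pCoreOf 2 (K ⊔ T) ≤ T ∧ pCoreOf 2 (K ⊔ T) ≠ ⊥ ∧
    K ⊔ T ≤ Subgroup.normalizer (pCoreOf 2 (K ⊔ T) : Set G) := by
  obtain ⟨ha, hb, -⟩ := Cfsg.Agent.H11.Jy.good_explicit S M T K L hB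
  refine ⟨Cfsg.Agent.Helper55.J48.pCoreOf_le_of_sylowIn hb, ?_,
    Cfsg.Agent.H31.X.H54.le_normalizer_pCoreOf (K ⊔ T)⟩
  intro hbot
  have hT1 : T ≠ ⊥ := hB.2.2.2.2.1.1.2.1
  apply hT1
  rw [eq_bot_iff]
  intro t ht
  have hmem : t ∈ Subgroup.centralizer ((pCoreOf 2 (K ⊔ T) : Subgroup G) : Set G) := by
    rw [hbot, Subgroup.mem_centralizer_iff]
    intro h hh
    rw [Subgroup.coe_bot, Set.mem_singleton_iff] at hh
    rw [hh, one_mul, mul_one]
  have h2 := ha hmem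
  rw [hbot] at h2
  exact h2

end Cfsg.Agent.H11.Jx

#print axioms Cfsg.Agent.H11.Jx.star_explicit
#print axioms Cfsg.Agent.H11.Jx.pf_explicit
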