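import Cfsg.Agent.H52.JxDefs
import Cfsg.Agent.H11.JxStar

/-! (X1) STAR and (X2) PF of helper52's JY-KILL2 plan (S2953), in the exact `H52.JxDefs` shapes. -/

set_option autoImplicit false
open Cfsg

namespace Cfsg.Agent.H11.Jx

universe u

/-- (X1) STAR. -/
theorem star : Cfsg.Agent.H52.Jx.StStar.{u} := by
  intro G _ _ S M T K L hB hne F hF1 hFT hPF hx
  exact star_explicit S M T K L hB hne F hF1 hFT hPF hx

/-- (X2) PF. -/
theorem pf : Cfsg.Agent.H52.Jx.StPF.{u} := by
  intro G _ _ S M T K L hB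
  exact pf_explicit S M T K L hB

example : Cfsg.Agent.H52.Jx.StStar.{u} := star.{u}
example : Cfsg.Agent.H52.Jx.StPF.{u} := pf.{u}

end Cfsg.Agent.H11.Jx

#print axioms Cfsg.Agent.H11.Jx.star
#print axioms Cfsg.Agent.H11.Jx.pf
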