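import Mathlib
import Cfsg.Agent.H33.C3.Defs
import Cfsg.Agent.H33.LCo3Simple
import Cfsg.Agent.H33.C3.Iso
import Cfsg.Agent.H33.C3.WXZ
import Cfsg.Agent.H33.C3.Chain
import Cfsg.Agent.H8.C3Rho
import Cfsg.Agent.H8.C3WT
import Cfsg.Agent.H24.C3PermRel

/-!
# The concrete third Conway group, packaged (piece M3-PKG of S2045, helper41)

The stabiliser `G3` of the vector `a48` with its faithful action on the 552 table vectors,
the three generators mapping to `pX`, `pZ`, `pT`, its order, simplicity and the isomorphism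
with the abstract `Cfsg.Spor.Co3`.  The proof is the first part of helper33's assembly
`Cfsg.Agent.H33.C3.out_co3`.
-/

set_option autoImplicit false

namespace Cfsg.Agent.H11.M3

open Cfsg Cfsg.Agent.H9 Cfsg.Agent.H33 Cfsg.Agent.H33.C3

theorem pkg_of (hWX : StWX) (hWZ : StWZ) (hWT : StWT) (hRho : StRho) (hIso : StIso)
    (hRel : StPermRel) (hChain : StChain) :
    ∃ (ρ : ↥Cfsg.Agent.H33.C3.G3 →* Equiv.Perm (Fin 552)) (x z t : ↥Cfsg.Agent.H33.C3.G3),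
      Function.Injective ρ ∧ ρ x = Cfsg.Agent.H33.C3.pX ∧ ρ z = Cfsg.Agent.H33.C3.pZ ∧
      ρ t = Cfsg.Agent.H33.C3.pT ∧
      Subgroup.closure ({x, z, t} : Set ↥Cfsg.Agent.H33.C3.G3) = ⊤ ∧
      Nat.card ↥Cfsg.Agent.H33.C3.G3 = 495766656000 ∧ IsSimpleGroup ↥Cfsg.Agent.H33.C3.G3 ∧
      Nonempty (↥Cfsg.Spor.Co3 ≃* ↥Cfsg.Agent.H33.C3.G3) := by
  obtain ⟨ρ, hρ, huniq⟩ := hRho
  obtain ⟨x0, hx0G, hx0A, hx0P⟩ := hWX
  obtain ⟨z0, hz0G, hz0A, hz0P⟩ := hWZ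
  obtain ⟨t0, ht0G, ht0P⟩ := hWT
  obtain ⟨r1, r2, r3, r4, r5, r6, r7, r8, r9, r10, -⟩ := hRel
  obtain ⟨x, hxdef⟩ : ∃ x : ↥G3, x = ⟨x0, hx0G⟩ := ⟨_, rfl⟩
  obtain ⟨z, hzdef⟩ : ∃ z : ↥G3, z = ⟨z0, hz0G⟩ := ⟨_, rfl⟩
  obtain ⟨t, htdef⟩ : ∃ t : ↥G3, t = ⟨t0, ht0G⟩ := ⟨_, rfl⟩
  have hxv : (x : ↥Co0) = x0 := by rw [hxdef]
  have hzv : (z : ↥Co0) = z0 := by rw [hzdef]
  have ex : ρ x = pX := huniq x pX (by rw [hxv]; exact hx0P)
  have ez : ρ z = pZ := huniq z pZ (by rw [hzv]; exact hz0P)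
  have et : ρ t = pT := huniq t pT (by rw [htdef]; exact ht0P)
  have hsimp : IsSimpleGroup ↥G3 := co3_std_simple
  have hcard : Nat.card ↥G3 = 495766656000 := card_stab48 a48 a48_sq
  have hker : ρ.ker = ⊥ := by
    rcases hsimp.eq_bot_or_eq_top_of_normal ρ.ker (MonoidHom.normal_ker ρ) with h | h
    · exact h
    · exfalso
      have hm : x ∈ ρ.ker := by rw [h]; trivial
      rw [MonoidHom.mem_ker, ex] at hm
      exact r2 hm
  have hinj : Function.Injective ρ := (MonoidHom.ker_eq_bot_iff ρ).mp hker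
  have hgen : Subgroup.closure ({x, z, t} : Set ↥G3) = ⊤ := by
    have himg : (ρ : ↥G3 → Equiv.Perm (Fin 552)) '' ({x, z, t} : Set ↥G3) = {pX, pZ, pT} := by
      rw [Set.image_insert_eq, Set.image_insert_eq, Set.image_singleton, ex, ez, et]
    have hmap : (Subgroup.closure ({x, z, t} : Set ↥G3)).map ρ = K3 := by
      rw [MonoidHom.map_closure, himg]
      rfl
    have hKle : K3 ≤ ρ.range := by
      rw [← hmap, MonoidHom.range_eq_map]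
      exact Subgroup.map_mono le_top
    have hrange : Nat.card ↥ρ.range = 495766656000 := by
      rw [← hcard]
      exact (Nat.card_congr (MonoidHom.ofInjective hinj).toEquiv).symm
    have hKeq : K3 = ρ.range := by
      apply Subgroup.eq_of_le_of_card_ge hKle
      rw [hrange]
      exact hChain
    have h2 : (Subgroup.closure ({x, z, t} : Set ↥G3)).map ρ = (⊤ : Subgroup ↥G3).map ρ := by
      rw [hmap, hKeq, MonoidHom.range_eq_map]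
    exact Subgroup.map_injective hinj h2
  exact ⟨ρ, x, z, t, hinj, ex, ez, et, hgen, hcard, hsimp, hIso⟩

/-- M3-PKG: the concrete third Conway group with its 552-point representation. -/
theorem pkg : ∃ (ρ : ↥Cfsg.Agent.H33.C3.G3 →* Equiv.Perm (Fin 552)) (x z t : ↥Cfsg.Agent.H33.C3.G3), Function.Injective ρ ∧ ρ x = Cfsg.Agent.H33.C3.pX ∧ ρ z = Cfsg.Agent.H33.C3.pZ ∧ ρ t = Cfsg.Agent.H33.C3.pT ∧ Subgroup.closure ({x, z, t} : Set ↥Cfsg.Agent.H33.C3.G3) = ⊤ ∧ Nat.card ↥Cfsg.Agent.H33.C3.G3 = 495766656000 ∧ IsSimpleGroup ↥Cfsg.Agent.H33.C3.G3 ∧ Nonempty (↥Cfsg.Spor.Co3 ≃* ↥Cfsg.Agent.H33.C3.G3) :=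
  pkg_of wX_ok wZ_ok Cfsg.Agent.H8.C3.wT_ok Cfsg.Agent.H8.C3.rho iso
    Cfsg.Agent.H24.C3.permRel chain

example : ∃ (ρ : ↥Cfsg.Agent.H33.C3.G3 →* Equiv.Perm (Fin 552)) (x z t : ↥Cfsg.Agent.H33.C3.G3), Function.Injective ρ ∧ ρ x = Cfsg.Agent.H33.C3.pX ∧ ρ z = Cfsg.Agent.H33.C3.pZ ∧ ρ t = Cfsg.Agent.H33.C3.pT ∧ Subgroup.closure ({x, z, t} : Set ↥Cfsg.Agent.H33.C3.G3) = ⊤ ∧ Nat.card ↥Cfsg.Agent.H33.C3.G3 = 495766656000 ∧ IsSimpleGroup ↥Cfsg.Agent.H33.C3.G3 ∧ Nonempty (↥Cfsg.Spor.Co3 ≃* ↥Cfsg.Agent.H33.C3.G3) := pkg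

#print axioms pkg

end Cfsg.Agent.H11.M3
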