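import Mathlib
import Cfsg.Prelude.Def_Blocks
import Cfsg.Agent.H82.SumSq
import Cfsg.Agent.H82.Extra
import Cfsg.Agent.H82.IndDeg
import Cfsg.Agent.H4.Irr

/-!
# S2436-O24 (helper11, for helper18): a group of order 24 with commutator quotient of order 3
has exactly four irreducible characters of odd degree.
-/

set_option autoImplicit false

universe u

namespace Cfsg.Agent.H11.McKay

/-- S2436-O24. -/
theorem card_odd_degree_24 {N : Type u} [Group N] [Finite N] (hN : Nat.card N = 24)
    (hc : (commutator N).index = 3) :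
    Nat.card {χ : Cfsg.IrrCharacter N // ¬ 2 ∣ Cfsg.charDegree (χ : N → ℂ)} = 4 := by
  classical
  let _ := Cfsg.Agent.H4.fintypeIrr N
  rw [Nat.card_eq_fintype_card, Fintype.card_subtype]
  have hsum := Cfsg.Agent.H82.sum_sq_nat N
  rw [hN] at hsum
  have hlin := Cfsg.Agent.H82.card_filter_linear (G := N)
  rw [hc] at hlin
  -- odd degrees are 1 or 3
  have hodd : ∀ χ : Cfsg.IrrCharacter N, ¬ 2 ∣ Cfsg.charDegree χ.1 →
      Cfsg.charDegree χ.1 = 1 ∨ Cfsg.charDegree χ.1 = 3 := by
    intro χ h2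
    have hd := Cfsg.Agent.H82.charDegree_dvd_card χ
    rw [hN] at hd
    have hle : Cfsg.charDegree χ.1 ≤ 24 := Nat.le_of_dvd (by norm_num) hd
    generalize Cfsg.charDegree χ.1 = d at h2 hd hle
    interval_cases d <;> omega
  set T := Finset.univ.filter (fun χ : Cfsg.IrrCharacter N => ¬ 2 ∣ Cfsg.charDegree χ.1) with hT
  set A := Finset.univ.filter (fun χ : Cfsg.IrrCharacter N => Cfsg.charDegree χ.1 = 1) with hA
  set B := Finset.univ.filter (fun χ : Cfsg.IrrCharacter N => Cfsg.charDegree χ.1 = 3) with hB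
  have hTAB : T = A ∪ B := by
    ext χ
    simp only [hT, hA, hB, Finset.mem_filter, Finset.mem_univ, true_and, Finset.mem_union]
    constructor
    · exact hodd χ
    · rintro (h | h) <;> rw [h] <;> norm_num
  have hdisj : Disjoint A B := by
    rw [Finset.disjoint_left]
    intro χ h1 h2
    simp only [hA, hB, Finset.mem_filter, Finset.mem_univ, true_and] at h1 h2
    omega
  have hsplit := Finset.sum_filter_add_sum_filter_not Finset.univ
    (fun χ : Cfsg.IrrCharacter N => ¬ 2 ∣ Cfsg.charDegree χ.1)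
    (fun χ : Cfsg.IrrCharacter N => Cfsg.charDegree χ.1 ^ 2)
  rw [hsum] at hsplit
  have hTsum : ∑ χ ∈ T, Cfsg.charDegree χ.1 ^ 2 = A.card + 9 * B.card := by
    rw [hTAB, Finset.sum_union hdisj]
    have h1 : ∑ χ ∈ A, Cfsg.charDegree χ.1 ^ 2 = A.card := by
      rw [Finset.card_eq_sum_ones]
      refine Finset.sum_congr rfl fun χ hχ => ?_
      simp only [hA, Finset.mem_filter, Finset.mem_univ, true_and] at hχ
      rw [hχ]
      norm_num
    have h2 : ∑ χ ∈ B, Cfsg.charDegree χ.1 ^ 2 = 9 * B.card := by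
      rw [Finset.card_eq_sum_ones, Finset.mul_sum]
      refine Finset.sum_congr rfl fun χ hχ => ?_
      simp only [hB, Finset.mem_filter, Finset.mem_univ, true_and] at hχ
      rw [hχ]
      norm_num
    rw [h1, h2]
  have hrest : 4 ∣ ∑ χ ∈ Finset.univ.filter
      (fun χ : Cfsg.IrrCharacter N => ¬ ¬ 2 ∣ Cfsg.charDegree χ.1), Cfsg.charDegree χ.1 ^ 2 := by
    apply Finset.dvd_sum
    intro χ hχ
    simp only [Finset.mem_filter, Finset.mem_univ, true_and, not_not] at hχ
    obtain ⟨k, hk⟩ := hχ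
    rw [hk]
    exact ⟨k ^ 2, by ring⟩
  obtain ⟨t, ht⟩ := hrest
  rw [ht, hTsum, hlin] at hsplit
  rw [hTAB, Finset.card_union_of_disjoint hdisj, hlin]
  omega

end Cfsg.Agent.H11.McKay

section check
universe v
example {N : Type v} [Group N] [Finite N] (hN : Nat.card N = 24)
    (hc : (commutator N).index = 3) :
    Nat.card {χ : Cfsg.IrrCharacter N // ¬ 2 ∣ Cfsg.charDegree (χ : N → ℂ)} = 4 :=
  Cfsg.Agent.H11.McKay.card_odd_degree_24 hN hc
end check

#print axioms Cfsg.Agent.H11.McKay.card_odd_degree_24
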