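import Mathlib
import Cfsg.Agent.H45.UDefs
import Cfsg.Agent.H11.UGen

set_option autoImplicit false
set_option linter.unusedSectionVars false

/-!
# Siegel elements from the two unipotent radicals, orthogonal case (helper11, piece O-GEN of S2413)
-/

namespace Cfsg.Agent.H11.O

open Matrix Cfsg.Agent.H45.U Cfsg.Agent.H11.U

variable {F : Type*} [Field F] {m : Type*} [Fintype m] [DecidableEq m]

theorem hid (a : F) : (RingHom.id F) ((RingHom.id F) a) = a := rfl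

theorem sp_id {ι : Type*} [Fintype ι] (p q : ι → F) : sp (RingHom.id F) p q = p ⬝ᵥ q := by
  simp [sp, dotProduct]

theorem coe_mul_mulVec {σ : F →+* F} {d : Type*} [Fintype d] [DecidableEq d]
    (g h : UH σ m d) (w : m ⊕ (m ⊕ d) → F) :
    (g * h).1.1 *ᵥ w = g.1.1 *ᵥ (h.1.1 *ᵥ w) := by
  show (g.1.1 * h.1.1) *ᵥ w = _
  rw [Matrix.mulVec_mulVec]

/-- the rank-two skew matrix `p qᵀ - q pᵀ`. -/
def skw (p q : m → F) : Matrix m m F := Matrix.of fun i j => p i * q j - q i * p j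

theorem skw_mulVec (p q y : m → F) : skw p q *ᵥ y = (q ⬝ᵥ y) • p - (p ⬝ᵥ y) • q := by
  ext i
  simp only [skw, Matrix.mulVec, dotProduct, Matrix.of_apply, Pi.sub_apply, Pi.smul_apply,
    smul_eq_mul]
  rw [Finset.sum_mul, Finset.sum_mul, ← Finset.sum_sub_distrib]
  exact Finset.sum_congr rfl (fun j _ => by ring)

theorem skw_skew (p q : m → F) : skw p q + ct (RingHom.id F) (skw p q) = 0 := by
  ext i j
  simp only [skw, Matrix.add_apply, ct_apply, Matrix.of_apply, RingHom.id_apply,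
    Matrix.zero_apply]
  ring

/-- the pair of vectors `(u, v)` is good: its Siegel elements lie in `K`. -/
def GoodO {d : Type*} [Fintype d] [DecidableEq d] (σ : F →+* F) (K : Subgroup (UH σ m d))
    (u v : m ⊕ (m ⊕ d) → F) : Prop :=
  ∀ (c : F) (g : UH σ m d),
    (∀ x, g.1.1 *ᵥ x = x + c • (hH σ u x • v - hH σ v x • u)) → g ∈ K

theorem goodO_conj {d : Type*} [Fintype d] [DecidableEq d] (σ : F →+* F)
    (K : Subgroup (UH σ m d)) (u v : m ⊕ (m ⊕ d) → F)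
    (h : UH σ m d) (hh : h ∈ K) (hgood : GoodO σ K (h.1.1 *ᵥ u) (h.1.1 *ᵥ v)) :
    GoodO σ K u v := by
  intro c g hg
  have h1 : h * g * h⁻¹ ∈ K := by
    apply hgood c
    intro x
    have e1 : ((h * g * h⁻¹ : UH σ m d).1.1) = h.1.1 * g.1.1 * (h⁻¹).1.1 := rfl
    have e2 : h.1.1 * (h⁻¹).1.1 = 1 := by
      rw [← Matrix.SpecialLinearGroup.coe_mul, ← Subgroup.coe_mul, mul_inv_cancel]
      rfl
    have e3 : ∀ w, hH σ w ((h⁻¹).1.1 *ᵥ x) = hH σ (h.1.1 *ᵥ w) x := by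
      intro w
      have := h.2 w ((h⁻¹).1.1 *ᵥ x)
      rw [Matrix.mulVec_mulVec, e2, Matrix.one_mulVec] at this
      exact this.symm
    rw [e1, ← Matrix.mulVec_mulVec, ← Matrix.mulVec_mulVec, hg, Matrix.mulVec_add,
      Matrix.mulVec_mulVec, e2, Matrix.one_mulVec, Matrix.mulVec_smul, Matrix.mulVec_sub,
      Matrix.mulVec_smul, Matrix.mulVec_smul, e3, e3]
  have h2 : g = h⁻¹ * (h * g * h⁻¹) * h := by group
  rw [h2]
  exact K.mul_mem (K.mul_mem (K.inv_mem hh) h1) hh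

/-- (F1): both vectors in the `x`-part. -/
theorem goodO_upper (K : Subgroup (UH (RingHom.id F) m (Fin 1))) (hU : Qin (RingHom.id F) K)
    (a b : m → F) : GoodO (RingHom.id F) K (tri a 0 0) (tri b 0 0) := by
  intro c g hg
  refine hU g 0 (c • skw b a) ?_ ?_
  · rw [Matrix.zero_mul, add_zero, ct_smul, RingHom.id_apply, ← smul_add, skw_skew, smul_zero]
  · apply mat_ext_mulVec
    intro x
    obtain ⟨X, Y, Z, rfl⟩ := tri_eta x
    rw [hg, eU_mulVec_tri, hH_tri_sp, hH_tri_sp, Matrix.smul_mulVec, skw_mulVec]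
    simp only [sp_id, zero_dotProduct, add_zero, Matrix.zero_mulVec, ct_zero, sub_zero]
    ext i
    rcases i with i | i | i
    · simp [tri]
    · simp [tri]
    · simp [tri]

section moves

variable (K : Subgroup (UH (RingHom.id F) m (Fin 1)))

theorem moveU (hU : Qin (RingHom.id F) K) (p q : m → F) :
    ∃ h ∈ K, ∀ (a b : m → F) (e : Fin 1 → F),
      h.1.1 *ᵥ tri a b e = tri (a + ((q ⬝ᵥ b) • p - (p ⬝ᵥ b) • q)) b e := by
  have hS : skw p q + ct (RingHom.id F) (skw p q) +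
      (0 : Matrix m (Fin 1) F) * ct (RingHom.id F) (0 : Matrix m (Fin 1) F) = 0 := by
    rw [Matrix.zero_mul, add_zero, skw_skew]
  obtain ⟨h, hh⟩ := exists_eU (RingHom.id F) hid (0 : Matrix m (Fin 1) F) (skw p q) hS
  refine ⟨h, hU h 0 (skw p q) hS hh, fun a b e => ?_⟩
  rw [hh, eU_mulVec_tri, skw_mulVec, Matrix.zero_mulVec, add_zero, ct_zero, Matrix.zero_mulVec,
    sub_zero]

theorem moveL (hL : Qlow (RingHom.id F) K) (p q : m → F) :
    ∃ h ∈ K, ∀ (a b : m → F) (e : Fin 1 → F),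
      h.1.1 *ᵥ tri a b e = tri a (b + ((q ⬝ᵥ a) • p - (p ⬝ᵥ a) • q)) e := by
  have hS : skw p q + ct (RingHom.id F) (skw p q) +
      (0 : Matrix m (Fin 1) F) * ct (RingHom.id F) (0 : Matrix m (Fin 1) F) = 0 := by
    rw [Matrix.zero_mul, add_zero, skw_skew]
  obtain ⟨h, hh⟩ := exists_eL (RingHom.id F) hid (0 : Matrix m (Fin 1) F) (skw p q) hS
  refine ⟨h, hL h 0 (skw p q) hS hh, fun a b e => ?_⟩
  rw [hh, eL_mulVec_tri, skw_mulVec, Matrix.zero_mulVec, add_zero, ct_zero, Matrix.zero_mulVec,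
    sub_zero]

/-- the column `q * ζ`. -/
def colz (q : m → F) (ζ : F) : Matrix m (Fin 1) F := Matrix.of fun i _ => q i * ζ

theorem colz_ct_mulVec (q : m → F) (ζ : F) (b : m → F) :
    ct (RingHom.id F) (colz q ζ) *ᵥ b = fun _ => ζ * (q ⬝ᵥ b) := by
  ext l
  simp only [Matrix.mulVec, dotProduct, ct_apply, colz, Matrix.of_apply, RingHom.id_apply]
  rw [Finset.mul_sum]
  exact Finset.sum_congr rfl (fun i _ => by ring)

theorem colz_unit (h2 : (2 : F) ≠ 0) (q : m → F) (ζ : F) :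
    (-(1 / 2 : F)) • (colz q ζ * ct (RingHom.id F) (colz q ζ)) +
      ct (RingHom.id F) ((-(1 / 2 : F)) • (colz q ζ * ct (RingHom.id F) (colz q ζ))) +
      colz q ζ * ct (RingHom.id F) (colz q ζ) = 0 := by
  rw [ct_smul, ct_mul, ct_ct (RingHom.id F) hid, RingHom.id_apply]
  have e : (-(1 / 2 : F)) • (colz q ζ * ct (RingHom.id F) (colz q ζ)) +
      (-(1 / 2 : F)) • (colz q ζ * ct (RingHom.id F) (colz q ζ)) +
      colz q ζ * ct (RingHom.id F) (colz q ζ) =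
      ((-(1 / 2 : F)) + (-(1 / 2 : F)) + 1) • (colz q ζ * ct (RingHom.id F) (colz q ζ)) := by
    rw [add_smul, add_smul, one_smul]
  rw [e]
  have : (-(1 / 2 : F)) + (-(1 / 2 : F)) + 1 = 0 := by field_simp; ring
  rw [this, zero_smul]

theorem killU (h2 : (2 : F) ≠ 0) (hU : Qin (RingHom.id F) K) (q : m → F) (ζ : F) :
    ∃ h ∈ K, (∀ a : m → F, h.1.1 *ᵥ tri a 0 0 = tri a 0 0) ∧
      ∀ (a b : m → F) (e : Fin 1 → F), ∃ a' : m → F,
        h.1.1 *ᵥ tri a b e = tri a' b (fun l => e l - ζ * (q ⬝ᵥ b)) := by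
  have hS := colz_unit h2 q ζ
  obtain ⟨h, hh⟩ := exists_eU (RingHom.id F) hid (colz q ζ) _ hS
  refine ⟨h, hU h _ _ hS hh, fun a => ?_, fun a b e =>
    ⟨a + ((-(1 / 2 : F)) • (colz q ζ * ct (RingHom.id F) (colz q ζ))) *ᵥ b + colz q ζ *ᵥ e, ?_⟩⟩
  · rw [hh, eU_mulVec_tri, Matrix.mulVec_zero, Matrix.mulVec_zero, Matrix.mulVec_zero, add_zero,
      add_zero, sub_zero]
  · rw [hh, eU_mulVec_tri, colz_ct_mulVec]
    rfl

theorem killL (h2 : (2 : F) ≠ 0) (hL : Qlow (RingHom.id F) K) (q : m → F) (ζ : F) :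
    ∃ h ∈ K, ∀ (a b : m → F) (e : Fin 1 → F), ∃ b' : m → F,
        h.1.1 *ᵥ tri a b e = tri a b' (fun l => e l - ζ * (q ⬝ᵥ a)) := by
  have hS := colz_unit h2 q ζ
  obtain ⟨h, hh⟩ := exists_eL (RingHom.id F) hid (colz q ζ) _ hS
  refine ⟨h, hL h _ _ hS hh, fun a b e =>
    ⟨b + ((-(1 / 2 : F)) • (colz q ζ * ct (RingHom.id F) (colz q ζ))) *ᵥ a + colz q ζ *ᵥ e, ?_⟩⟩
  rw [hh, eL_mulVec_tri, colz_ct_mulVec]
  rfl

end moves

theorem exists_dot_one {x : m → F} (hx : x ≠ 0) : ∃ q : m → F, q ⬝ᵥ x = 1 := by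
  obtain ⟨i, hi⟩ : ∃ i, x i ≠ 0 := by
    by_contra hcon
    push Not at hcon
    exact hx (funext hcon)
  exact ⟨Pi.single i (x i)⁻¹, by rw [single_dotProduct, inv_mul_cancel₀ hi]⟩

theorem exists_perp {k : ℕ} (hk : 2 ≤ k) {y : Fin k → F} (hy : y ≠ 0) :
    ∃ p : Fin k → F, p ⬝ᵥ y = 0 ∧ p ≠ 0 := by
  obtain ⟨i, hi⟩ : ∃ i, y i ≠ 0 := by
    by_contra hcon
    push Not at hcon
    exact hy (funext hcon)
  obtain ⟨j, hj⟩ : ∃ j : Fin k, j ≠ i := by
    by_contra hcon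
    push Not at hcon
    have h1 : Fintype.card (Fin k) ≤ 1 := Fintype.card_le_one_iff.2 (fun a b => by
      rw [hcon a, hcon b])
    rw [Fintype.card_fin] at h1
    omega
  refine ⟨Pi.single j (y i) - Pi.single i (y j), ?_, ?_⟩
  · rw [sub_dotProduct, single_dotProduct, single_dotProduct]
    ring
  · intro h
    have h1 := congrFun h j
    simp only [Pi.sub_apply, Pi.single_eq_same, Pi.single_eq_of_ne hj, sub_zero,
      Pi.zero_apply] at h1
    exact hi h1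

theorem exists_perp_pair {k : ℕ} (hk : 3 ≤ k) {a y : Fin k → F} (ha : a ≠ 0) (hy : y ≠ 0)
    (hay : a ⬝ᵥ y = 0) :
    ∃ p q' : Fin k → F, p ⬝ᵥ y = 0 ∧ q' ⬝ᵥ p = 1 ∧ q' ⬝ᵥ a = 0 := by
  obtain ⟨i₀, hi₀⟩ : ∃ i, y i ≠ 0 := by
    by_contra hcon
    push Not at hcon
    exact hy (funext hcon)
  obtain ⟨l, hl, hla⟩ : ∃ l, l ≠ i₀ ∧ a l ≠ 0 := by
    by_contra hcon
    push Not at hcon
    have h1 : a ⬝ᵥ y = a i₀ * y i₀ := by
      unfold dotProduct
      rw [Finset.sum_eq_single i₀]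
      · intro b _ hb
        rw [hcon b hb, zero_mul]
      · intro h
        exact absurd (Finset.mem_univ _) h
    rw [h1] at hay
    have h2 : a i₀ = 0 := by
      rcases mul_eq_zero.1 hay with h | h
      · exact h
      · exact absurd h hi₀
    apply ha
    funext b
    by_cases hb : b = i₀
    · rw [hb, h2]
      rfl
    · exact hcon b hb
  obtain ⟨j, hj0, hjl⟩ : ∃ j : Fin k, j ≠ i₀ ∧ j ≠ l := by
    by_contra hcon
    push Not at hcon
    have h1 : (Finset.univ : Finset (Fin k)) ⊆ {i₀, l} := by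
      intro b _
      by_cases hb : b = i₀
      · simp [hb]
      · simp [hcon b hb]
    have h2 := Finset.card_le_card h1
    rw [Finset.card_univ, Fintype.card_fin] at h2
    have h3 := Finset.card_le_two (a := i₀) (b := l)
    omega
  have hμ : a l * y i₀ ≠ 0 := mul_ne_zero hla hi₀
  refine ⟨Pi.single j (y i₀) - Pi.single i₀ (y j),
    (a l * y i₀)⁻¹ • (Pi.single j (a l) - Pi.single l (a j)), ?_, ?_, ?_⟩
  · rw [sub_dotProduct, single_dotProduct, single_dotProduct]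
    ring
  · rw [smul_dotProduct, sub_dotProduct, single_dotProduct, single_dotProduct]
    simp only [Pi.sub_apply, Pi.single_eq_same, Pi.single_eq_of_ne hj0, Pi.single_eq_of_ne hjl.symm,
      Pi.single_eq_of_ne hl, sub_zero, smul_eq_mul, mul_zero]
    field_simp
  · rw [smul_dotProduct, sub_dotProduct, single_dotProduct, single_dotProduct]
    simp only [smul_eq_mul]
    ring

theorem tri_zero {d : Type*} : tri (0 : m → F) 0 (0 : d → F) = 0 := by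
  ext i
  rcases i with i | i | i <;> rfl

theorem fin1_zero_of_sq (z : Fin 1 → F) (h : z ⬝ᵥ z = 0) : z = 0 := by
  funext l
  have hl : l = 0 := Subsingleton.elim _ _
  subst hl
  simp only [dotProduct, Finset.univ_unique, Fin.default_eq_zero, Finset.sum_singleton] at h
  simpa using h

theorem dot_zero_of_two (h2 : (2 : F) ≠ 0) (x y : m → F) (h : x ⬝ᵥ y + y ⬝ᵥ x = 0) :
    x ⬝ᵥ y = 0 := by
  rw [dotProduct_comm y x] at h
  have h3 : (2 : F) * (x ⬝ᵥ y) = 0 := by linear_combination h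
  rcases mul_eq_zero.1 h3 with h4 | h4
  · exact absurd h4 h2
  · exact h4

section steps

variable (K : Subgroup (UH (RingHom.id F) m (Fin 1)))

/-- Step A, case `x ≠ 0`. -/
theorem stepA_x (h2 : (2 : F) ≠ 0) (hL : Qlow (RingHom.id F) K) (x y : m → F) (z : Fin 1 → F)
    (hx : x ≠ 0) (hu : hH (RingHom.id F) (tri x y z) (tri x y z) = 0) :
    ∃ h ∈ K, h.1.1 *ᵥ tri x y z = tri x 0 0 := by
  obtain ⟨q, hq⟩ := exists_dot_one hx
  obtain ⟨h₁, h₁K, h₁a⟩ := killL K h2 hL q (z 0)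
  obtain ⟨y₁, hy₁⟩ := h₁a x y z
  have hz : (fun l => z l - z 0 * (q ⬝ᵥ x)) = (0 : Fin 1 → F) := by
    funext l
    have hl : l = 0 := Subsingleton.elim _ _
    subst hl
    rw [hq]
    simp
  rw [hz] at hy₁
  have hs : hH (RingHom.id F) (tri x y₁ 0) (tri x y₁ (0 : Fin 1 → F)) = 0 := by
    rw [← hy₁, h₁.2]
    exact hu
  rw [hH_tri_sp, sp_id, sp_id, sp_id, dotProduct_zero, add_zero] at hs
  have hxy : x ⬝ᵥ y₁ = 0 := dot_zero_of_two h2 x y₁ hs
  obtain ⟨h₂, h₂K, h₂a⟩ := moveL K hL q y₁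
  refine ⟨h₂ * h₁, K.mul_mem h₂K h₁K, ?_⟩
  rw [coe_mul_mulVec, hy₁, h₂a, dotProduct_comm y₁ x, hxy, hq]
  simp

/-- Step A. -/
theorem stepA {k : ℕ} (hk : 2 ≤ k) (K : Subgroup (UH (RingHom.id F) (Fin k) (Fin 1)))
    (h2 : (2 : F) ≠ 0) (hU : Qin (RingHom.id F) K) (hL : Qlow (RingHom.id F) K)
    (u : Fin k ⊕ (Fin k ⊕ Fin 1) → F) (hu : hH (RingHom.id F) u u = 0) (hu0 : u ≠ 0) :
    ∃ h ∈ K, ∃ a : Fin k → F, a ≠ 0 ∧ h.1.1 *ᵥ u = tri a 0 0 := by
  obtain ⟨x, y, z, rfl⟩ := tri_eta u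
  by_cases hx : x = 0
  · subst hx
    have hu' := hu
    rw [hH_tri_sp, sp_id, sp_id, sp_id, zero_dotProduct, dotProduct_zero, zero_add,
      zero_add] at hu'
    have hz : z = 0 := fin1_zero_of_sq z hu'
    subst hz
    have hy : y ≠ 0 := by
      rintro rfl
      exact hu0 tri_zero
    obtain ⟨q, hq⟩ := exists_dot_one hy
    obtain ⟨p, hp, hp0⟩ := exists_perp hk hy
    obtain ⟨h₁, h₁K, h₁a⟩ := moveU K hU p q
    have e1 : h₁.1.1 *ᵥ tri 0 y 0 = tri p y 0 := by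
      rw [h₁a, hq, hp]
      simp
    have hs : hH (RingHom.id F) (tri p y 0) (tri p y (0 : Fin 1 → F)) = 0 := by
      rw [← e1, h₁.2]
      exact hu
    obtain ⟨h₂, h₂K, h₂a⟩ := stepA_x K h2 hL p y 0 hp0 hs
    refine ⟨h₂ * h₁, K.mul_mem h₂K h₁K, p, hp0, ?_⟩
    rw [coe_mul_mulVec, e1, h₂a]
  · obtain ⟨h, hK, ha⟩ := stepA_x K h2 hL x y z hx hu
    exact ⟨h, hK, x, hx, ha⟩

/-- Step B. -/
theorem stepB {k : ℕ} (hk : 3 ≤ k) (K : Subgroup (UH (RingHom.id F) (Fin k) (Fin 1)))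
    (h2 : (2 : F) ≠ 0) (hU : Qin (RingHom.id F) K) (hL : Qlow (RingHom.id F) K)
    (a : Fin k → F) (ha : a ≠ 0) (v : Fin k ⊕ (Fin k ⊕ Fin 1) → F)
    (hv : hH (RingHom.id F) v v = 0) (hav : hH (RingHom.id F) (tri a 0 0) v = 0) :
    ∃ h ∈ K, h.1.1 *ᵥ tri a 0 0 = tri a 0 0 ∧ ∃ b : Fin k → F, h.1.1 *ᵥ v = tri b 0 0 := by
  obtain ⟨x, y, z, rfl⟩ := tri_eta v
  rw [hH_tri_sp, sp_id, sp_id, sp_id, zero_dotProduct, zero_dotProduct, add_zero, add_zero] at hav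
  by_cases hy : y = 0
  · subst hy
    have hv' := hv
    rw [hH_tri_sp, sp_id, sp_id, sp_id, zero_dotProduct, dotProduct_zero, zero_add,
      zero_add] at hv'
    have hz : z = 0 := fin1_zero_of_sq z hv'
    subst hz
    refine ⟨1, K.one_mem, ?_, x, ?_⟩
    · show (1 : Matrix _ _ F) *ᵥ _ = _
      rw [Matrix.one_mulVec]
    · show (1 : Matrix _ _ F) *ᵥ _ = _
      rw [Matrix.one_mulVec]
  · obtain ⟨q, hq⟩ := exists_dot_one hy
    -- kill z
    obtain ⟨h₁, h₁K, h₁fix, h₁a⟩ := killU K h2 hU q (z 0)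
    obtain ⟨x₁, hx₁⟩ := h₁a x y z
    have hz : (fun l => z l - z 0 * (q ⬝ᵥ y)) = (0 : Fin 1 → F) := by
      funext l
      have hl : l = 0 := Subsingleton.elim _ _
      subst hl
      rw [hq]
      simp
    rw [hz] at hx₁
    have hs : hH (RingHom.id F) (tri x₁ y 0) (tri x₁ y (0 : Fin 1 → F)) = 0 := by
      rw [← hx₁, h₁.2]
      exact hv
    rw [hH_tri_sp, sp_id, sp_id, sp_id, dotProduct_zero, add_zero] at hs
    have hxy : x₁ ⬝ᵥ y = 0 := dot_zero_of_two h2 x₁ y hs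
    -- kill x₁
    obtain ⟨h₂, h₂K, h₂a⟩ := moveU K hU q x₁
    have e2 : h₂.1.1 *ᵥ tri x₁ y 0 = tri 0 y 0 := by
      rw [h₂a, hxy, hq]
      simp
    have f2 : h₂.1.1 *ᵥ tri a 0 0 = tri a 0 0 := by
      rw [h₂a]
      simp
    -- move to (p, y, 0)
    obtain ⟨p, q', hp, hq'p, hq'a⟩ := exists_perp_pair hk ha hy hav
    obtain ⟨h₃, h₃K, h₃a⟩ := moveU K hU p q
    have e3 : h₃.1.1 *ᵥ tri 0 y 0 = tri p y 0 := by
      rw [h₃a, hq, hp]
      simp
    have f3 : h₃.1.1 *ᵥ tri a 0 0 = tri a 0 0 := by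
      rw [h₃a]
      simp
    -- kill y
    obtain ⟨h₄, h₄K, h₄a⟩ := moveL K hL q' y
    have e4 : h₄.1.1 *ᵥ tri p y 0 = tri p 0 0 := by
      rw [h₄a, dotProduct_comm y p, hp, hq'p]
      simp
    have f4 : h₄.1.1 *ᵥ tri a 0 0 = tri a 0 0 := by
      rw [h₄a, dotProduct_comm y a, hav, hq'a]
      simp
    refine ⟨h₄ * (h₃ * (h₂ * h₁)), K.mul_mem h₄K (K.mul_mem h₃K (K.mul_mem h₂K h₁K)), ?_, p, ?_⟩
    · rw [coe_mul_mulVec, coe_mul_mulVec, coe_mul_mulVec, h₁fix, f2, f3, f4]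
    · rw [coe_mul_mulVec, coe_mul_mulVec, coe_mul_mulVec, hx₁, e2, e3, e4]

end steps

/-- piece O-GEN of S2413. -/
theorem o_gen {F : Type*} [Field F] (h2 : (2 : F) ≠ 0) (k : ℕ) (hk : 3 ≤ k)
    (K : Subgroup ↥(UH (RingHom.id F) (Fin k) (Fin 1)))
    (hU : Qin (RingHom.id F) K) (hL : Qlow (RingHom.id F) K)
    (u v : Fin k ⊕ (Fin k ⊕ Fin 1) → F)
    (hu : hH (RingHom.id F) u u = 0) (hv : hH (RingHom.id F) v v = 0)
    (huv : hH (RingHom.id F) u v = 0) (c : F)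
    (g : ↥(UH (RingHom.id F) (Fin k) (Fin 1)))
    (hg : ∀ x, g.1.1 *ᵥ x = x + c • (hH (RingHom.id F) u x • v - hH (RingHom.id F) v x • u)) :
    g ∈ K := by
  by_cases hu0 : u = 0
  · have h1 : g = 1 := by
      apply Subtype.ext
      apply Subtype.ext
      apply mat_ext_mulVec
      intro x
      rw [hg, hu0]
      have : hH (RingHom.id F) (0 : Fin k ⊕ (Fin k ⊕ Fin 1) → F) x = 0 := by simp [hH]
      rw [this]
      simp
    rw [h1]
    exact K.one_mem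
  · obtain ⟨h₁, h₁K, a, ha, h₁u⟩ := stepA (by omega) K h2 hU hL u hu hu0
    have hv₁ : hH (RingHom.id F) (h₁.1.1 *ᵥ v) (h₁.1.1 *ᵥ v) = 0 := by rw [h₁.2]; exact hv
    have huv₁ : hH (RingHom.id F) (tri a 0 0) (h₁.1.1 *ᵥ v) = 0 := by
      rw [← h₁u, h₁.2]
      exact huv
    obtain ⟨h₂, h₂K, h₂u, b, h₂v⟩ := stepB hk K h2 hU hL a ha _ hv₁ huv₁
    have hgood : GoodO (RingHom.id F) K u v := by
      apply goodO_conj (RingHom.id F) K u v (h₂ * h₁) (K.mul_mem h₂K h₁K)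
      rw [coe_mul_mulVec, coe_mul_mulVec, h₁u, h₂u, h₂v]
      exact goodO_upper K hU a b
    exact hgood c g hg

end Cfsg.Agent.H11.O
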