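import Mathlib

set_option autoImplicit false

namespace Cfsg.Agent.H11

/-- A nontrivial automorphism `φ` of a finite group `Q`: for the least prime `q` dividing its order
there is a proper divisor `f` of `|Q|` (the number of fixed points of a power of `φ` of order `q`)
with `q ∣ |Q| - f`. -/
theorem exists_prime_dvd_card_sub_of_mulAut {Q : Type*} [Group Q] [Finite Q] (φ : MulAut Q)
    (hφ : φ ≠ 1) :
    ∃ q f : ℕ, q.Prime ∧ q ∣ orderOf φ ∧ f ∣ Nat.card Q ∧ f < Nat.card Q ∧ q ∣ Nat.card Q - f := by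
  have hfin : Finite (MulAut Q) := Finite.of_injective (fun f : MulAut Q => (f : Q → Q))
    (fun f g h => DFunLike.coe_injective h)
  have hord1 : orderOf φ ≠ 1 := fun h => hφ (orderOf_eq_one_iff.mp h)
  have hord0 : orderOf φ ≠ 0 := (orderOf_pos φ).ne'
  set q := (orderOf φ).minFac with hq
  have hqp : q.Prime := Nat.minFac_prime hord1
  have hqd : q ∣ orderOf φ := Nat.minFac_dvd _
  have : Fact q.Prime := ⟨hqp⟩
  set τ : MulAut Q := φ ^ (orderOf φ / q) with hτ
  have hτo : orderOf τ = q := orderOf_pow_orderOf_div hord0 hqd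
  have hτ1 : τ ≠ 1 := by
    intro h
    rw [h, orderOf_one] at hτo
    exact hqp.one_lt.ne hτo
  let Γ : Subgroup (MulAut Q) := Subgroup.zpowers τ
  have hΓ : IsPGroup q Γ := by
    apply IsPGroup.of_card (n := 1)
    rw [Nat.card_zpowers, hτo, pow_one]
  let F : Subgroup Q :=
    { carrier := {x | τ x = x}
      one_mem' := map_one τ
      mul_mem' := by
        intro a b ha hb
        simp only [Set.mem_ofPred_eq] at ha hb ⊢
        rw [map_mul, ha, hb]
      inv_mem' := by
        intro a ha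
        simp only [Set.mem_ofPred_eq] at ha ⊢
        rw [map_inv, ha] }
  have hfix : (MulAction.fixedPoints Γ Q : Set Q) = (F : Set Q) := by
    ext x
    rw [MulAction.mem_fixedPoints]
    constructor
    · intro h
      exact h ⟨τ, Subgroup.mem_zpowers τ⟩
    · intro h γ
      have h1 : τ ∈ MulAction.stabilizer (MulAut Q) x := by
        rw [MulAction.mem_stabilizer_iff]
        exact h
      have h2 : (γ : MulAut Q) ∈ MulAction.stabilizer (MulAut Q) x :=
        (Subgroup.zpowers_le.mpr h1) γ.2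
      exact MulAction.mem_stabilizer_iff.mp h2
  have hcong := hΓ.card_modEq_card_fixedPoints Q
  have hcardF : Nat.card (MulAction.fixedPoints Γ Q) = Nat.card F := by
    rw [hfix]; rfl
  rw [hcardF] at hcong
  have hFd : Nat.card F ∣ Nat.card Q := Subgroup.card_subgroup_dvd_card F
  have hFne : Nat.card F ≠ Nat.card Q := by
    intro h
    have htop : F = ⊤ := Subgroup.eq_top_of_card_eq F h
    apply hτ1
    ext x
    have : x ∈ F := htop ▸ Subgroup.mem_top x
    exact this
  have hFle : Nat.card F ≤ Nat.card Q := Nat.le_of_dvd Nat.card_pos hFd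
  refine ⟨q, Nat.card F, hqp, hqd, hFd, lt_of_le_of_ne hFle hFne, ?_⟩
  exact (Nat.modEq_iff_dvd' hFle).mp hcong.symm

/-- An element of odd order normalizing but not centralizing a subgroup `Q`: some odd prime `q`
dividing its order divides `|Q| - f` for a proper divisor `f` of `|Q|`. -/
theorem exists_odd_prime_of_normalizer_not_centralizer {G : Type*} [Group G] [Finite G]
    (Q : Subgroup G) (g : G) (hg : g ∈ Subgroup.normalizer (Q : Set G))
    (hgc : g ∉ Subgroup.centralizer (Q : Set G)) (hodd : Odd (orderOf g)) :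
    ∃ q f : ℕ, q.Prime ∧ q ≠ 2 ∧ q ∣ orderOf g ∧ f ∣ Nat.card Q ∧ f < Nat.card Q ∧
      q ∣ Nat.card Q - f := by
  let φ : MulAut Q := Q.normalizerMonoidHom ⟨g, hg⟩
  have hφ : φ ≠ 1 := by
    intro h
    have hker : (⟨g, hg⟩ : Subgroup.normalizer (Q : Set G)) ∈ Q.normalizerMonoidHom.ker :=
      MonoidHom.mem_ker.mpr h
    rw [Subgroup.normalizerMonoidHom_ker, Subgroup.mem_subgroupOf] at hker
    exact hgc hker
  obtain ⟨q, f, hqp, hqd, hfd, hflt, hqf⟩ := exists_prime_dvd_card_sub_of_mulAut φ hφ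
  have hdvd : orderOf φ ∣ orderOf g := by
    have h1 := orderOf_map_dvd Q.normalizerMonoidHom (⟨g, hg⟩ : Subgroup.normalizer (Q : Set G))
    rwa [Subgroup.orderOf_mk] at h1
  have hqg : q ∣ orderOf g := hqd.trans hdvd
  refine ⟨q, f, hqp, ?_, hqg, hfd, hflt, hqf⟩
  rintro rfl
  exact (Nat.not_even_iff_odd.mpr hodd) (even_iff_two_dvd.mpr hqg)

end Cfsg.Agent.H11
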