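import Mathlib
import Cfsg.Agent.H95.OhDefs

/-!
# S5992-FWD (helper95's project): the shape of an invariant nondegenerate subspace
-/

set_option autoImplicit false

namespace Cfsg.Agent.H11.Oh

open Cfsg.Agent.H45 Cfsg.Agent.H42.Spd Cfsg.Agent.H42.Ti Cfsg.Agent.H14.Ot Cfsg.Agent.H95.Oh Module

universe u v

theorem cc_eq_of_even (F : Type u) [Fintype F] (r : ℕ) (h : Even (ii F r)) :
    cc F r = ii F r := by
  unfold cc ii at *
  rw [if_pos h]

theorem cc_eq_of_not_even (F : Type u) [Fintype F] (r : ℕ) (h : ¬ Even (ii F r)) :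
    cc F r = 2 * ii F r := by
  unfold cc ii at *
  rw [if_neg h]

theorem fwd (hR : StRestrict.{u,v}) (hS : StOSplit.{u,v}) (hM : StOModc.{u,v})
    (hTO : StTypeOdd.{u,v}) (hTE : StTypeEven.{u,v}) : StFwd.{u,v} := by
  intro F _ _ V _ _ _ r B T hC W hW hWnd
  obtain ⟨V', iA, iM, iFD, B', T', ι, hC', hιinj, hιrange, hιT, hB'⟩ :=
    hR F V r B T hC W hW hWnd
  obtain ⟨s, hs⟩ := hM F V' r B' T' hC'
  obtain ⟨hKR, hKRtop, hsplit⟩ := hS F V r T hC.cast_ne hC.pow
  have hfinV' : finrank F V' = finrank F W := by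
    rw [← hιrange]; exact (LinearMap.finrank_range_of_inj hιinj).symm
  have hker : (LinearMap.ker (T' - 1)).map ι = W ⊓ LinearMap.ker (T - 1) := by
    ext y
    simp only [Submodule.mem_map, LinearMap.mem_ker, Submodule.mem_inf, LinearMap.sub_apply,
      Module.End.one_apply]
    constructor
    · rintro ⟨x, hx, rfl⟩
      refine ⟨by rw [← hιrange]; exact LinearMap.mem_range_self ι x, ?_⟩
      rw [← hιT, ← map_sub, hx, map_zero]
    · rintro ⟨hyW, hy⟩
      rw [← hιrange] at hyW
      obtain ⟨x, rfl⟩ := hyW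
      refine ⟨x, ?_, rfl⟩
      apply hιinj
      rw [map_sub, hιT, hy, map_zero]
  have hkk : kk T' ⊤ = kk T W := by
    unfold kk
    rw [top_inf_eq, ← hker]
    exact (Submodule.equivMapOfInjective ι hιinj _).finrank_eq
  have hdimW : finrank F W = kk T W + cc F r * s := by rw [← hfinV', hs, hkk]
  refine ⟨s, hdimW, ?_, ?_⟩
  · have h1 : finrank F ↥(W ⊓ LinearMap.ker (T - 1)) +
        finrank F ↥(W ⊓ LinearMap.range (T - 1)) = finrank F W := by
      have h := Submodule.finrank_sup_add_finrank_inf_eq (W ⊓ LinearMap.ker (T - 1))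
        (W ⊓ LinearMap.range (T - 1))
      rw [hsplit W hW] at h
      have hbot : (W ⊓ LinearMap.ker (T - 1)) ⊓ (W ⊓ LinearMap.range (T - 1)) = ⊥ := by
        rw [eq_bot_iff, ← hKR]
        exact inf_le_inf inf_le_right inf_le_right
      rw [hbot, finrank_bot, add_zero] at h
      exact h.symm
    have h2 : finrank F ↥(W ⊓ LinearMap.range (T - 1)) ≤ finrank F ↥(LinearMap.range (T - 1)) :=
      Submodule.finrank_mono inf_le_right
    have h3 := LinearMap.finrank_range_add_finrank_ker (T - 1)
    have h4 : kk T ⊤ = finrank F ↥(LinearMap.ker (T - 1)) := by unfold kk; rw [top_inf_eq]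
    have h6 : kk T W = finrank F ↥(W ⊓ LinearMap.ker (T - 1)) := rfl
    omega
  · intro hk0
    have hker0 : LinearMap.ker (T' - 1) = ⊥ := by
      have h : finrank F ↥(LinearMap.ker (T' - 1)) = 0 := by
        have h' := hkk
        unfold kk at h'
        rw [top_inf_eq] at h'
        rw [h']
        exact hk0
      exact Submodule.finrank_eq_zero.mp h
    have hPlus : Plus B' ⊤ ↔ Plus B W := by
      constructor
      · rintro ⟨U', -, hTI, hfin⟩
        refine ⟨U'.map ι, ?_, ?_, ?_⟩
        · rw [← hιrange]; exact LinearMap.map_le_range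
        · rintro _ ⟨x, hx, rfl⟩ _ ⟨y, hy, rfl⟩
          rw [← hB']; exact hTI x hx y hy
        · rw [← (Submodule.equivMapOfInjective ι hιinj U').finrank_eq, hfin, finrank_top, hfinV']
      · rintro ⟨U, hUW, hTI, hfin⟩
        refine ⟨U.comap ι, le_top, ?_, ?_⟩
        · intro x hx y hy
          rw [hB']; exact hTI _ hx _ hy
        · have hmap : (U.comap ι).map ι = U := by
            rw [Submodule.map_comap_eq, hιrange]; exact inf_eq_right.mpr hUW
          rw [finrank_top, hfinV', ← hfin, (Submodule.equivMapOfInjective ι hιinj _).finrank_eq,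
            hmap]
    rw [← hPlus]
    by_cases hodd : Odd (ii F r)
    · exact ⟨fun _ => Or.inl hodd, fun _ => hTO F V' r B' T' hC' hker0 hodd⟩
    · have heven : Even (ii F r) := Nat.not_odd_iff_even.mp hodd
      have hcc : cc F r = ii F r := cc_eq_of_even F r heven
      have hdim : finrank F V' = ii F r * s := by rw [hs, hkk, hk0, zero_add, hcc]
      rw [hTE F V' r B' T' hC' hker0 heven s hdim]
      constructor
      · exact fun h => Or.inr h
      · rintro (h | h)
        · exact absurd h hodd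
        · exact h

example (hR : StRestrict.{u,v}) (hS : StOSplit.{u,v}) (hM : StOModc.{u,v})
    (hTO : StTypeOdd.{u,v}) (hTE : StTypeEven.{u,v}) : StFwd.{u,v} := fwd hR hS hM hTO hTE

end Cfsg.Agent.H11.Oh

#print axioms Cfsg.Agent.H11.Oh.fwd
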