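import Mathlib
import Cfsg.Agent.H95.OhDefs
import Cfsg.Agent.H60.OtCommon
import Cfsg.Agent.H11.OhFwd

/-!
# S5992-EXW (helper95's project): invariant nondegenerate subspaces of prescribed type
-/

set_option autoImplicit false

namespace Cfsg.Agent.H11.Oh

open Cfsg.Agent.H45 Cfsg.Agent.H42.Spd Cfsg.Agent.H42.Ti Cfsg.Agent.H14.Ot Cfsg.Agent.H95.Oh Module

universe u v

theorem exW (hS : StOSplit.{u,v}) (hBack : StBack.{u,v}) (hFwd : StFwd.{u,v})
    (hBoth : StBoth.{u,v}) (hSum : StSumType.{u,v}) : StExW.{u,v} := by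
  intro F _ _ V _ _ _ r B T hC j e pl hj he hek hpl
  obtain ⟨hKR, hKRtop, hsplit⟩ := hS F V r T hC.cast_ne hC.pow
  obtain ⟨W₁, hW₁, hW₁nd, hW₁K, hW₁dim⟩ := hBack F V r B T hC j hj
  obtain ⟨j', hj'1, -, hj'3⟩ := hFwd F V r B T hC W₁ hW₁ hW₁nd
  have hkk0 : kk T W₁ = 0 := by unfold kk; rw [hW₁K, finrank_bot]
  have hipos : 0 < ii F r := Cfsg.Agent.H60.Ot.ot_ii_pos r hC.prime hC.cast_ne
  have hccpos : 0 < cc F r := by
    by_cases h : Even (ii F r)
    · rw [cc_eq_of_even F r h]; exact hipos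
    · rw [cc_eq_of_not_even F r h]; omega
  have hcceven : Even (cc F r) := by
    by_cases h : Even (ii F r)
    · rw [cc_eq_of_even F r h]; exact h
    · rw [cc_eq_of_not_even F r h]; exact even_two_mul _
  have hjj : j' = j := by
    rw [hW₁dim, hkk0, zero_add] at hj'1
    exact (Nat.eq_of_mul_eq_mul_left hccpos hj'1).symm
  subst hjj
  have hT1 : Plus B W₁ ↔ (Odd (ii F r) ∨ Even j') := hj'3 hkk0
  rcases Nat.eq_zero_or_pos e with rfl | hepos
  · exact ⟨W₁, hW₁, hW₁nd, by rw [hW₁dim, add_zero], by rw [hT1]; exact (hpl rfl).symm⟩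
  · have he2 : 2 ≤ e := by
      obtain ⟨k, rfl⟩ := he
      omega
    have hUK : ∀ u ∈ LinearMap.range (T - 1), ∀ k ∈ LinearMap.ker (T - 1), B u k = 0 := by
      rintro _ ⟨x, rfl⟩ k hk
      have hTk : T k = k := by
        have h := LinearMap.mem_ker.mp hk
        rw [LinearMap.sub_apply, Module.End.one_apply, sub_eq_zero] at h
        exact h
      have h1 : B (T x) (T k) = B x k := hC.isom x k
      rw [hTk] at h1
      rw [LinearMap.sub_apply, Module.End.one_apply, map_sub, LinearMap.sub_apply, h1, sub_self]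
    have hKnd : LinearMap.ker (T - 1) ⊓ perp B (LinearMap.ker (T - 1)) = ⊥ :=
      Cfsg.Agent.H60.Ot.ker_nondeg B T hC.symm hC.nondeg hKRtop hUK
    have hKdim : e + 1 ≤ finrank F ↥(LinearMap.ker (T - 1)) := by
      have h : kk T ⊤ = finrank F ↥(LinearMap.ker (T - 1)) := by unfold kk; rw [top_inf_eq]
      omega
    obtain ⟨W₀, hW₀K, hW₀nd, hW₀dim, hW₀pl⟩ := hBoth F V B hC.two_ne hC.symm
      (LinearMap.ker (T - 1)) hKnd e (pl ↔ Plus B W₁) he he2 hKdim
    have hW₁R : W₁ ≤ LinearMap.range (T - 1) := by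
      have h := hsplit W₁ hW₁
      rw [hW₁K, bot_sup_eq] at h
      exact inf_eq_left.mp h
    have hperp : W₁ ≤ perp B W₀ := by
      intro w hw
      refine (mem_perp B W₀ w).mpr ?_
      intro u hu
      rw [hC.symm]
      exact hUK w (hW₁R hw) u (hW₀K hu)
    obtain ⟨hnd, hdim, hplus⟩ := hSum F V B hC.two_ne hC.symm W₀ W₁ hW₀nd hW₁nd hperp
      (by rw [hW₀dim]; exact he) (by rw [hW₁dim]; exact hcceven.mul_right j')
    refine ⟨W₀ ⊔ W₁, ?_, hnd, by rw [hdim, hW₀dim, hW₁dim, add_comm], ?_⟩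
    · rw [Module.End.mem_invtSubmodule] at hW₁ ⊢
      refine sup_le ?_ (hW₁.trans (Submodule.comap_mono le_sup_right))
      intro u hu
      rw [Submodule.mem_comap]
      have hTu : T u = u := by
        have h := LinearMap.mem_ker.mp (hW₀K hu)
        rw [LinearMap.sub_apply, Module.End.one_apply, sub_eq_zero] at h
        exact h
      rw [hTu]; exact Submodule.mem_sup_left hu
    · rw [hplus, hW₀pl]
      generalize Plus B W₁ = P
      constructor
      · intro h
        by_contra hn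
        by_cases hP : P
        · exact hn ((h.mpr hP).mpr hP)
        · exact hP (h.mp ⟨fun hp => absurd hp hn, fun hp => absurd hp hP⟩)
      · intro hp
        exact ⟨fun h => h.mp hp, fun hP => ⟨fun _ => hP, fun _ => hp⟩⟩

example (hS : StOSplit.{u,v}) (hBack : StBack.{u,v}) (hFwd : StFwd.{u,v})
    (hBoth : StBoth.{u,v}) (hSum : StSumType.{u,v}) : StExW.{u,v} :=
  exW hS hBack hFwd hBoth hSum

end Cfsg.Agent.H11.Oh

#print axioms Cfsg.Agent.H11.Oh.exW
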