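import Mathlib
import Cfsg.Agent.H21.SimpleTools
import Cfsg.Agent.H21.OddPerm
import Cfsg.Agent.H21.Counting

set_option autoImplicit false

/-!
# No simple groups of order 420 and 840 (helper11, pieces N420 / N840 / FIXC of S0496)
-/

namespace Cfsg.Agent.H11.SmallOrd

open Subgroup

/-- piece FIXC of S0496 (a restatement of `H21.card_fixedBy_modEq_one_of_mem_centralizer`). -/
theorem card_fixedBy_centralizer_mod {G : Type*} [Group G] [Finite G] (p : ℕ) [Fact p.Prime]
    (P : Sylow p G) (hP : Nat.card (P : Subgroup G) = p) (c : G)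
    (hc : c ∈ Subgroup.centralizer ((P : Subgroup G) : Set G)) :
    Nat.card (MulAction.fixedBy (G ⧸ Subgroup.normalizer ((P : Subgroup G) : Set G)) c) % p
      = 1 := by
  have h := Cfsg.Agent.H21.card_fixedBy_modEq_one_of_mem_centralizer p P hP c hc
  unfold Nat.ModEq at h
  rw [h]
  exact Nat.mod_eq_of_lt (Fact.out : p.Prime).one_lt

/-- an element of prime order `p` fixes `≡ |X|` points mod `p`. -/
theorem card_modEq_card_fixedBy {G X : Type*} [Group G] [MulAction G X] [Finite X] (p : ℕ)
    [Fact p.Prime] (c : G) (hc : orderOf c = p) :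
    Nat.card X ≡ Nat.card (MulAction.fixedBy X c) [MOD p] := by
  have hH : IsPGroup p (zpowers c) :=
    IsPGroup.of_card (n := 1) (by rw [Nat.card_zpowers, hc, pow_one])
  have h1 := hH.card_modEq_card_fixedPoints X
  have h2 : MulAction.fixedPoints (zpowers c) X = MulAction.fixedBy X c := by
    ext x
    constructor
    · intro hx
      exact hx ⟨c, mem_zpowers c⟩
    · intro hx g
      obtain ⟨j, hj⟩ := mem_zpowers_iff.1 g.2
      have h3 := MulAction.mem_fixedBy_zpow hx j
      rw [hj] at h3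
      exact h3
  rw [h2] at h1
  exact h1

/-- the involution argument on 15 points. -/
theorem no_invol_15 {G : Type*} [Group G] [Finite G] [IsSimpleGroup G]
    (hG : ¬ IsMulCommutative G) (P : Sylow 7 G)
    (hfix : ∀ c ∈ Subgroup.centralizer ((P : Subgroup G) : Set G),
        Nat.card (MulAction.fixedBy (G ⧸ Subgroup.normalizer ((P : Subgroup G) : Set G)) c) % 7
          = 1)
    (hidx : (normalizer ((P : Subgroup G) : Set G)).index = 15)
    (hC : 2 ∣ Nat.card (centralizer ((P : Subgroup G) : Set G))) : False := by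
  obtain ⟨t, htC, ht2⟩ := Cfsg.Agent.H21.exists_mem_orderOf_eq_prime
    (centralizer ((P : Subgroup G) : Set G)) 2 hC
  have hNtop : normalizer ((P : Subgroup G) : Set G) ≠ ⊤ := by
    intro h
    rw [h, index_top] at hidx
    omega
  have ht1 : t ≠ 1 := by
    rintro rfl
    rw [orderOf_one] at ht2
    omega
  have hlt := Cfsg.Agent.H21.card_fixedBy_lt_index (normalizer ((P : Subgroup G) : Set G))
    hNtop t ht1
  have hmod := hfix t htC
  have h4 := Cfsg.Agent.H21.simple_involution_four_dvd hG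
    (X := G ⧸ normalizer ((P : Subgroup G) : Set G)) t (by rw [← ht2]; exact pow_orderOf_eq_one t)
  have hcard : Nat.card (G ⧸ normalizer ((P : Subgroup G) : Set G)) = 15 := by
    rw [← hidx]
    rfl
  rw [hcard] at h4
  rw [hidx] at hlt
  omega

theorem no_simple_420 {G : Type*} [Group G] [Finite G] [IsSimpleGroup G]
    (hfix : ∀ (P : Sylow 7 G), Nat.card (P : Subgroup G) = 7 →
      ∀ c ∈ Subgroup.centralizer ((P : Subgroup G) : Set G),
        Nat.card (MulAction.fixedBy (G ⧸ Subgroup.normalizer ((P : Subgroup G) : Set G)) c) % 7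
          = 1)
    (h : Nat.card G = 420) : False := by
  have hG : ¬ IsMulCommutative G :=
    Cfsg.Agent.H21.not_comm_of_not_prime (by rw [h]; norm_num)
  have hp7 : Fact (Nat.Prime 7) := ⟨by norm_num⟩
  obtain ⟨P⟩ : Nonempty (Sylow 7 G) := inferInstance
  obtain ⟨hPc, -, hnidx, hdvd, hmod, hne, -, hNn, -⟩ :=
    Cfsg.Agent.H21.simple_sylow_facts hG (p := 7) (k := 1) (m := 60) (by rw [h]; norm_num)
      (by norm_num) (by norm_num) P
  have hP7 : Nat.card (P : Subgroup G) = 7 := by rw [hPc]; norm_num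
  obtain ⟨d, hd, hd1, hd6, hd7⟩ := Cfsg.Agent.H21.simple_sylow_prime_card_NC hG P hP7
  have hCN := Cfsg.Agent.H21.card_centralizer_mul_relIndex_normalizer (P : Subgroup G)
  rw [← hd] at hCN
  obtain ⟨n, hn⟩ : ∃ n, n = Nat.card (Sylow 7 G) := ⟨_, rfl⟩
  rw [← hn] at hdvd hmod hne hNn hnidx
  have hn60 : n ≤ 60 := Nat.le_of_dvd (by norm_num) hdvd
  have hn15 : n = 15 := by
    interval_cases n <;> omega
  rw [hn15, h] at hNn
  rw [hn15] at hnidx
  have hN28 : Nat.card (normalizer ((P : Subgroup G) : Set G)) = 28 := by omega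
  rw [hN28] at hd7 hCN
  have hd6' : d ≤ 6 := Nat.le_of_dvd (by norm_num) hd6
  have hd0 : 0 < d := Nat.pos_of_dvd_of_pos hd6 (by norm_num)
  have hd2 : d = 2 := by
    interval_cases d <;> omega
  rw [hd2] at hCN
  exact no_invol_15 hG P (hfix P hP7) hnidx (by omega)

theorem no_simple_840 {G : Type*} [Group G] [Finite G] [IsSimpleGroup G]
    (hfix : ∀ (P : Sylow 7 G), Nat.card (P : Subgroup G) = 7 →
      ∀ c ∈ Subgroup.centralizer ((P : Subgroup G) : Set G),
        Nat.card (MulAction.fixedBy (G ⧸ Subgroup.normalizer ((P : Subgroup G) : Set G)) c) % 7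
          = 1)
    (h : Nat.card G = 840) : False := by
  have hG : ¬ IsMulCommutative G :=
    Cfsg.Agent.H21.not_comm_of_not_prime (by rw [h]; norm_num)
  have hp7 : Fact (Nat.Prime 7) := ⟨by norm_num⟩
  have hp5 : Fact (Nat.Prime 5) := ⟨by norm_num⟩
  obtain ⟨P⟩ : Nonempty (Sylow 7 G) := inferInstance
  obtain ⟨hPc, -, hnidx, hdvd, hmod, hne, -, hNn, -⟩ :=
    Cfsg.Agent.H21.simple_sylow_facts hG (p := 7) (k := 1) (m := 120) (by rw [h]; norm_num)
      (by norm_num) (by norm_num) P
  have hP7 : Nat.card (P : Subgroup G) = 7 := by rw [hPc]; norm_num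
  obtain ⟨d, hd, hd1, hd6, hd7⟩ := Cfsg.Agent.H21.simple_sylow_prime_card_NC hG P hP7
  have hCN := Cfsg.Agent.H21.card_centralizer_mul_relIndex_normalizer (P : Subgroup G)
  rw [← hd] at hCN
  have hd6' : d ≤ 6 := Nat.le_of_dvd (by norm_num) hd6
  have hd0 : 0 < d := Nat.pos_of_dvd_of_pos hd6 (by norm_num)
  obtain ⟨n, hn⟩ : ∃ n, n = Nat.card (Sylow 7 G) := ⟨_, rfl⟩
  rw [← hn] at hdvd hmod hne hNn hnidx
  have hn120 : n ≤ 120 := Nat.le_of_dvd (by norm_num) hdvd
  have hcases : n = 8 ∨ n = 15 ∨ n = 120 := by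
    interval_cases n <;> omega
  rcases hcases with hn8 | hn15 | hn120'
  · -- n = 8
    rw [hn8, h] at hNn
    rw [hn8] at hnidx
    have hN : Nat.card (normalizer ((P : Subgroup G) : Set G)) = 105 := by omega
    rw [hN] at hd7 hCN
    have hd3 : d = 3 := by
      interval_cases d <;> omega
    rw [hd3] at hCN
    have h5 : 5 ∣ Nat.card (centralizer ((P : Subgroup G) : Set G)) := by omega
    obtain ⟨c, hcC, hc5⟩ := Cfsg.Agent.H21.exists_mem_orderOf_eq_prime
      (centralizer ((P : Subgroup G) : Set G)) 5 h5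
    have hNtop : normalizer ((P : Subgroup G) : Set G) ≠ ⊤ := by
      intro h'
      rw [h', index_top] at hnidx
      omega
    have hc1 : c ≠ 1 := by
      rintro rfl
      rw [orderOf_one] at hc5
      omega
    have hlt := Cfsg.Agent.H21.card_fixedBy_lt_index (normalizer ((P : Subgroup G) : Set G))
      hNtop c hc1
    have hmod7 := hfix P hP7 c hcC
    have hmod5 := card_modEq_card_fixedBy (X := G ⧸ normalizer ((P : Subgroup G) : Set G)) 5 c hc5
    have hcard : Nat.card (G ⧸ normalizer ((P : Subgroup G) : Set G)) = 8 := by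
      rw [← hnidx]
      rfl
    rw [hcard] at hmod5
    unfold Nat.ModEq at hmod5
    rw [hnidx] at hlt
    omega
  · -- n = 15
    rw [hn15, h] at hNn
    rw [hn15] at hnidx
    have hN : Nat.card (normalizer ((P : Subgroup G) : Set G)) = 56 := by omega
    rw [hN] at hd7 hCN
    have hd2 : d = 2 := by
      interval_cases d <;> omega
    rw [hd2] at hCN
    exact no_invol_15 hG P (hfix P hP7) hnidx (by omega)
  · -- n = 120
    rw [hn120', h] at hNn
    have hN : Nat.card (normalizer ((P : Subgroup G) : Set G)) = 7 := by omega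
    rw [hN] at hd7
    have h1 := Nat.le_of_dvd (by norm_num) hd7
    omega

end Cfsg.Agent.H11.SmallOrd
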