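import Mathlib
import Cfsg.Agent.H69.Ord7920N
import Cfsg.Agent.H26.Ord7920F
import Cfsg.Agent.H56.Ord7920TT

set_option autoImplicit false

/-!
# Piece B45C of S2490 (helper11): the core of the case `n₁₁ = 45`
-/

namespace Cfsg.Agent.H11.Ord7920

open Subgroup

variable {G : Type*} [Group G] [Finite G]

/-- (i) every homomorphism to `ℤˣ` is trivial on the normal closure of a Sylow 11-subgroup of
order 11. -/
theorem sign_trivial (P : Sylow 11 G) (hP11 : Nat.card P = 11) (f : G →* ℤˣ) (x : G)
    (hx : x ∈ normalClosure ((P : Subgroup G) : Set G)) : f x = 1 := by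
  have hle : normalClosure ((P : Subgroup G) : Set G) ≤ f.ker := by
    apply normalClosure_le_normal
    intro y hy
    have h11 : y ^ 11 = 1 := by
      have h1 : (⟨y, hy⟩ : (P : Subgroup G)) ^ Nat.card (P : Subgroup G) = 1 := pow_card_eq_one'
      rw [hP11] at h1
      exact congrArg Subtype.val h1
    have h2 : (f y) ^ 2 = 1 := Int.units_sq (f y)
    have h3 : (f y) ^ 11 = 1 := by rw [← map_pow, h11, map_one]
    show f y = 1
    calc f y = (f y) ^ 11 * (((f y) ^ 2) ^ 5)⁻¹ := by group
      _ = 1 := by rw [h3, h2]; simp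
  exact hle hx

/-- (ii) the normal closure of a Sylow 11-subgroup of order 11 has no subgroup of index 2. -/
theorem no_index_two (P : Sylow 11 G) (hP11 : Nat.card P = 11) (M' : Subgroup G)
    (hidx : M'.relIndex (normalClosure ((P : Subgroup G) : Set G)) = 2) : False := by
  have key : ∀ x ∈ normalClosure ((P : Subgroup G) : Set G), x ^ 11 = 1 → x ∈ M' := by
    intro x hx h11
    have h1 := Subgroup.mul_self_mem_of_index_two (H := M'.subgroupOf _) hidx ⟨x, hx⟩
    have h2 : (⟨x, hx⟩ : normalClosure ((P : Subgroup G) : Set G)) * ⟨x, hx⟩ ∈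
        M'.subgroupOf (normalClosure ((P : Subgroup G) : Set G)) := h1
    rw [Subgroup.mem_subgroupOf] at h2
    have h3 : x * x ∈ M' := h2
    have h4 : (x * x) ^ 6 = x := by
      rw [← pow_two, ← pow_mul]
      show x ^ (11 + 1) = x
      rw [pow_succ, h11, one_mul]
    rw [← h4]
    exact M'.pow_mem h3 6
  have hle : normalClosure ((P : Subgroup G) : Set G) ≤ M' := by
    show closure (Group.conjugatesOfSet ((P : Subgroup G) : Set G)) ≤ M'
    rw [closure_le]
    intro c hc
    have hcM := conjugatesOfSet_subset_normalClosure hc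
    obtain ⟨b, hb, hbc⟩ := Group.mem_conjugatesOfSet_iff.1 hc
    obtain ⟨g, hg⟩ := isConj_iff.1 hbc
    apply key c hcM
    have h11 : b ^ 11 = 1 := by
      have h1 : (⟨b, hb⟩ : (P : Subgroup G)) ^ Nat.card (P : Subgroup G) = 1 := pow_card_eq_one'
      rw [hP11] at h1
      exact congrArg Subtype.val h1
    rw [← hg, conj_pow, h11, mul_one, mul_inv_cancel]
  have := Subgroup.relIndex_eq_one.2 hle
  omega

/-- (iii) no normal 2-complement argument. -/
theorem no_compl (P : Sylow 11 G) (hP11 : Nat.card P = 11) (k : ℕ) (hk1 : 1 ≤ k)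
    (hM : Nat.card (normalClosure (((P : Subgroup G) : Set G))) = 495 * 2 ^ k)
    (S : Subgroup G) (hSM : S ≤ normalClosure (((P : Subgroup G) : Set G)))
    (hS : Nat.card S = 2 ^ k)
    (hNC : normalClosure (((P : Subgroup G) : Set G)) ⊓ normalizer (S : Set G) ≤
      centralizer (S : Set G)) : False := by
  have hS2 : IsPGroup 2 S := IsPGroup.of_card hS
  have hSyl : ¬ 2 ∣ Nat.card (normalClosure (((P : Subgroup G) : Set G))) / Nat.card S := by
    rw [hM, hS, Nat.mul_div_cancel _ (by positivity)]
    norm_num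
  obtain ⟨K, hKn, hKM, hcard, hmem⟩ :=
    Cfsg.Agent.H69.Ord7920.exists_normal_compl (normalClosure (((P : Subgroup G) : Set G))) 2 S
      hSM hS2 hSyl hNC
  have hPK : ((P : Subgroup G) : Set G) ⊆ K := by
    intro y hy
    apply hmem y (le_normalClosure hy)
    have h11 : y ^ 11 = 1 := by
      have h1 : (⟨y, hy⟩ : (P : Subgroup G)) ^ Nat.card (P : Subgroup G) = 1 := pow_card_eq_one'
      rw [hP11] at h1
      exact congrArg Subtype.val h1
    have hdvd : orderOf y ∣ 11 := orderOf_dvd_of_pow_eq_one h11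
    exact Nat.Coprime.coprime_dvd_left hdvd (by norm_num)
  have hMK : normalClosure (((P : Subgroup G) : Set G)) ≤ K := by
    have hKn' := hKn
    exact normalClosure_le_normal hPK
  have hKeq : K = normalClosure (((P : Subgroup G) : Set G)) := le_antisymm hKM hMK
  rw [hKeq, hM, hS] at hcard
  have h2 : 2 ≤ 2 ^ k := by
    calc 2 = 2 ^ 1 := by norm_num
      _ ≤ 2 ^ k := Nat.pow_le_pow_right (by norm_num) hk1
  have h3 : 0 < 495 * 2 ^ k := by positivity
  nlinarith

/-- piece B45C of S2490. -/
theorem b45_core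
    (hfaith : ∀ g : G, (∀ Q : Sylow 11 G, g • Q = Q) → g = 1)
    (h45 : Nat.card (Sylow 11 G) = 45) (P : Sylow 11 G) (hP11 : Nat.card P = 11)
    (k : ℕ) (hk1 : 1 ≤ k) (hk3 : k ≤ 3)
    (hM : Nat.card (normalClosure (((P : Subgroup G) : Set G))) = 495 * 2 ^ k)
    (S : Subgroup G) (hSM : S ≤ normalClosure (((P : Subgroup G) : Set G)))
    (hSP : S ≤ normalizer ((P : Subgroup G) : Set G)) (hS : Nat.card S = 2 ^ k)
    (hT : (S ⊓ centralizer ((P : Subgroup G) : Set G)).relIndex S = 2) : False := by
  have hp11 : Fact (Nat.Prime 11) := ⟨by norm_num⟩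
  have hS2 : IsPGroup 2 S := IsPGroup.of_card hS
  have hSyl : ¬ 2 ∣ Nat.card (normalClosure (((P : Subgroup G) : Set G))) / Nat.card S := by
    rw [hM, hS, Nat.mul_div_cancel _ (by positivity)]
    norm_num
  have hPM : (P : Subgroup G) ≤ normalClosure (((P : Subgroup G) : Set G)) := le_normalClosure
  have hTS : S ⊓ centralizer ((P : Subgroup G) : Set G) ≤ S := inf_le_left
  have hfixT : ∀ x ∈ S ⊓ centralizer ((P : Subgroup G) : Set G), orderOf x = 2 →
      ∀ Q : Sylow 11 G, x • Q = Q → Q = P := fun x hx hx2 =>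
    Cfsg.Agent.H26.Ord7920.fix_eq_of_involution hfaith h45 P hP11 x hx2 hx.2
      (fun f => sign_trivial P hP11 f x (hSM hx.1))
  have hk : k = 1 ∨ k = 2 ∨ k = 3 := by omega
  rcases hk with rfl | rfl | rfl
  · -- k = 1
    have hS' : Nat.card S = 2 := by rw [hS]; norm_num
    have hNC := Cfsg.Agent.H69.Ord7920.card_inf_normalizer_dvd 2 S hS'
      (normalClosure (((P : Subgroup G) : Set G)))
    have hle : normalClosure (((P : Subgroup G) : Set G)) ⊓ centralizer (S : Set G) ≤
        normalClosure (((P : Subgroup G) : Set G)) ⊓ normalizer (S : Set G) :=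
      inf_le_inf_left _ (centralizer_le_normalizer _)
    have hcard : Nat.card (normalClosure (((P : Subgroup G) : Set G)) ⊓ normalizer (S : Set G) :
        Subgroup G) ≤ Nat.card (normalClosure (((P : Subgroup G) : Set G)) ⊓
          centralizer (S : Set G) : Subgroup G) := by
      apply Nat.le_of_dvd Nat.card_pos
      simpa using hNC
    have heq := Subgroup.eq_of_le_of_card_ge hle hcard
    exact no_compl P hP11 1 le_rfl hM S hSM hS (by rw [← heq]; exact inf_le_right)
  · -- k = 2
    have hS' : Nat.card S = 4 := by rw [hS]; norm_num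
    have hcT : Nat.card (S ⊓ centralizer ((P : Subgroup G) : Set G) : Subgroup G) = 2 := by
      have h1 := Cfsg.Agent.H69.Ord7920.card_mul_relIndex_of_le hTS
      rw [hT, hS'] at h1
      omega
    -- an involution x of T
    obtain ⟨x, hxT, hx2⟩ : ∃ x ∈ S ⊓ centralizer ((P : Subgroup G) : Set G), orderOf x = 2 := by
      obtain ⟨x, hx⟩ := exists_prime_orderOf_dvd_card' (G := ↥(S ⊓ centralizer
        ((P : Subgroup G) : Set G))) 2 (by rw [hcT])
      exact ⟨x.1, x.2, by rw [Subgroup.orderOf_coe]; exact hx⟩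
    have hxfix := hfixT x hxT hx2
    -- B ≤ L
    have hBL : normalClosure (((P : Subgroup G) : Set G)) ⊓ normalizer (S : Set G) ≤
        normalClosure (((P : Subgroup G) : Set G)) ⊓ normalizer ((P : Subgroup G) : Set G) := by
      intro g hg
      refine ⟨hg.1, ?_⟩
      have hy : g * x * g⁻¹ ∈ S := (mem_normalizer_iff.1 hg.2 x).1 hxT.1
      have hyP : (g * x * g⁻¹) • P = P := Sylow.smul_eq_iff_mem_normalizer.2 (hSP hy)
      have h1 : x • (g⁻¹ • P) = g⁻¹ • P := by
        rw [← mul_smul]
        have h2 : x * g⁻¹ = g⁻¹ * (g * x * g⁻¹) := by group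
        rw [h2, mul_smul, hyP]
      have h3 := hxfix _ h1
      have h4 : g⁻¹ ∈ normalizer ((P : Subgroup G) : Set G) :=
        Sylow.smul_eq_iff_mem_normalizer.1 h3
      exact (inv_mem_iff (H := normalizer ((P : Subgroup G) : Set G))).1 h4
    have hcL : Nat.card (normalClosure (((P : Subgroup G) : Set G)) ⊓
        normalizer ((P : Subgroup G) : Set G) : Subgroup G) = 44 := by
      have h1 := Cfsg.Agent.H69.Ord7920.card_normal_eq_sylow_card_mul 11
        (normalClosure (((P : Subgroup G) : Set G))) P hPM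
      rw [hM, h45] at h1
      omega
    have hSB : S ≤ normalClosure (((P : Subgroup G) : Set G)) ⊓ normalizer (S : Set G) :=
      le_inf hSM le_normalizer
    have hd1 := Subgroup.card_dvd_of_le hSB
    have hd2 := Subgroup.card_dvd_of_le hBL
    rw [hS'] at hd1
    rw [hcL] at hd2
    obtain ⟨n, hn⟩ : ∃ n, n = Nat.card (normalClosure (((P : Subgroup G) : Set G)) ⊓
      normalizer (S : Set G) : Subgroup G) := ⟨_, rfl⟩
    rw [← hn] at hd1 hd2
    have hn44 : n ≤ 44 := Nat.le_of_dvd (by norm_num) hd2
    have hn1 : 1 ≤ n := by rw [hn]; exact Nat.card_pos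
    have hcases : n = 4 ∨ n = 44 := by
      interval_cases n <;> omega
    rcases hcases with h4 | h44
    · -- B = S, abelian
      have hBS : S = normalClosure (((P : Subgroup G) : Set G)) ⊓ normalizer (S : Set G) :=
        Subgroup.eq_of_le_of_card_ge hSB (by rw [← hn, h4, hS'])
      have hcomm : ∀ a b : ↥S, a * b = b * a :=
        IsPGroup.commutative_of_card_eq_prime_sq (p := 2) (by rw [hS']; norm_num)
      apply no_compl P hP11 2 (by norm_num) hM S hSM hS
      rw [← hBS]
      intro s hs
      rw [mem_centralizer_iff]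
      intro h hh
      have := hcomm ⟨h, hh⟩ ⟨s, hs⟩
      exact congrArg Subtype.val this
    · -- B = L contains P
      have hBL' : normalClosure (((P : Subgroup G) : Set G)) ⊓ normalizer (S : Set G) =
          normalClosure (((P : Subgroup G) : Set G)) ⊓ normalizer ((P : Subgroup G) : Set G) :=
        Subgroup.eq_of_le_of_card_ge hBL (by rw [← hn, h44, hcL])
      have hPB : (P : Subgroup G) ≤ normalClosure (((P : Subgroup G) : Set G)) ⊓
          normalizer (S : Set G) := by
        rw [hBL']
        exact le_inf hPM le_normalizer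
      have hbot : (P : Subgroup G) ⊓ S = ⊥ := by
        apply Subgroup.inf_eq_bot_of_coprime
        rw [hP11, hS']
        norm_num
      have hSC : S ≤ centralizer ((P : Subgroup G) : Set G) := by
        intro s hs
        rw [mem_centralizer_iff]
        intro p hp
        have hp' : p ∈ (P : Subgroup G) := hp
        have h1 : s * p * s⁻¹ ∈ (P : Subgroup G) := (mem_normalizer_iff.1 (hSP hs) p).1 hp'
        have h2 : p * s⁻¹ * p⁻¹ ∈ S :=
          (mem_normalizer_iff.1 (hPB hp').2 s⁻¹).1 (S.inv_mem hs)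
        have h3 : s * p * s⁻¹ * p⁻¹ ∈ (P : Subgroup G) ⊓ S := by
          refine ⟨(P : Subgroup G).mul_mem h1 ((P : Subgroup G).inv_mem hp'), ?_⟩
          have h4 : s * p * s⁻¹ * p⁻¹ = s * (p * s⁻¹ * p⁻¹) := by group
          rw [h4]
          exact S.mul_mem hs h2
        rw [hbot, mem_bot] at h3
        have h5 : s * p = p * s := by
          calc s * p = (s * p * s⁻¹ * p⁻¹) * (p * s) := by group
            _ = p * s := by rw [h3, one_mul]
        exact h5.symm
      rw [inf_eq_left.2 hSC, Subgroup.relIndex_self] at hT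
      omega
  · -- k = 3
    have hS' : Nat.card S = 8 := by rw [hS]; norm_num
    have hdvd := Cfsg.Agent.H26.Ord7920.card_dvd_of_unique_fix P S
      (S ⊓ centralizer ((P : Subgroup G) : Set G)) hTS hSP hS2 hfixT
      (fun u huS huT hu => by
        obtain ⟨g, _, hg⟩ := Cfsg.Agent.H56.Ord7920.thompson_in_subgroup
          (normalClosure (((P : Subgroup G) : Set G)))
          (fun M' _ h2 => no_index_two P hP11 M' h2) S
          (S ⊓ centralizer ((P : Subgroup G) : Set G)) hSM hS2 hSyl hTS hT u hu huS huT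
        exact ⟨g, hg⟩)
    rw [hS', h45] at hdvd
    omega

end Cfsg.Agent.H11.Ord7920
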