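import Mathlib
import Cfsg.Agent.H21.SimpleTools
import Cfsg.Agent.H11.SmallSimple

set_option autoImplicit false

/-!
# No simple group of order 900 (helper11, piece N900 of S0496)
-/

namespace Cfsg.Agent.H11.SmallOrd

open Subgroup

theorem no_simple_900 {G : Type*} [Group G] [Finite G] [IsSimpleGroup G]
    (h : Nat.card G = 900) : False := by
  have hG : ¬ IsMulCommutative G :=
    Cfsg.Agent.H21.not_comm_of_not_prime (by rw [h]; norm_num)
  have hnc : ¬ IsCyclic G := Cfsg.Agent.H11.not_isCyclic_of_not_isMulCommutative hG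
  haveI : Fact (Nat.Prime 5) := ⟨by norm_num⟩
  obtain ⟨P⟩ : Nonempty (Sylow 5 G) := inferInstance
  obtain ⟨hPc, -, -, hdvd, hmod, hne, hfac, hNn, -⟩ :=
    Cfsg.Agent.H21.simple_sylow_facts hG (p := 5) (k := 2) (m := 36) (by rw [h]; norm_num) (by norm_num)
      (by norm_num) P
  obtain ⟨n, hn⟩ : ∃ n, n = Nat.card (Sylow 5 G) := ⟨_, rfl⟩
  rw [← hn] at hdvd hmod hne hfac hNn
  have hn36 : n ≤ 36 := Nat.le_of_dvd (by norm_num) hdvd
  have hcases : n = 6 ∨ n = 36 := by
    interval_cases n <;> omega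
  rcases hcases with rfl | rfl
  · rw [h] at hfac
    have : Nat.factorial 6 = 720 := by decide
    rw [this] at hfac
    omega
  · rw [h] at hNn
    have hN25 : Nat.card (normalizer ((P : Subgroup G) : Set G)) = 25 := by omega
    have hcomm : ∀ a b : ↥(P : Subgroup G), a * b = b * a :=
      IsPGroup.commutative_of_card_eq_prime_sq (p := 5) hPc
    refine Cfsg.Agent.H11.not_selfNormalizing_of_comm hnc 5 (by rw [h]; norm_num) P ?_ ?_
    · intro a ha b hb
      exact congrArg Subtype.val (hcomm ⟨a, ha⟩ ⟨b, hb⟩)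
    · rw [hN25, hPc]
      norm_num

end Cfsg.Agent.H11.SmallOrd
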