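import Cfsg.Agent.H56.OrdDefs
import Cfsg.Agent.H11.OrdArith
import Cfsg.Agent.S1068

set_option autoImplicit false

/-! S2363 piece TWF4: the order bounds for `²F₄(q)`. -/

namespace Cfsg.Agent.H11.Ord

open Cfsg Cfsg.Agent.H56.Ord

theorem twF4 : TwF4Stmt := by
  intro K _ _ m _ hK
  exact twF4_good m (Cfsg.Agent.S1068.result hK)

example : Cfsg.Agent.H56.Ord.TwF4Stmt := twF4

end Cfsg.Agent.H11.Ord

#print axioms Cfsg.Agent.H11.Ord.twF4
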