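import Mathlib
import Cfsg.Prelude
import Cfsg.Agent.H85.RXDefs

set_option autoImplicit false

/-! S5047 piece CLAIM1. -/

namespace Cfsg.Agent.H11.RX

open Cfsg.Agent.H85.RT Cfsg.Agent.H85.RX

universe u

theorem claim1 (hcard : StCard.{u}) (hmem : StPhiMem.{u}) (hA : StInjA.{u}) (hB : StInjB.{u}) :
    StClaim1.{u} := by
  intro G _ _ D hD hconn a b ha hb hba hcomm hbaD hTw
  classical
  have haa : a * a = 1 := Cfsg.Agent.H40.RootInv.sq_of_mem hD ha
  have hbb : b * b = 1 := Cfsg.Agent.H40.RootInv.sq_of_mem hD hb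
  -- an odd partner of `a` which is not an odd partner of `b`
  have hns : ¬ (Cfsg.oddPartners D a ⊆ Cfsg.oddPartners D b) := fun h => hTw (hcard hD hconn ha hb h)
  obtain ⟨x, hxA, hxB⟩ := Set.not_subset.mp hns
  obtain ⟨hxD, hxa, hxodd⟩ := hxA
  have hxA : x ∈ Cfsg.oddPartners D a := ⟨hxD, hxa, hxodd⟩
  -- `b` is in `S(a, x)`
  have hbS : b ∈ SS D a x := by
    refine ⟨hb, hcomm, hba, hbaD, ?_⟩
    rcases hD.pair b hb x hxD with h | h | h
    · exfalso
      exact hxa (Cfsg.Agent.H85.RI.b1 hD hb ha hcomm hba hbaD hxD h.symm hxodd)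
    · exfalso
      apply hxB
      refine ⟨hxD, ?_, h⟩
      intro hxb
      -- `x = b` would make `a * b` of odd order with square one
      rw [hxb] at hxodd
      have h2 : (a * b) ^ 2 = 1 := sq_eq_one_of_comm haa hbb hcomm.symm
      have h3 : orderOf (a * b) ∣ 2 := orderOf_dvd_of_pow_eq_one h2
      have h4 : orderOf (a * b) = 1 := Cfsg.Agent.H40.RootInv.odd_dvd_two hxodd h3
      have h5 : a * b = 1 := orderOf_eq_one_iff.mp h4
      apply hba
      have h6 : b = a⁻¹ := eq_inv_of_mul_eq_one_right h5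
      rw [h6]
      exact inv_eq_of_mul_eq_one_left haa
    · exact h.1
  -- `Φ` is an injective self-map of the finite set `S(a, x)`
  have hfin : Finite (SS D a x) := Finite.of_injective (fun g : SS D a x => (g : G)) Subtype.val_injective
  obtain ⟨φ, hφ⟩ : ∃ φ : SS D a x → SS D a x, ∀ g, (φ g : G) = Phi a x g :=
    ⟨fun g => ⟨Phi a x g, hmem hD ha hxA g.2⟩, fun g => rfl⟩
  have hinj : Function.Injective φ := by
    intro g₁ g₂ h
    have h1 : Phi a x g₁ = Phi a x g₂ := by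
      rw [← hφ g₁, ← hφ g₂, h]
    have h2 := hA hD ha hxA g₁.2 g₂.2 h1
    exact Subtype.ext (hB hD ha hxA g₁.2 g₂.2 h2)
  have hsurj : Function.Surjective φ := Finite.injective_iff_surjective.mp hinj
  obtain ⟨g, hg⟩ := hsurj ⟨b, hbS⟩
  have hgb : Phi a x g = b := by
    rw [← hφ g, hg]
  obtain ⟨hgD, -, -, -, hg4⟩ := g.2
  obtain ⟨c, hc, hcD, -⟩ := d8_pack hD hgD hxD hg4
  refine ⟨(g * x) ^ 2, ?_, hgb⟩
  rw [← hc]
  exact hcD

example (hcard : StCard.{u}) (hmem : StPhiMem.{u}) (hA : StInjA.{u}) (hB : StInjB.{u}) :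
    Cfsg.Agent.H85.RX.StClaim1.{u} := claim1 hcard hmem hA hB

end Cfsg.Agent.H11.RX

#print axioms Cfsg.Agent.H11.RX.claim1
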