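import Mathlib
import Cfsg.Prelude
import Cfsg.Agent.H85.RXDefs

set_option autoImplicit false

/-! S5047 piece ODDMUL. -/

namespace Cfsg.Agent.H11.RX

open Cfsg.Agent.H85.RT Cfsg.Agent.H85.RX

universe u

theorem odd_mul : StOddMul.{u} := by
  intro G _ u w hww hwu hu hwu'
  have hc : Commute w u := hwu
  have h1 : (w * u) ^ (orderOf u * orderOf (w * u)) = 1 := by
    rw [mul_comm, pow_mul, pow_orderOf_eq_one, one_pow]
  rw [hc.mul_pow] at h1
  have h2 : u ^ (orderOf u * orderOf (w * u)) = 1 := by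
    rw [pow_mul, pow_orderOf_eq_one, one_pow]
  rw [h2, mul_one] at h1
  have hodd : Odd (orderOf u * orderOf (w * u)) := hu.mul hwu'
  obtain ⟨k, hk⟩ := hodd
  rw [hk, pow_succ, pow_mul, pow_two, hww, one_pow, one_mul] at h1
  exact h1

example : Cfsg.Agent.H85.RX.StOddMul.{u} := odd_mul

end Cfsg.Agent.H11.RX

#print axioms Cfsg.Agent.H11.RX.odd_mul
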