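import Mathlib

/-!
# S5142-ROOT (helper11, for helper87): a root-closure property.
-/

set_option autoImplicit false

namespace Cfsg.Agent.H11.RootClosed

theorem root_closed_mul {G : Type*} [Group G] {p : ℕ} [Fact p.Prime] (N : Subgroup G) {m d : G}
    (hd : d ∈ N) (hmN : ∀ ν ∈ N, m⁻¹ * ν * m ∈ N) (hfin : IsOfFinOrder m)
    (hp : ∀ j : ℕ, (∃ k : ℕ, orderOf (m ^ j) = p ^ k) → m ^ j ∈ N) {n : ℕ}
    (h : (m * d) ^ (p ^ n) ∈ N) : m * d ∈ N := by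
  have hpp : p.Prime := Fact.out
  have h1 : ∀ j : ℕ, ∃ ν ∈ N, (m * d) ^ j = m ^ j * ν := by
    intro j
    induction j with
    | zero => exact ⟨1, N.one_mem, by simp⟩
    | succ j ih =>
      obtain ⟨ν, hν, hj⟩ := ih
      refine ⟨m⁻¹ * ν * m * d, N.mul_mem (hmN ν hν) hd, ?_⟩
      rw [pow_succ, hj, pow_succ]
      group
  obtain ⟨ν, hν, hj⟩ := h1 (p ^ n)
  have h2 : m ^ (p ^ n) ∈ N := by
    have h3 : m ^ (p ^ n) = (m * d) ^ (p ^ n) * ν⁻¹ := by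
      rw [hj]
      group
    rw [h3]
    exact N.mul_mem h (N.inv_mem hν)
  have ho : orderOf m ≠ 0 := (orderOf_pos_iff.mpr hfin).ne'
  obtain ⟨e, r, hr, hor⟩ := Nat.exists_eq_pow_mul_and_not_dvd ho p hpp.ne_one
  have hr0 : r ≠ 0 := by
    rintro rfl
    exact hr (dvd_zero p)
  have h3 : m ^ r ∈ N := by
    apply hp r
    refine ⟨e, ?_⟩
    rw [orderOf_pow_of_dvd hr0 ⟨p ^ e, by rw [hor]; ring⟩, hor]
    exact Nat.mul_div_cancel _ (Nat.pos_of_ne_zero hr0)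
  have hcop : Nat.Coprime r (p ^ n) :=
    Nat.Coprime.pow_right n ((Nat.Prime.coprime_iff_not_dvd hpp).mpr hr).symm
  have hb := Int.gcd_eq_gcd_ab (r : ℤ) ((p ^ n : ℕ) : ℤ)
  have hg : Int.gcd (r : ℤ) ((p ^ n : ℕ) : ℤ) = 1 := by
    rw [Int.gcd_natCast_natCast]
    exact hcop
  rw [hg] at hb
  have hm : m ∈ N := by
    have h4 : m = (m ^ r) ^ (Int.gcdA (r : ℤ) ((p ^ n : ℕ) : ℤ)) *
        (m ^ (p ^ n)) ^ (Int.gcdB (r : ℤ) ((p ^ n : ℕ) : ℤ)) := by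
      rw [← zpow_natCast m r, ← zpow_natCast m (p ^ n), ← zpow_mul, ← zpow_mul, ← zpow_add,
        ← hb]
      simp
    rw [h4]
    exact N.mul_mem (N.zpow_mem h3 _) (N.zpow_mem h2 _)
  exact N.mul_mem hm hd

end Cfsg.Agent.H11.RootClosed

example {G : Type*} [Group G] {p : ℕ} [Fact p.Prime] (N : Subgroup G) {m d : G}
    (hd : d ∈ N) (hmN : ∀ ν ∈ N, m⁻¹ * ν * m ∈ N) (hfin : IsOfFinOrder m)
    (hp : ∀ j : ℕ, (∃ k : ℕ, orderOf (m ^ j) = p ^ k) → m ^ j ∈ N) {n : ℕ}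
    (h : (m * d) ^ (p ^ n) ∈ N) : m * d ∈ N :=
  Cfsg.Agent.H11.RootClosed.root_closed_mul N hd hmN hfin hp h

#print axioms Cfsg.Agent.H11.RootClosed.root_closed_mul
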