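import Mathlib
import Cfsg.Agent.H99.S4Defs

/-!
# S6000, piece ORD3A: an element of order three and trace `-2` in the normaliser
-/

set_option autoImplicit false

namespace Cfsg.Agent.H11.S4

open Cfsg.Agent.H99.S4 Matrix

universe u

/-- A nonzero matrix anticommuting with an involution is not scalar (`2 ≠ 0`). -/
theorem not_scalar_of_anticomm {F : Type u} [Field F] (h2 : (2 : F) ≠ 0) (x y : M4 F)
    (hxy : x * y = -(y * x)) (hyy : y * y = 1) (hx0 : x ≠ 0) (c : F) : x ≠ c • (1 : M4 F) := by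
  intro hx
  rw [hx, smul_mul_assoc, one_mul, mul_smul_comm, mul_one] at hxy
  have h1 : (c + c) • y = 0 := by
    rw [add_smul]
    nth_rewrite 1 [hxy]
    rw [neg_add_cancel]
  have h3 : (c + c) • (1 : M4 F) = 0 := by
    rw [← hyy, ← smul_mul_assoc, h1, zero_mul]
  have h4 := congrFun (congrFun h3 0) 0
  simp only [Matrix.smul_apply, Matrix.one_apply_eq, smul_eq_mul, mul_one, Matrix.zero_apply] at h4
  have h5 : c = 0 := by
    have h6 : (2 : F) * c = 0 := by rw [two_mul]; exact h4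
    rcases mul_eq_zero.mp h6 with h | h
    · exact absurd h h2
    · exact h
  apply hx0
  rw [hx, h5, zero_smul]

theorem ord3A (hq3 : StQ3.{u}) (htr : StTr0.{u}) : StOrd3A.{u} := by
  intro F _ R i h2 hS a b c d hB
  classical
  have hi : i * i = -1 := hS.isq
  -- the scalar `i`
  obtain ⟨ι, hι⟩ : ∃ ι : G4 F, (ι : M4 F) = i • (1 : M4 F) :=
    ⟨⟨i • 1, (-i) • 1,
      by rw [smul_mul_smul_comm, mul_one, mul_neg, hi, neg_neg, one_smul],
      by rw [smul_mul_smul_comm, mul_one, neg_mul, hi, neg_neg, one_smul]⟩, rfl⟩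
  have hιR : ι ∈ R := hS.imem ι hι
  have hu : ((ι * a : G4 F) : M4 F) = i • (a : M4 F) := by
    rw [Units.val_mul, hι, smul_mul_assoc, one_mul]
  have hv : ((ι * b : G4 F) : M4 F) = i • (b : M4 F) := by
    rw [Units.val_mul, hι, smul_mul_assoc, one_mul]
  have hba : (b : M4 F) * (a : M4 F) = -((a : M4 F) * (b : M4 F)) := by
    rw [hB.ab, neg_neg]
  have huu : ((ι * a : G4 F) : M4 F) * ((ι * a : G4 F) : M4 F) = -1 := by
    rw [hu, smul_mul_smul_comm, hB.aa, hi, neg_smul, one_smul]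
  have hvv : ((ι * b : G4 F) : M4 F) * ((ι * b : G4 F) : M4 F) = -1 := by
    rw [hv, smul_mul_smul_comm, hB.bb, hi, neg_smul, one_smul]
  have huv0 : ((ι * a : G4 F) : M4 F) * ((ι * b : G4 F) : M4 F) =
      -((a : M4 F) * (b : M4 F)) := by
    rw [hu, hv, smul_mul_smul_comm, hi, neg_smul, one_smul]
  have huv : ((ι * a : G4 F) : M4 F) * ((ι * b : G4 F) : M4 F) =
      -(((ι * b : G4 F) : M4 F) * ((ι * a : G4 F) : M4 F)) := by
    rw [huv0, hv, hu, smul_mul_smul_comm, hi, neg_smul, one_smul, hba, neg_neg]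
  obtain ⟨y, hyN, hy, hy3⟩ := hq3 F R i h2 hS (ι * a) (R.mul_mem hιR hB.ha) (ι * b)
    (R.mul_mem hιR hB.hb) huu hvv huv
  refine ⟨y, hyN, hy3, ?_⟩
  -- traces
  have ha0 : (a : M4 F) ≠ 0 := by
    intro h
    have h1 := hB.aa
    rw [h, zero_mul] at h1
    exact zero_ne_one h1
  have hb0 : (b : M4 F) ≠ 0 := by
    intro h
    have h1 := hB.bb
    rw [h, zero_mul] at h1
    exact zero_ne_one h1
  have hab1 : ((a : M4 F) * (b : M4 F)) * ((b : M4 F) * (a : M4 F)) = 1 := by
    rw [Matrix.mul_assoc, ← Matrix.mul_assoc (b : M4 F), hB.bb, Matrix.one_mul, hB.aa]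
  have hab0 : (a : M4 F) * (b : M4 F) ≠ 0 := by
    intro h
    rw [h, zero_mul] at hab1
    exact zero_ne_one hab1
  have htra : Matrix.trace (a : M4 F) = 0 :=
    htr F R i h2 hS a hB.ha (fun k => not_scalar_of_anticomm h2 _ _ hB.ab hB.bb ha0 _)
  have htrb : Matrix.trace (b : M4 F) = 0 :=
    htr F R i h2 hS b hB.hb (fun k => not_scalar_of_anticomm h2 _ _ hba hB.aa hb0 _)
  have habR : ((a * b : G4 F) : M4 F) = (a : M4 F) * (b : M4 F) := Units.val_mul a b
  have htrab : Matrix.trace ((a : M4 F) * (b : M4 F)) = 0 := by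
    have h1 : ((a : M4 F) * (b : M4 F)) * (a : M4 F) =
        -((a : M4 F) * ((a : M4 F) * (b : M4 F))) := by
      rw [Matrix.mul_assoc, hba, mul_neg]
    have h2' := htr F R i h2 hS (a * b) (R.mul_mem hB.ha hB.hb)
      (fun k => by rw [habR]; exact not_scalar_of_anticomm h2 _ _ h1 hB.aa hab0 _)
    rw [habR] at h2'
    exact h2'
  rw [hy, huv0, hu, hv, Matrix.trace_smul, Matrix.trace_add, Matrix.trace_add, Matrix.trace_add,
    Matrix.trace_neg, Matrix.trace_neg, Matrix.trace_smul, Matrix.trace_smul, htra, htrb, htrab,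
    Matrix.trace_one]
  simp only [Fintype.card_fin, smul_eq_mul, mul_zero, add_zero, neg_zero, Nat.cast_ofNat]
  rw [show (4 : F) = 2 * 2 by norm_num, mul_neg, ← mul_assoc, inv_mul_cancel₀ h2, one_mul]

example (hq3 : StQ3.{u}) (htr : StTr0.{u}) : StOrd3A.{u} := ord3A hq3 htr

end Cfsg.Agent.H11.S4

#print axioms Cfsg.Agent.H11.S4.ord3A
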