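import Mathlib
import Cfsg.Agent.H99.S4Defs
import Cfsg.Agent.H11.S4Ord3A

/-!
# S6000, piece ORD3B: an element of order three and trace `1` in the normaliser
-/

set_option autoImplicit false

namespace Cfsg.Agent.H11.S4

open Cfsg.Agent.H99.S4 Matrix

universe u

theorem ord3B (hq3 : StQ3.{u}) (htr : StTr0.{u}) : StOrd3B.{u} := by
  intro F _ R i h2 hS a b c d hB
  classical
  have hi : i * i = -1 := hS.isq
  obtain ⟨ι, hι⟩ : ∃ ι : G4 F, (ι : M4 F) = i • (1 : M4 F) :=
    ⟨⟨i • 1, (-i) • 1,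
      by rw [smul_mul_smul_comm, mul_one, mul_neg, hi, neg_neg, one_smul],
      by rw [smul_mul_smul_comm, mul_one, neg_mul, hi, neg_neg, one_smul]⟩, rfl⟩
  have hιR : ι ∈ R := hS.imem ι hι
  have hcoe : ∀ x : G4 F, ((ι * x : G4 F) : M4 F) = i • (x : M4 F) := by
    intro x
    rw [Units.val_mul, hι, smul_mul_assoc, one_mul]
  -- the relations, as rewrite rules sorting words in `a, b, c, d`
  obtain ⟨A, hA⟩ : ∃ A : M4 F, A = (a : M4 F) := ⟨_, rfl⟩
  obtain ⟨B, hB'⟩ : ∃ B : M4 F, B = (b : M4 F) := ⟨_, rfl⟩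
  obtain ⟨C, hC⟩ : ∃ C : M4 F, C = (c : M4 F) := ⟨_, rfl⟩
  obtain ⟨D, hD⟩ : ∃ D : M4 F, D = (d : M4 F) := ⟨_, rfl⟩
  have r_aa : A * A = 1 := by rw [hA]; exact hB.aa
  have r_bb : B * B = 1 := by rw [hB']; exact hB.bb
  have r_cc : C * C = 1 := by rw [hC]; exact hB.cc
  have r_dd : D * D = 1 := by rw [hD]; exact hB.dd
  have r_ab : A * B = -(B * A) := by rw [hA, hB']; exact hB.ab
  have r_ba : B * A = -(A * B) := by rw [r_ab, neg_neg]
  have r_cd : C * D = -(D * C) := by rw [hC, hD]; exact hB.cd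
  have r_dc : D * C = -(C * D) := by rw [r_cd, neg_neg]
  have r_ca : C * A = A * C := by rw [hA, hC]; exact hB.ac.symm
  have r_da : D * A = A * D := by rw [hA, hD]; exact hB.ad.symm
  have r_cb : C * B = B * C := by rw [hB', hC]; exact hB.bc.symm
  have r_db : D * B = B * D := by rw [hB', hD]; exact hB.bd.symm
  have r_aa' : ∀ X : M4 F, A * (A * X) = X := fun X => by rw [← Matrix.mul_assoc, r_aa, Matrix.one_mul]
  have r_bb' : ∀ X : M4 F, B * (B * X) = X := fun X => by rw [← Matrix.mul_assoc, r_bb, Matrix.one_mul]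
  have r_cc' : ∀ X : M4 F, C * (C * X) = X := fun X => by rw [← Matrix.mul_assoc, r_cc, Matrix.one_mul]
  have r_dd' : ∀ X : M4 F, D * (D * X) = X := fun X => by rw [← Matrix.mul_assoc, r_dd, Matrix.one_mul]
  have r_ba' : ∀ X : M4 F, B * (A * X) = -(A * (B * X)) := fun X => by
    rw [← Matrix.mul_assoc, r_ba, neg_mul, Matrix.mul_assoc]
  have r_dc' : ∀ X : M4 F, D * (C * X) = -(C * (D * X)) := fun X => by
    rw [← Matrix.mul_assoc, r_dc, neg_mul, Matrix.mul_assoc]
  have r_ca' : ∀ X : M4 F, C * (A * X) = A * (C * X) := fun X => by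
    rw [← Matrix.mul_assoc, r_ca, Matrix.mul_assoc]
  have r_da' : ∀ X : M4 F, D * (A * X) = A * (D * X) := fun X => by
    rw [← Matrix.mul_assoc, r_da, Matrix.mul_assoc]
  have r_cb' : ∀ X : M4 F, C * (B * X) = B * (C * X) := fun X => by
    rw [← Matrix.mul_assoc, r_cb, Matrix.mul_assoc]
  have r_db' : ∀ X : M4 F, D * (B * X) = B * (D * X) := fun X => by
    rw [← Matrix.mul_assoc, r_db, Matrix.mul_assoc]
  -- the two elements of order three
  have huu : ∀ x : G4 F, (x : M4 F) * (x : M4 F) = 1 →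
      ((ι * x : G4 F) : M4 F) * ((ι * x : G4 F) : M4 F) = -1 := by
    intro x hx
    rw [hcoe, smul_mul_smul_comm, hx, hi, neg_smul, one_smul]
  have huv : ∀ x y : G4 F, (x : M4 F) * (y : M4 F) = -((y : M4 F) * (x : M4 F)) →
      ((ι * x : G4 F) : M4 F) * ((ι * y : G4 F) : M4 F) =
        -(((ι * y : G4 F) : M4 F) * ((ι * x : G4 F) : M4 F)) := by
    intro x y hxy
    rw [hcoe, hcoe, smul_mul_smul_comm, smul_mul_smul_comm, hxy, smul_neg]
  obtain ⟨y₁, hy₁N, hy₁, hy₁3⟩ := hq3 F R i h2 hS (ι * a) (R.mul_mem hιR hB.ha) (ι * b)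
    (R.mul_mem hιR hB.hb) (huu a hB.aa) (huu b hB.bb) (huv a b hB.ab)
  obtain ⟨y₂, hy₂N, hy₂, hy₂3⟩ := hq3 F R i h2 hS (ι * c) (R.mul_mem hιR hB.hc) (ι * d)
    (R.mul_mem hιR hB.hd) (huu c hB.cc) (huu d hB.dd) (huv c d hB.cd)
  rw [hcoe, hcoe, ← hA, ← hB'] at hy₁
  rw [hcoe, hcoe, ← hC, ← hD] at hy₂
  have hcomm : Commute (y₁ : M4 F) (y₂ : M4 F) := by
    have hac : Commute A C := r_ca.symm
    have had : Commute A D := r_da.symm
    have hbc : Commute B C := r_cb.symm
    have hbd : Commute B D := r_db.symm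
    have key : ∀ X : M4 F, Commute X C → Commute X D →
        Commute X ((2 : F)⁻¹ • (-1 + i • C + i • D + i • C * i • D)) := by
      intro X h1 h2
      exact ((((Commute.one_right X).neg_right.add_right (h1.smul_right i)).add_right
        (h2.smul_right i)).add_right ((h1.smul_right i).mul_right (h2.smul_right i))).smul_right _
    rw [hy₁, hy₂]
    have k1 := key A hac had
    have k2 := key B hbc hbd
    exact ((((Commute.one_left _).neg_left.add_left (k1.smul_left i)).add_left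
      (k2.smul_left i)).add_left ((k1.smul_left i).mul_left (k2.smul_left i))).smul_left _
  refine ⟨y₁ * y₂, Subgroup.mul_mem _ hy₁N hy₂N, ?_, ?_⟩
  · rw [Units.val_mul, hcomm.mul_pow, hy₁3, hy₂3, one_mul]
  · -- the trace
    have tr0 : ∀ (x : G4 F), x ∈ R → ∀ s : M4 F, s * s = 1 →
        (x : M4 F) * s = -(s * (x : M4 F)) → Matrix.trace (x : M4 F) = 0 := by
      intro x hx s hs hxs
      exact htr F R i h2 hS x hx
        (fun k => not_scalar_of_anticomm h2 _ _ hxs hs x.ne_zero _)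
    have t_a : Matrix.trace (A) = 0 := by
      have h := tr0 (a) (hB.ha) B r_bb
      rw [← hA] at h
      apply h
      simp only [Matrix.mul_assoc, r_ba, r_ba', r_ca, r_ca', r_da, r_da', r_cb, r_cb', r_db, r_db',
        r_dc, r_dc', r_aa, r_aa', r_bb, r_bb', r_cc, r_cc', r_dd, r_dd', mul_neg, neg_mul, neg_neg,
        mul_one, one_mul]
    have t_b : Matrix.trace (B) = 0 := by
      have h := tr0 (b) (hB.hb) A r_aa
      rw [← hB'] at h
      apply h
      simp only [Matrix.mul_assoc, r_ba, r_ba', r_ca, r_ca', r_da, r_da', r_cb, r_cb', r_db, r_db',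
        r_dc, r_dc', r_aa, r_aa', r_bb, r_bb', r_cc, r_cc', r_dd, r_dd', mul_neg, neg_mul, neg_neg,
        mul_one, one_mul]
    have t_ab : Matrix.trace (A * B) = 0 := by
      have h := tr0 (a * b) (R.mul_mem hB.ha hB.hb) A r_aa
      rw [Units.val_mul, ← hA, ← hB'] at h
      apply h
      simp only [Matrix.mul_assoc, r_ba, r_ba', r_ca, r_ca', r_da, r_da', r_cb, r_cb', r_db, r_db',
        r_dc, r_dc', r_aa, r_aa', r_bb, r_bb', r_cc, r_cc', r_dd, r_dd', mul_neg, neg_mul, neg_neg,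
        mul_one, one_mul]
    have t_c : Matrix.trace (C) = 0 := by
      have h := tr0 (c) (hB.hc) D r_dd
      rw [← hC] at h
      apply h
      simp only [Matrix.mul_assoc, r_ba, r_ba', r_ca, r_ca', r_da, r_da', r_cb, r_cb', r_db, r_db',
        r_dc, r_dc', r_aa, r_aa', r_bb, r_bb', r_cc, r_cc', r_dd, r_dd', mul_neg, neg_mul, neg_neg,
        mul_one, one_mul]
    have t_d : Matrix.trace (D) = 0 := by
      have h := tr0 (d) (hB.hd) C r_cc
      rw [← hD] at h
      apply h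
      simp only [Matrix.mul_assoc, r_ba, r_ba', r_ca, r_ca', r_da, r_da', r_cb, r_cb', r_db, r_db',
        r_dc, r_dc', r_aa, r_aa', r_bb, r_bb', r_cc, r_cc', r_dd, r_dd', mul_neg, neg_mul, neg_neg,
        mul_one, one_mul]
    have t_cd : Matrix.trace (C * D) = 0 := by
      have h := tr0 (c * d) (R.mul_mem hB.hc hB.hd) C r_cc
      rw [Units.val_mul, ← hC, ← hD] at h
      apply h
      simp only [Matrix.mul_assoc, r_ba, r_ba', r_ca, r_ca', r_da, r_da', r_cb, r_cb', r_db, r_db',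
        r_dc, r_dc', r_aa, r_aa', r_bb, r_bb', r_cc, r_cc', r_dd, r_dd', mul_neg, neg_mul, neg_neg,
        mul_one, one_mul]
    have t_ac : Matrix.trace (A * C) = 0 := by
      have h := tr0 (a * c) (R.mul_mem hB.ha hB.hc) B r_bb
      rw [Units.val_mul, ← hA, ← hC] at h
      apply h
      simp only [Matrix.mul_assoc, r_ba, r_ba', r_ca, r_ca', r_da, r_da', r_cb, r_cb', r_db, r_db',
        r_dc, r_dc', r_aa, r_aa', r_bb, r_bb', r_cc, r_cc', r_dd, r_dd', mul_neg, neg_mul, neg_neg,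
        mul_one, one_mul]
    have t_ad : Matrix.trace (A * D) = 0 := by
      have h := tr0 (a * d) (R.mul_mem hB.ha hB.hd) B r_bb
      rw [Units.val_mul, ← hA, ← hD] at h
      apply h
      simp only [Matrix.mul_assoc, r_ba, r_ba', r_ca, r_ca', r_da, r_da', r_cb, r_cb', r_db, r_db',
        r_dc, r_dc', r_aa, r_aa', r_bb, r_bb', r_cc, r_cc', r_dd, r_dd', mul_neg, neg_mul, neg_neg,
        mul_one, one_mul]
    have t_acd : Matrix.trace (A * (C * D)) = 0 := by
      have h := tr0 (a * (c * d)) (R.mul_mem hB.ha (R.mul_mem hB.hc hB.hd)) B r_bb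
      rw [Units.val_mul, Units.val_mul, ← hA, ← hC, ← hD] at h
      apply h
      simp only [Matrix.mul_assoc, r_ba, r_ba', r_ca, r_ca', r_da, r_da', r_cb, r_cb', r_db, r_db',
        r_dc, r_dc', r_aa, r_aa', r_bb, r_bb', r_cc, r_cc', r_dd, r_dd', mul_neg, neg_mul, neg_neg,
        mul_one, one_mul]
    have t_bc : Matrix.trace (B * C) = 0 := by
      have h := tr0 (b * c) (R.mul_mem hB.hb hB.hc) A r_aa
      rw [Units.val_mul, ← hB', ← hC] at h
      apply h
      simp only [Matrix.mul_assoc, r_ba, r_ba', r_ca, r_ca', r_da, r_da', r_cb, r_cb', r_db, r_db',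
        r_dc, r_dc', r_aa, r_aa', r_bb, r_bb', r_cc, r_cc', r_dd, r_dd', mul_neg, neg_mul, neg_neg,
        mul_one, one_mul]
    have t_bd : Matrix.trace (B * D) = 0 := by
      have h := tr0 (b * d) (R.mul_mem hB.hb hB.hd) A r_aa
      rw [Units.val_mul, ← hB', ← hD] at h
      apply h
      simp only [Matrix.mul_assoc, r_ba, r_ba', r_ca, r_ca', r_da, r_da', r_cb, r_cb', r_db, r_db',
        r_dc, r_dc', r_aa, r_aa', r_bb, r_bb', r_cc, r_cc', r_dd, r_dd', mul_neg, neg_mul, neg_neg,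
        mul_one, one_mul]
    have t_bcd : Matrix.trace (B * (C * D)) = 0 := by
      have h := tr0 (b * (c * d)) (R.mul_mem hB.hb (R.mul_mem hB.hc hB.hd)) A r_aa
      rw [Units.val_mul, Units.val_mul, ← hB', ← hC, ← hD] at h
      apply h
      simp only [Matrix.mul_assoc, r_ba, r_ba', r_ca, r_ca', r_da, r_da', r_cb, r_cb', r_db, r_db',
        r_dc, r_dc', r_aa, r_aa', r_bb, r_bb', r_cc, r_cc', r_dd, r_dd', mul_neg, neg_mul, neg_neg,
        mul_one, one_mul]
    have t_abc : Matrix.trace (A * B * C) = 0 := by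
      have h := tr0 (a * b * c) (R.mul_mem (R.mul_mem hB.ha hB.hb) hB.hc) A r_aa
      rw [Units.val_mul, Units.val_mul, ← hA, ← hB', ← hC] at h
      apply h
      simp only [Matrix.mul_assoc, r_ba, r_ba', r_ca, r_ca', r_da, r_da', r_cb, r_cb', r_db, r_db',
        r_dc, r_dc', r_aa, r_aa', r_bb, r_bb', r_cc, r_cc', r_dd, r_dd', mul_neg, neg_mul, neg_neg,
        mul_one, one_mul]
    have t_abd : Matrix.trace (A * B * D) = 0 := by
      have h := tr0 (a * b * d) (R.mul_mem (R.mul_mem hB.ha hB.hb) hB.hd) A r_aa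
      rw [Units.val_mul, Units.val_mul, ← hA, ← hB', ← hD] at h
      apply h
      simp only [Matrix.mul_assoc, r_ba, r_ba', r_ca, r_ca', r_da, r_da', r_cb, r_cb', r_db, r_db',
        r_dc, r_dc', r_aa, r_aa', r_bb, r_bb', r_cc, r_cc', r_dd, r_dd', mul_neg, neg_mul, neg_neg,
        mul_one, one_mul]
    have t_abcd : Matrix.trace (A * B * (C * D)) = 0 := by
      have h := tr0 (a * b * (c * d)) (R.mul_mem (R.mul_mem hB.ha hB.hb) (R.mul_mem hB.hc hB.hd)) A r_aa
      rw [Units.val_mul, Units.val_mul, Units.val_mul, ← hA, ← hB', ← hC, ← hD] at h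
      apply h
      simp only [Matrix.mul_assoc, r_ba, r_ba', r_ca, r_ca', r_da, r_da', r_cb, r_cb', r_db, r_db',
        r_dc, r_dc', r_aa, r_aa', r_bb, r_bb', r_cc, r_cc', r_dd, r_dd', mul_neg, neg_mul, neg_neg,
        mul_one, one_mul]
    rw [Units.val_mul, hy₁, hy₂]
    simp only [mul_add, add_mul, mul_neg, neg_mul, mul_one, one_mul, smul_mul_assoc,
      mul_smul_comm, smul_add, smul_neg, smul_smul, neg_neg, Matrix.trace_add, Matrix.trace_neg,
      Matrix.trace_smul, t_a, t_b, t_ab, t_c, t_d, t_cd, t_ac, t_ad, t_acd, t_bc, t_bd, t_bcd,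
      t_abc, t_abd, t_abcd, smul_zero, add_zero, neg_zero, zero_add, Matrix.trace_one,
      Fintype.card_fin]
    have h4 : ((4 : ℕ) : F) = 2 * 2 := by norm_num
    rw [smul_eq_mul, h4, mul_assoc, ← mul_assoc (2 : F)⁻¹ 2 2, inv_mul_cancel₀ h2, one_mul,
      inv_mul_cancel₀ h2]

example (hq3 : StQ3.{u}) (htr : StTr0.{u}) : StOrd3B.{u} := ord3B hq3 htr

end Cfsg.Agent.H11.S4

#print axioms Cfsg.Agent.H11.S4.ord3B
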