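import Mathlib
import Cfsg.Agent.H99.S4Defs

/-!
# S6000, piece Q3: the element `(-1 + u + v + uv)/2` of order three in the normaliser
-/

set_option autoImplicit false

namespace Cfsg.Agent.H11.S4

open Cfsg.Agent.H99.S4 Matrix

universe u

/-- Quaternion relations: `((1 + u)(1 + v))² = 2(-1 + u + v + uv)` and
`(-1 + u + v + uv)³ = 8`. -/
theorem quat_rel {A : Type*} [Ring A] (u v : A) (huu : u * u = -1) (hvv : v * v = -1)
    (huv : u * v = -(v * u)) :
    ((1 + u) * (1 + v)) ^ 2 = (-1 + u + v + u * v) + (-1 + u + v + u * v) ∧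
      (-1 + u + v + u * v) ^ 3 = 1 + 1 + 1 + 1 + 1 + 1 + 1 + 1 := by
  obtain ⟨w, hw⟩ : ∃ w : A, w = u * v := ⟨_, rfl⟩
  have hvu : v * u = -w := by rw [hw, huv, neg_neg]
  have huw : u * w = -v := by rw [hw, ← mul_assoc, huu, neg_mul, one_mul]
  have hvw : v * w = u := by
    rw [hw, ← mul_assoc, hvu, hw, neg_mul, mul_assoc, hvv, mul_neg, mul_one, neg_neg]
  have hwu : w * u = v := by
    rw [hw, mul_assoc, hvu, hw, mul_neg, ← mul_assoc, huu, neg_mul, one_mul, neg_neg]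
  have hwv : w * v = -u := by rw [hw, mul_assoc, hvv, mul_neg, mul_one]
  have hww : w * w = -1 := by
    have h1 : w * w = w * u * v := by rw [mul_assoc, ← hw]
    rw [h1, hwu, hvv]
  rw [← hw]
  have e1 : (1 + u) * (1 + v) = 1 + u + v + w := by
    simp only [mul_add, add_mul, mul_one, one_mul, ← hw]
    abel
  constructor
  · rw [e1, pow_two]
    simp only [mul_add, add_mul, mul_one, one_mul, huu, hvv, ← hw, hvu, huw, hvw, hwu, hwv, hww,
      mul_neg, neg_mul, neg_neg]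
    abel
  · have ht2 : (-1 + u + v + w) * (-1 + u + v + w) = -(1 + u + v + w) - (1 + u + v + w) := by
      simp only [mul_add, add_mul, mul_one, one_mul, huu, hvv, ← hw, hvu, huw, hvw, hwu, hwv, hww,
        mul_neg, neg_mul, neg_neg]
      abel
    rw [pow_succ, pow_two, ht2]
    simp only [mul_add, add_mul, sub_mul, mul_one, one_mul, huu, hvv, ← hw, hvu, huw, hvw, hwu,
      hwv, hww, mul_neg, neg_mul, neg_neg]
    abel

theorem q3 (hrot : StRot.{u}) : StQ3.{u} := by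
  intro F _ R i h2 hS u hu v hv huu hvv huv
  classical
  obtain ⟨gu, hgu, hguN, -, -⟩ := hrot F R i h2 hS u hu huu
  obtain ⟨gv, hgv, hgvN, -, -⟩ := hrot F R i h2 hS v hv hvv
  have h4 : (4 : F) ≠ 0 := by
    have h : (4 : F) = 2 * 2 := by norm_num
    rw [h]; exact mul_ne_zero h2 h2
  obtain ⟨z, hz⟩ : ∃ z : G4 F, (z : M4 F) = (4 : F)⁻¹ • (1 : M4 F) :=
    ⟨⟨(4 : F)⁻¹ • 1, (4 : F) • 1,
      by rw [smul_mul_smul_comm, mul_one, inv_mul_cancel₀ h4, one_smul],
      by rw [smul_mul_smul_comm, mul_one, mul_inv_cancel₀ h4, one_smul]⟩, rfl⟩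
  have hzN : z ∈ Cfsg.Geo.subgroupNormalizer R := by
    unfold Cfsg.Geo.subgroupNormalizer
    rw [Subgroup.mem_normalizer_iff]
    intro h
    have h1 : z * h * z⁻¹ = h := by
      rw [mul_inv_eq_iff_eq_mul]
      apply Units.ext
      rw [Units.val_mul, Units.val_mul, hz, smul_mul_assoc, one_mul, mul_smul_comm, mul_one]
    rw [h1]
  obtain ⟨hq1, hq2⟩ := quat_rel (u : M4 F) (v : M4 F) huu hvv huv
  have hy : ((z * (gu * gv) ^ 2 : G4 F) : M4 F) =
      (2 : F)⁻¹ • (-1 + (u : M4 F) + (v : M4 F) + (u : M4 F) * (v : M4 F)) := by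
    rw [Units.val_mul, Units.val_pow_eq_pow_val, Units.val_mul, hz, hgu, hgv, hq1, smul_mul_assoc,
      one_mul, ← two_smul F, smul_smul]
    have h5 : (4 : F)⁻¹ * 2 = 2⁻¹ := by
      rw [show (4 : F) = 2 * 2 by norm_num, mul_inv, mul_assoc, inv_mul_cancel₀ h2, mul_one]
    rw [h5]
  refine ⟨z * (gu * gv) ^ 2, ?_, hy, ?_⟩
  · exact Subgroup.mul_mem _ hzN (Subgroup.pow_mem _ (Subgroup.mul_mem _ hguN hgvN) 2)
  · rw [hy, smul_pow, hq2]
    have h8 : (1 : M4 F) + 1 + 1 + 1 + 1 + 1 + 1 + 1 = (8 : F) • (1 : M4 F) := by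
      rw [show (8 : F) = 1 + 1 + 1 + 1 + 1 + 1 + 1 + 1 by norm_num]
      simp only [add_smul, one_smul]
    rw [h8, smul_smul]
    have h9 : ((2 : F)⁻¹) ^ 3 * 8 = 1 := by
      rw [show (8 : F) = 2 ^ 3 by norm_num, ← mul_pow, inv_mul_cancel₀ h2, one_pow]
    rw [h9, one_smul]

example (hrot : StRot.{u}) : StQ3.{u} := q3 hrot

end Cfsg.Agent.H11.S4

#print axioms Cfsg.Agent.H11.S4.q3
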