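import Mathlib
import Cfsg.Agent.H99.S4Defs
import Cfsg.Agent.H99.Heis

/-!
# S6000, piece ROT: `1 + e` normalises `R` for `e ∈ R` of square `-1`
-/

set_option autoImplicit false

namespace Cfsg.Agent.H11.S4

open Cfsg.Agent.H99.S4 Matrix

universe u

theorem rotS : StRot.{u} := by
  intro F _ R i h2 hS e he hee
  classical
  have hinv1 : (1 + (e : M4 F)) * ((2 : F)⁻¹ • (1 - (e : M4 F))) = 1 := by
    rw [Matrix.mul_smul, mul_sub, mul_one, add_mul, one_mul, hee]
    have h3 : (1 : M4 F) + (e : M4 F) - ((e : M4 F) + -1) = (2 : F) • (1 : M4 F) := by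
      rw [two_smul]
      abel
    rw [h3, smul_smul, inv_mul_cancel₀ h2, one_smul]
  have hinv2 : ((2 : F)⁻¹ • (1 - (e : M4 F))) * (1 + (e : M4 F)) = 1 := by
    rw [Matrix.smul_mul, sub_mul, one_mul, mul_add, mul_one, hee]
    have h3 : (1 : M4 F) + (e : M4 F) - ((e : M4 F) + -1) = (2 : F) • (1 : M4 F) := by
      rw [two_smul]
      abel
    rw [h3, smul_smul, inv_mul_cancel₀ h2, one_smul]
  obtain ⟨g, hg⟩ : ∃ g : G4 F, (g : M4 F) = 1 + (e : M4 F) :=
    ⟨⟨1 + (e : M4 F), (2 : F)⁻¹ • (1 - (e : M4 F)), hinv1, hinv2⟩, rfl⟩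
  have hc1 : ∀ h : G4 F, (e : M4 F) * (h : M4 F) = (h : M4 F) * (e : M4 F) →
      g * h * g⁻¹ = h := by
    intro h h1
    rw [mul_inv_eq_iff_eq_mul]
    apply Units.ext
    rw [Units.val_mul, Units.val_mul, hg, add_mul, one_mul, mul_add, mul_one, h1]
  have hc2 : ∀ h : G4 F, (e : M4 F) * (h : M4 F) = -((h : M4 F) * (e : M4 F)) →
      g * h * g⁻¹ = e * h := by
    intro h h1
    rw [mul_inv_eq_iff_eq_mul]
    apply Units.ext
    have h3 : (e : M4 F) * (h : M4 F) * (e : M4 F) = (h : M4 F) := by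
      rw [h1, neg_mul, Matrix.mul_assoc, hee, mul_neg, mul_one, neg_neg]
    rw [Units.val_mul, Units.val_mul, Units.val_mul, hg, add_mul, one_mul, mul_add, mul_one, h3,
      add_comm]
  haveI : Finite R := Nat.finite_of_card_ne_zero (by rw [hS.card]; norm_num)
  refine ⟨g, hg, ?_, fun h _ h1 => hc1 h h1, fun h _ h1 => hc2 h h1⟩
  unfold Cfsg.Geo.subgroupNormalizer
  apply Cfsg.Agent.H99.mem_normalizer_of_finite
  intro h hh
  rcases hS.comm e he h hh with h1 | h1
  · rw [hc1 h h1]; exact hh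
  · rw [hc2 h h1]; exact R.mul_mem he hh

example : StRot.{u} := rotS

end Cfsg.Agent.H11.S4

#print axioms Cfsg.Agent.H11.S4.rotS
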