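import Mathlib
import Cfsg.Agent.H91.SMDefs
import Cfsg.Agent.H85.StLin

/-!
# helper11: piece C4H of S2086 (helper91's project)

`Comm ρ` for a central extension `ρ : E → SL_4(K)` in characteristic `≠ 2`
(Hall–Witt type identity and a permutation matrix).
-/

set_option autoImplicit false
set_option linter.unusedSectionVars false
set_option linter.unusedVariables false

namespace Cfsg.Agent.H11.SM

open Matrix Subgroup Cfsg.Agent.H91.SM
open scoped commutatorElement

universe u v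

section Gen

variable {E : Type*} [Group E] {G : Type*} [Group G] (ρ : E →* G)

theorem conj_mul_central {z : E} (hz : z ∈ center E) (u x : E) :
    (u * z) * x * (u * z)⁻¹ = u * x * u⁻¹ := by
  rw [mem_center_iff] at hz
  have h : z * x = x * z := (hz x).symm
  calc (u * z) * x * (u * z)⁻¹ = u * (z * x) * z⁻¹ * u⁻¹ := by group
    _ = u * (x * z) * z⁻¹ * u⁻¹ := by rw [h]
    _ = u * x * u⁻¹ := by group

theorem conj_central {z : E} (hz : z ∈ center E) (g : E) : g * z * g⁻¹ = z := by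
  rw [mem_center_iff] at hz
  rw [hz g]; group

theorem lift_eq (hker : ρ.ker ≤ center E) {u u' : E} (h : ρ u = ρ u') :
    ∃ z ∈ center E, u' = u * z := by
  refine ⟨u⁻¹ * u', hker ?_, by group⟩
  rw [MonoidHom.mem_ker, map_mul, map_inv, h, inv_mul_cancel]

theorem comm_lift_left (hker : ρ.ker ≤ center E) {u u' : E} (w : E) (hu : ρ u = ρ u') :
    ⁅u, w⁆ = ⁅u', w⁆ := by
  obtain ⟨z, hz, rfl⟩ := lift_eq ρ hker hu
  rw [commutatorElement_def, commutatorElement_def, conj_mul_central hz]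

theorem comm_lift (hker : ρ.ker ≤ center E) {u u' v v' : E} (hu : ρ u = ρ u')
    (hv : ρ v = ρ v') : ⁅u, v⁆ = ⁅u', v'⁆ := by
  rw [comm_lift_left ρ hker v hu, ← commutatorElement_inv v u', ← commutatorElement_inv v' u',
    comm_lift_left ρ hker u' hv]

theorem comm_central (hker : ρ.ker ≤ center E) {u v : E} (h : ρ u * ρ v = ρ v * ρ u) :
    ⁅u, v⁆ ∈ center E := by
  apply hker
  rw [MonoidHom.mem_ker, map_commutatorElement, commutatorElement_eq_one_iff_mul_comm]
  exact h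

theorem comm_mul_right (u v w : E) : ⁅u, v * w⁆ = ⁅u, v⁆ * (v * ⁅u, w⁆ * v⁻¹) := by
  simp only [commutatorElement_def]; group

end Gen

/-- A permutation matrix of an even permutation, as an element of `SL_n(K)`. -/
noncomputable def pm {n : ℕ} (K : Type*) [Field K] (σ : Equiv.Perm (Fin n))
    (hσ : Equiv.Perm.sign σ = 1) : SLn n K :=
  ⟨σ.permMatrix K, by rw [Matrix.det_permutation, hσ]; simp⟩

theorem pm_tv {n : ℕ} {K : Type*} [Field K] (σ : Equiv.Perm (Fin n))
    (hσ : Equiv.Perm.sign σ = 1) {i j k l : Fin n} (hij : i ≠ j) (hkl : k ≠ l)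
    (hk : σ k = i) (hl : σ l = j) (s : K) :
    pm K σ hσ * tv hij s = tv hkl s * pm K σ hσ := by
  apply Subtype.ext
  show σ.permMatrix K * (1 + single i j s) = (1 + single k l s) * σ.permMatrix K
  rw [mul_add, add_mul, mul_one, one_mul]
  congr 1
  unfold Equiv.Perm.permMatrix
  rw [PEquiv.toMatrix_toPEquiv_mul, PEquiv.mul_toMatrix_toPEquiv]
  ext x y
  simp only [Matrix.submatrix_apply, id, Matrix.single_apply]
  subst hk hl
  simp [Equiv.eq_symm_apply]

theorem ex3 : ∀ i j l : Fin 4, ∃ h : Fin 4, h ≠ i ∧ h ≠ j ∧ h ≠ l := by decide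

section C4

variable {K : Type u} [Field K] {E : Type v} [Group E] (ρ : E →* SLn 4 K)
  (hs : Function.Surjective ρ) (hker : ρ.ker ≤ center E)

/-- The pairing `(s, t) ↦ [lift x_ij(s), lift x_kl(t)]`. -/
noncomputable def cc {i j k l : Fin 4} (hij : i ≠ j) (hkl : k ≠ l) (s t : K) : E :=
  ⁅Function.surjInv hs (tv hij s), Function.surjInv hs (tv hkl t)⁆

include hker in
theorem cc_eq {i j k l : Fin 4} (hij : i ≠ j) (hkl : k ≠ l) (s t : K) {u v : E}
    (hu : ρ u = tv hij s) (hv : ρ v = tv hkl t) : ⁅u, v⁆ = cc ρ hs hij hkl s t :=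
  comm_lift ρ hker (hu.trans (Function.surjInv_eq hs _).symm)
    (hv.trans (Function.surjInv_eq hs _).symm)

include hker in
theorem cc_central {i j k l : Fin 4} (hij : i ≠ j) (hkl : k ≠ l) (hil : i ≠ l) (hjk : j ≠ k)
    (s t : K) : cc ρ hs hij hkl s t ∈ center E := by
  apply comm_central ρ hker
  rw [Function.surjInv_eq hs, Function.surjInv_eq hs]
  exact Cfsg.Agent.H85.StLin.tr_comm hij hkl hil hjk s t

include hker in
theorem cc_add {i j k l : Fin 4} (hij : i ≠ j) (hkl : k ≠ l) (hil : i ≠ l) (hjk : j ≠ k)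
    (s t t' : K) :
    cc ρ hs hij hkl s (t + t') = cc ρ hs hij hkl s t * cc ρ hs hij hkl s t' := by
  have hU : ρ (Function.surjInv hs (tv hij s)) = tv hij s := Function.surjInv_eq hs _
  have hV : ρ (Function.surjInv hs (tv hkl t)) = tv hkl t := Function.surjInv_eq hs _
  have hV' : ρ (Function.surjInv hs (tv hkl t')) = tv hkl t' := Function.surjInv_eq hs _
  have hVV' : ρ (Function.surjInv hs (tv hkl t) * Function.surjInv hs (tv hkl t')) =
      tv hkl (t + t') := by
    rw [map_mul, hV, hV']; exact Cfsg.Agent.H85.StLin.tr_mul hkl t t'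
  rw [← cc_eq ρ hs hker hij hkl s (t + t') hU hVV', comm_mul_right]
  have hc : cc ρ hs hij hkl s t' ∈ center E := cc_central ρ hs hker hij hkl hil hjk s t'
  rw [show ⁅Function.surjInv hs (tv hij s), Function.surjInv hs (tv hkl t')⁆ =
    cc ρ hs hij hkl s t' from rfl, conj_central hc]
  rfl

include hker in
theorem step1 (hF : FreeStmt.{u, v}) {i j k l : Fin 4} (hij : i ≠ j) (hkl : k ≠ l)
    (hil : i ≠ l) (hjk : j ≠ k) (hik : i ≠ k) (hjl : j ≠ l) (a b c : K) :
    cc ρ hs hij hkl a (b * c) = cc ρ hs hil (Ne.symm hjk) c (b * a) := by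
  have hki : k ≠ i := Ne.symm hik
  have hkj : k ≠ j := Ne.symm hjk
  obtain ⟨U, hU⟩ := hs (tv hij a)
  obtain ⟨V, hV⟩ := hs (tv hki b)
  obtain ⟨W, hW⟩ := hs (tv hil c)
  have hP : ρ ⁅V, U⁆ = tv hkj (b * a) := by
    rw [map_commutatorElement, hV, hU, commutatorElement_def, Cfsg.Agent.H85.StLin.tr_inv,
      Cfsg.Agent.H85.StLin.tr_inv]
    exact Cfsg.Agent.H45.transvection_comm_rel hki hij hkj b a
  have hQ : ρ ⁅V, W⁆ = tv hkl (b * c) := by
    rw [map_commutatorElement, hV, hW, commutatorElement_def, Cfsg.Agent.H85.StLin.tr_inv,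
      Cfsg.Agent.H85.StLin.tr_inv]
    exact Cfsg.Agent.H45.transvection_comm_rel hki hil hkl b c
  have hUW : U * W = W * U :=
    hF ρ hs hker i j i l k hij hil hil (Ne.symm hij) hki hkj hki hkl a c U W hU hW
  have hPQ : ⁅V, U⁆ * ⁅V, W⁆ = ⁅V, W⁆ * ⁅V, U⁆ :=
    hF ρ hs hker k j k l i hkj hkl hkl hjk hik hij hik hil (b * a) (b * c) _ _ hP hQ
  have e1 : ⁅U, ⁅V, W⁆⁆ = cc ρ hs hij hkl a (b * c) := cc_eq ρ hs hker hij hkl _ _ hU hQ
  have e2 : ⁅W, ⁅V, U⁆⁆ = cc ρ hs hil hkj c (b * a) := cc_eq ρ hs hker hil hkj _ _ hW hP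
  have c1 : ⁅U, ⁅V, W⁆⁆ ∈ center E := by
    rw [e1]; exact cc_central ρ hs hker hij hkl hil hjk _ _
  have c2 : ⁅W, ⁅V, U⁆⁆ ∈ center E := by
    rw [e2]; exact cc_central ρ hs hker hil hkj hij (Ne.symm hkl) _ _
  have i1 : ⁅V, U * W⁆ = ⁅V, U⁆ * ⁅U, ⁅V, W⁆⁆ * ⁅V, W⁆ := by
    simp only [commutatorElement_def]; group
  have i2 : ⁅V, W * U⁆ = ⁅V, W⁆ * ⁅W, ⁅V, U⁆⁆ * ⁅V, U⁆ := by
    simp only [commutatorElement_def]; group
  rw [← e1, ← e2]
  rw [hUW, i2] at i1
  rw [mem_center_iff] at c1 c2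
  rw [c2 ⁅V, W⁆, c1 ⁅V, U⁆, mul_assoc, mul_assoc, ← hPQ] at i1
  exact (mul_right_cancel i1).symm

include hker in
theorem step2 {i j k l : Fin 4} (hij : i ≠ j) (hkl : k ≠ l)
    (hil : i ≠ l) (hjk : j ≠ k) (hik : i ≠ k) (hjl : j ≠ l) (s t : K) :
    cc ρ hs hij hkl s t = (cc ρ hs hij hkl t s)⁻¹ := by
  have hσ : Equiv.Perm.sign (Equiv.swap i k * Equiv.swap j l) = 1 := by
    rw [Equiv.Perm.sign_mul, Equiv.Perm.sign_swap hik, Equiv.Perm.sign_swap hjl]; rfl
  have σk : (Equiv.swap i k * Equiv.swap j l) k = i := by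
    rw [Equiv.Perm.mul_apply, Equiv.swap_apply_of_ne_of_ne (Ne.symm hjk) hkl,
      Equiv.swap_apply_right]
  have σl : (Equiv.swap i k * Equiv.swap j l) l = j := by
    rw [Equiv.Perm.mul_apply, Equiv.swap_apply_right,
      Equiv.swap_apply_of_ne_of_ne (Ne.symm hij) hjk]
  have σi : (Equiv.swap i k * Equiv.swap j l) i = k := by
    rw [Equiv.Perm.mul_apply, Equiv.swap_apply_of_ne_of_ne hij hil,
      Equiv.swap_apply_left]
  have σj : (Equiv.swap i k * Equiv.swap j l) j = l := by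
    rw [Equiv.Perm.mul_apply, Equiv.swap_apply_left,
      Equiv.swap_apply_of_ne_of_ne (Ne.symm hil) (Ne.symm hkl)]
  have w1 := pm_tv (K := K) _ hσ hij hkl σk σl s
  have w2 := pm_tv (K := K) _ hσ hkl hij σi σj t
  obtain ⟨S, hS⟩ := hs (pm K _ hσ)
  have hU : ρ (Function.surjInv hs (tv hij s)) = tv hij s := Function.surjInv_eq hs _
  have hV : ρ (Function.surjInv hs (tv hkl t)) = tv hkl t := Function.surjInv_eq hs _
  have hU' : ρ (S * Function.surjInv hs (tv hij s) * S⁻¹) = tv hkl s := by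
    rw [map_mul, map_mul, map_inv, hS, hU, w1, mul_inv_cancel_right]
  have hV' : ρ (S * Function.surjInv hs (tv hkl t) * S⁻¹) = tv hij t := by
    rw [map_mul, map_mul, map_inv, hS, hV, w2, mul_inv_cancel_right]
  have e1 := cc_eq ρ hs hker hij hkl t s hV' hU'
  have c0 : cc ρ hs hij hkl s t ∈ center E := cc_central ρ hs hker hij hkl hil hjk s t
  have e2 : ⁅S * Function.surjInv hs (tv hij s) * S⁻¹, S * Function.surjInv hs (tv hkl t) * S⁻¹⁆ =
      S * cc ρ hs hij hkl s t * S⁻¹ := by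
    unfold cc
    simp only [commutatorElement_def]; group
  rw [← e1, commutatorElement_inv, e2, conj_central c0]

end C4

/-- Piece C4H of S2086. -/
theorem c4h (hF : FreeStmt.{u, v}) : C4HStmt.{u, v} := by
  intro K _ E _ ρ hs hker h2 i j k l hij hkl hil hjk a b u v hu hv
  by_cases hik : i = k
  · subst hik
    obtain ⟨h, h1, h2', h3⟩ := ex3 i j l
    exact hF ρ hs hker i j i l h hij hkl hil hjk h1 h2' h1 h3 a b u v hu hv
  by_cases hjl : j = l
  · subst hjl
    obtain ⟨h, h1, h2', h3⟩ := ex3 i j k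
    exact hF ρ hs hker i j k j h hij hkl hil hjk h1 h2' h3 h2' a b u v hu hv
  have F1 : ∀ a b c : K, cc ρ hs hij hkl a (b * c) = cc ρ hs hij hkl (b * a) c := by
    intro a b c
    rw [step1 ρ hs hker hF hij hkl hil hjk hik hjl a b c]
    have := step1 ρ hs hker hF hij hkl hil hjk hik hjl (b * a) 1 c
    rw [one_mul, one_mul] at this
    exact this.symm
  have F2 : ∀ s t : K, cc ρ hs hij hkl s t = cc ρ hs hij hkl 1 (s * t) := by
    intro s t
    have := F1 1 s t
    rw [mul_one] at this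
    exact this.symm
  have F3 : ∀ x : K, cc ρ hs hij hkl 1 x * cc ρ hs hij hkl 1 x = 1 := by
    intro x
    have h1 := step2 ρ hs hker hij hkl hil hjk hik hjl 1 x
    have h2 := F2 x 1
    rw [mul_one] at h2
    rw [h2] at h1
    have h3 : cc ρ hs hij hkl 1 x * cc ρ hs hij hkl 1 x =
        (cc ρ hs hij hkl 1 x)⁻¹ * cc ρ hs hij hkl 1 x := congrArg (· * cc ρ hs hij hkl 1 x) h1
    rw [h3, inv_mul_cancel]
  have F4 : ∀ x : K, cc ρ hs hij hkl 1 x = 1 := by
    intro x
    have hx : x = x / 2 + x / 2 := by field_simp; ring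
    rw [hx, cc_add ρ hs hker hij hkl hil hjk]
    exact F3 _
  have := cc_eq ρ hs hker hij hkl a b hu hv
  rw [F2, F4] at this
  exact commutatorElement_eq_one_iff_mul_comm.mp this

example (hF : FreeStmt.{u, v}) : C4HStmt.{u, v} := c4h hF

end Cfsg.Agent.H11.SM

#print axioms Cfsg.Agent.H11.SM.c4h
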