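import Cfsg.Agent.S0617
import Cfsg.Agent.H14.TFail
import Cfsg.Agent.H90.SgDefs

/-!
# SG-GEN (piece of EXIST-GEN / S2949, helper90): generation of `J(X)` modulo `C_X(V)`

Transport to the holomorph of `V` (helper14's `Holo`, set-up as in `H14/SnGL.lean` and
`H40/TsD.lean`), Glauberman's structure theorem S0617 for the image `H` of `J(X)`, and BOX for the
image of `J`: each `E i` is generated by elements centralizing the image of `J` (their preimages
normalize `J C`) and possibly by a subgroup `D` of order 3 whose preimage is one of the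
subgroups of the statement.
-/

set_option autoImplicit false
open Cfsg
open scoped commutatorElement Pointwise

universe u

namespace Cfsg.Agent.H11.Sg

open Cfsg.Agent.H90.Sg Cfsg.Agent.H14.Holo

theorem le_of_map_le {X Y : Type*} [Group X] [Group Y] (f : X →* Y) (A R : Subgroup X)
    (hker : f.ker ≤ R) (h : A.map f ≤ R.map f) : A ≤ R :=
  (Subgroup.map_le_map_iff.mp h).trans (sup_le le_rfl hker)

/-- SG-GEN. -/
theorem gen (hBox : StBox.{u}) : StGen.{u} := by
  intro X _ _ V _ hV hsep hO' J hJJ hJ2
  haveI : Fact (Nat.Prime 2) := ⟨Nat.prime_two⟩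
  haveI hJn := thompsonSubgroup_normal 2 X
  have hV' := Vh_elemAb V hV
  have hHV : (thompsonSubgroup 2 X).map (psi V) ≤
      Subgroup.normalizer ((Vh V : Subgroup (Hol V)) : Set (Hol V)) := by
    haveI := Vh_normal V
    rw [Subgroup.normalizer_eq_top]
    exact le_top
  have hHR : (thompsonSubgroup 2 X).map (psi V) ≤ (psi V).range := by
    rintro _ ⟨j, -, rfl⟩
    exact ⟨j, rfl⟩
  have hf : (thompsonSubgroup 2 X).map (psi V) ⊓
      Subgroup.centralizer ((Vh V : Subgroup (Hol V)) : Set (Hol V)) = ⊥ := by
    rw [eq_bot_iff, ← range_faithful V]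
    exact inf_le_inf_right _ hHR
  have hnorm : (psi V).range ≤
      Subgroup.normalizer (((thompsonSubgroup 2 X).map (psi V) : Subgroup (Hol V)) :
        Set (Hol V)) := by
    rintro _ ⟨g, rfl⟩
    rw [Subgroup.mem_normalizer_iff]
    intro h
    constructor
    · rintro ⟨j, hj, rfl⟩
      refine ⟨g * j * g⁻¹, hJn.conj_mem j hj g, ?_⟩
      simp
    · rintro ⟨j, hj, hjh⟩
      refine ⟨g⁻¹ * j * g, ?_, ?_⟩
      · have := hJn.conj_mem j hj g⁻¹
        simpa using this
      · rw [map_mul, map_mul, hjh, map_inv]
        group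
  have hS1 := hS1_of_normal (p := 2) (psi V).range ((thompsonSubgroup 2 X).map (psi V)) hHR hnorm
    (range_isPSolvable V hsep) (range_pCore_eq_bot V hO')
  have hS3 : (thompsonSubgroup 2 X).map (psi V) = ⨆ A : {A : Subgroup (Hol V) //
      A ≤ (thompsonSubgroup 2 X).map (psi V) ∧ IsBestOffenderOn 2 (Vh V) A},
        (A : Subgroup (Hol V)) := by
    apply le_antisymm
    · conv_lhs => unfold Cfsg.thompsonSubgroup
      rw [Subgroup.map_le_iff_le_comap]
      apply sSup_le
      intro A hA
      rw [← Subgroup.map_le_iff_le_comap]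
      exact le_iSup (fun A : {A : Subgroup (Hol V) //
        A ≤ (thompsonSubgroup 2 X).map (psi V) ∧ IsBestOffenderOn 2 (Vh V) A} =>
          (A : Subgroup (Hol V)))
        ⟨A.map (psi V), Subgroup.map_mono (le_sSup hA), bestOffender_map V hV hA⟩
    · exact iSup_le fun A => A.2.1
  haveI hCn : (Subgroup.centralizer (V : Set X)).Normal := by
    rw [← psi_ker]
    infer_instance
  have hker : (psi V).ker ≤
      Subgroup.normalizer ((J ⊔ Subgroup.centralizer (V : Set X) : Subgroup X) : Set X) := by
    rw [psi_ker]
    exact le_sup_right.trans Subgroup.le_normalizer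
  by_cases hH1 : (thompsonSubgroup 2 X).map (psi V) = ⊥
  · have h1 : thompsonSubgroup 2 X ≤ (psi V).ker := by
      intro j hj
      rw [MonoidHom.mem_ker]
      have : psi V j ∈ (thompsonSubgroup 2 X).map (psi V) := Subgroup.mem_map_of_mem _ hj
      rw [hH1, Subgroup.mem_bot] at this
      exact this
    exact (h1.trans hker).trans le_sup_left
  · obtain ⟨ι, E, hE, hind, hsup⟩ : ∃ (ι : Type u) (E : ι → Subgroup (Hol V)),
        (∀ i, (thompsonSubgroup 2 X).map (psi V) ≤
            Subgroup.normalizer ((E i : Subgroup (Hol V)) : Set (Hol V)) ∧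
          Nonempty (↥(E i) ≃* Matrix.SpecialLinearGroup (Fin 2) (ZMod 2)) ∧
          Nat.card ↥(⁅Vh V, E i⁆) = 2 ^ 2) ∧ iSupIndep E ∧
        (⨆ i, E i) = (thompsonSubgroup 2 X).map (psi V) := by
      obtain ⟨-, hE, hind, hsup, -, -⟩ := Cfsg.Agent.S0617.result (Vh V)
        ((thompsonSubgroup 2 X).map (psi V)) hV' hHV hf hS1 hS3 hH1
      exact ⟨_, _, hE, hind, hsup⟩
    have hBoxi := hBox E ((thompsonSubgroup 2 X).map (psi V)) (J.map (psi V))
      (fun i => (hE i).1) (fun i => (hE i).2.1) hind hsup (Subgroup.map_mono hJJ)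
      (hJ2.map (psi V))
    -- elements of `H` centralizing the image of `J` come from the normalizer of `J C`
    have K1 : ∀ e ∈ (thompsonSubgroup 2 X).map (psi V),
        e ∈ Subgroup.centralizer ((J.map (psi V) : Subgroup (Hol V)) : Set (Hol V)) →
        e ∈ (Subgroup.normalizer
          ((J ⊔ Subgroup.centralizer (V : Set X) : Subgroup X) : Set X)).map (psi V) := by
      rintro _ ⟨h, hh, rfl⟩ hcen
      refine Subgroup.mem_map_of_mem _ ?_
      have hcomm : ∀ j ∈ J, psi V j * psi V h = psi V h * psi V j := by
        intro j hj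
        exact (Subgroup.mem_centralizer_iff.mp hcen) (psi V j) (Subgroup.mem_map_of_mem _ hj)
      have L : ∀ g : X, (∀ j ∈ J, psi V j * psi V g = psi V g * psi V j) →
          ∀ n ∈ J ⊔ Subgroup.centralizer (V : Set X),
            g * n * g⁻¹ ∈ J ⊔ Subgroup.centralizer (V : Set X) := by
        intro g hg
        have h1 : J ⊔ Subgroup.centralizer (V : Set X) ≤
            (J ⊔ Subgroup.centralizer (V : Set X)).comap (MulAut.conj g).toMonoidHom := by
          apply sup_le
          · intro j hj
            rw [Subgroup.mem_comap]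
            show g * j * g⁻¹ ∈ _
            have hc : g * j * g⁻¹ * j⁻¹ ∈ Subgroup.centralizer (V : Set X) := by
              rw [← psi_ker, MonoidHom.mem_ker, map_mul, map_mul, map_mul, map_inv, map_inv,
                ← hg j hj]
              group
            have e1 : g * j * g⁻¹ = (g * j * g⁻¹ * j⁻¹) * j := by group
            rw [e1]
            exact Subgroup.mul_mem _ (Subgroup.mem_sup_right hc) (Subgroup.mem_sup_left hj)
          · intro c hc
            rw [Subgroup.mem_comap]
            show g * c * g⁻¹ ∈ _
            exact Subgroup.mem_sup_right (hCn.conj_mem c hc g)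
        intro n hn
        exact h1 hn
      rw [Subgroup.mem_normalizer_iff]
      intro n
      constructor
      · exact L h hcomm n
      · intro hn
        have hcomm' : ∀ j ∈ J, psi V j * psi V h⁻¹ = psi V h⁻¹ * psi V j := by
          intro j hj
          have h2 := hcomm j hj
          rw [map_inv]
          calc psi V j * (psi V h)⁻¹
              = (psi V h)⁻¹ * (psi V h * psi V j) * (psi V h)⁻¹ := by group
            _ = (psi V h)⁻¹ * (psi V j * psi V h) * (psi V h)⁻¹ := by rw [h2]
            _ = (psi V h)⁻¹ * psi V j := by group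
        have h3 := L h⁻¹ hcomm' _ hn
        have e : h⁻¹ * (h * n * h⁻¹) * h⁻¹⁻¹ = n := by group
        rw [e] at h3
        exact h3
    apply le_of_map_le (psi V) _ _ (hker.trans le_sup_left)
    refine hsup.symm.le.trans (iSup_le fun i => ?_)
    have hiH : E i ≤ (thompsonSubgroup 2 X).map (psi V) := (le_iSup E i).trans hsup.le
    rcases hBoxi i with hc | ⟨D, hDE, hD3, hHD, hDJ, hED⟩
    · intro e he
      exact Subgroup.map_mono le_sup_left (K1 e (hiH he) (hc he))
    · refine hED.trans (sup_le ?_ ?_)
      · have hDR : D ≤ (psi V).range := (hDE.trans hiH).trans hHR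
        have p1 : Subgroup.centralizer (V : Set X) ≤ D.comap (psi V) := by
          intro c hc
          rw [Subgroup.mem_comap]
          have : c ∈ (psi V).ker := by rw [psi_ker]; exact hc
          rw [MonoidHom.mem_ker.mp this]
          exact D.one_mem
        have p2 : (Subgroup.centralizer (V : Set X)).relIndex (D.comap (psi V)) = 3 := by
          have h1 := Subgroup.relIndex_ker (K := D.comap (psi V)) (psi V)
          rw [psi_ker, Subgroup.map_comap_eq, inf_eq_right.mpr hDR] at h1
          rw [h1, hD3]
        have p3 : thompsonSubgroup 2 X ≤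
            Subgroup.normalizer ((D.comap (psi V) : Subgroup X) : Set X) := by
          intro j hj
          exact Subgroup.le_normalizer_comap (psi V) (hHD (Subgroup.mem_map_of_mem _ hj))
        have p4 : ¬ ⁅D.comap (psi V), J⁆ ≤ Subgroup.centralizer (V : Set X) := by
          intro hle
          apply hDJ
          intro d hd
          rw [Subgroup.mem_centralizer_iff]
          rintro _ ⟨j, hj, rfl⟩
          obtain ⟨d', rfl⟩ := hDR hd
          have h1 : ⁅d', j⁆ ∈ (psi V).ker := by
            rw [psi_ker]
            exact hle (Subgroup.commutator_mem_commutator (Subgroup.mem_comap.mpr hd) hj)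
          rw [MonoidHom.mem_ker, commutatorElement_def, map_mul, map_mul, map_mul, map_inv,
            map_inv] at h1
          calc psi V j * psi V d'
              = (psi V d' * psi V j * (psi V d')⁻¹ * (psi V j)⁻¹)⁻¹ * (psi V d' * psi V j) := by
                group
            _ = psi V d' * psi V j := by rw [h1, inv_one, one_mul]
        obtain ⟨W, hW4, hW⟩ : ∃ W : Subgroup X, Nat.card ↥W = 4 ∧
            ∀ k ∈ D.comap (psi V), ∀ v ∈ V, k * v * k⁻¹ * v⁻¹ ∈ W := by
          haveI := Vh_normal V
          have hWle : ⁅Vh V, E i⁆ ≤ Vh V := Subgroup.commutator_le_left _ _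
          refine ⟨((⁅Vh V, E i⁆).comap (SemidirectProduct.inl : ↥V →* Hol V)).map V.subtype,
            ?_, ?_⟩
          · rw [Subgroup.card_map_of_injective V.subtype_injective]
            have h1 : ((⁅Vh V, E i⁆).comap (SemidirectProduct.inl : ↥V →* Hol V)).map
                (SemidirectProduct.inl : ↥V →* Hol V) = ⁅Vh V, E i⁆ := by
              rw [Subgroup.map_comap_eq, inf_eq_right]
              exact hWle
            rw [← Subgroup.card_map_of_injective
              (SemidirectProduct.inl_injective (φ := MonoidHom.id (MulAut ↥V))), h1, (hE i).2.2]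
            norm_num
          · intro k hk v hv
            refine ⟨(MulAut.conjNormal k ⟨v, hv⟩ : ↥V) * (⟨v, hv⟩ : ↥V)⁻¹, ?_, ?_⟩
            · rw [SetLike.mem_coe, Subgroup.mem_comap, map_mul, map_inv, ← psi_conj,
                Subgroup.commutator_comm]
              have h2 := Subgroup.commutator_mem_commutator (H₁ := E i) (H₂ := Vh V)
                (hDE (Subgroup.mem_comap.mp hk)) ⟨⟨v, hv⟩, rfl⟩
              rw [commutatorElement_def] at h2
              exact h2
            · simp [MulAut.conjNormal_apply]
        intro d hd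
        obtain ⟨d', rfl⟩ := hDR hd
        refine Subgroup.mem_map_of_mem _ (Subgroup.mem_sup_right ?_)
        exact Subgroup.mem_iSup_of_mem ⟨D.comap (psi V), p1, p2, p3, p4, W, hW4, hW⟩
          (Subgroup.mem_comap.mpr hd)
      · intro e he
        exact Subgroup.map_mono le_sup_left (K1 e (hiH he.1) he.2)

example (hBox : StBox.{u}) : StGen.{u} := gen hBox

#print axioms gen

end Cfsg.Agent.H11.Sg
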