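import Mathlib
import Cfsg.Agent.H52.SmDefs

/-!
# S2772 (helper52's Sims project), piece SM-ID48: the group of order 48 is `S₄ × C₂`
-/

set_option autoImplicit false

namespace Cfsg.Agent.H11.Sm

open Cfsg Subgroup Cfsg.Agent.H52.Sm

universe u

/-- a central permutation of four points is trivial -/
theorem perm4_central : ∀ σ : Equiv.Perm (Fin 4),
    (∀ τ : Equiv.Perm (Fin 4), σ * τ = τ * σ) → σ = 1 := by
  decide +kernel

/-- a homomorphism from the units of the integers detecting `-1` -/
def unitsHom : ℤˣ →* Multiplicative (ZMod 2) where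
  toFun u := Multiplicative.ofAdd (if u = 1 then (0 : ZMod 2) else 1)
  map_one' := by decide
  map_mul' := by decide

theorem unitsHom_neg_one : unitsHom (-1) ≠ 1 := by decide

theorem id48 (hCen : StCen.{u}) (hSurj : StSurj.{u}) (hSign : StSign.{u}) : StId48E.{u} := by
  intro M _ _ Q hQn hQ8 hQel hQc hf hs
  obtain ⟨f, hfs, hfk⟩ := hf
  obtain ⟨s, hsQ, hss⟩ := hs
  obtain ⟨e, y, W, heQ, he1, hec, hWn, hWQ, hW4, heW, hy3, hfy, hfpf, hdec⟩ :=
    hCen M Q f hQn hQ8 hQel hQc hfs hfk
  have hker2 : IsPGroup 2 f.ker := by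
    rw [hfk]
    exact IsPGroup.of_card (n := 3) (by rw [hQ8]; norm_num)
  obtain ⟨ψ, hψ⟩ := hSurj M W f y hWn hW4 hfs (by rw [hfk]; exact hWQ) hker2 hy3 hfy hfpf
    (by rw [hfk]; exact hdec)
  -- orders
  have hM : Nat.card M = 48 := by
    have h1 := Subgroup.card_mul_index f.ker
    rw [Subgroup.index_ker, hfk, hQ8] at h1
    have h2 : Nat.card f.range = 6 := by
      rw [MonoidHom.range_eq_top.mpr hfs, Subgroup.card_top, DihedralGroup.nat_card]
    rw [h2] at h1
    omega
  have hψk : Nat.card ψ.ker = 2 := by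
    have h1 := Subgroup.card_mul_index ψ.ker
    rw [Subgroup.index_ker, MonoidHom.range_eq_top.mpr hψ, Subgroup.card_top, hM] at h1
    have h2 : Nat.card (Equiv.Perm (Fin 4)) = 24 := by
      rw [Nat.card_eq_fintype_card, Fintype.card_perm, Fintype.card_fin]
      rfl
    rw [h2] at h1
    omega
  have hψe : ψ e = 1 := by
    apply perm4_central
    intro τ
    obtain ⟨m, rfl⟩ := hψ τ
    rw [← map_mul, ← map_mul, hec m]
  have hkerψ : ∀ x : M, ψ x = 1 → x = 1 ∨ x = e := by
    intro x hx
    obtain ⟨z, hz1, hz2⟩ := (Nat.card_eq_two_iff' (1 : ψ.ker)).mp hψk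
    by_cases hx1 : x = 1
    · exact Or.inl hx1
    · right
      have h1 : (⟨x, hx⟩ : ψ.ker) = z := hz2 _ (fun h => hx1 (congrArg Subtype.val h))
      have h2 : (⟨e, hψe⟩ : ψ.ker) = z := hz2 _ (fun h => he1 (congrArg Subtype.val h))
      exact congrArg Subtype.val (h1.trans h2.symm)
  -- the subgroup `L`
  let π : M →* M ⧸ W := QuotientGroup.mk' W
  have hπs : π s * π s = 1 := by rw [← map_mul, hss, map_one]
  have hsW : s ∉ W := fun h => hsQ (hWQ h)
  have hπs1 : π s ≠ 1 := by
    intro h
    exact hsW ((QuotientGroup.eq_one_iff s).mp h)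
  have hord : orderOf (π s) = 2 := orderOf_eq_prime (by rw [pow_two]; exact hπs) hπs1
  let L : Subgroup M := (zpowers (π s)).comap π
  have hLidx : L.index = 6 := by
    have h1 : L.index = (zpowers (π s)).index :=
      Subgroup.index_comap_of_surjective _ (QuotientGroup.mk'_surjective W)
    have h2 := Subgroup.card_mul_index (zpowers (π s))
    rw [Nat.card_zpowers, hord] at h2
    have h3 : Nat.card (M ⧸ W) = 12 := by
      have h4 := Subgroup.card_eq_card_quotient_mul_card_subgroup W
      rw [hM, hW4] at h4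
      omega
    rw [h3] at h2
    rw [h1]
    omega
  have heL : e ∉ L := by
    intro h
    have h1 : π e ∈ zpowers (π s) := h
    obtain ⟨k, hk⟩ := mem_zpowers_iff.mp h1
    rcases Int.even_or_odd' k with ⟨m, rfl | rfl⟩
    · have h2 : π e = 1 := by
        rw [← hk, zpow_mul, zpow_two, hπs, one_zpow]
      exact heW ((QuotientGroup.eq_one_iff e).mp h2)
    · have h2 : π e = π s := by
        rw [← hk, zpow_add, zpow_mul, zpow_two, hπs, one_zpow, one_mul, zpow_one]
      have h3 : e⁻¹ * s ∈ W := QuotientGroup.eq.mp h2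
      have h4 : s = e * (e⁻¹ * s) := by group
      apply hsQ
      rw [h4]
      exact Q.mul_mem heQ (hWQ h3)
  obtain ⟨χ, hχ⟩ := hSign M L e (hQel e heQ) hec heL (by rw [hLidx])
  let Φ : M →* Equiv.Perm (Fin 4) × Multiplicative (ZMod 2) := ψ.prod (unitsHom.comp χ)
  have hΦinj : Function.Injective Φ := by
    rw [injective_iff_map_eq_one]
    intro x hx
    have h1 : ψ x = 1 := congrArg Prod.fst hx
    have h2 : unitsHom (χ x) = 1 := congrArg Prod.snd hx
    rcases hkerψ x h1 with h | h
    · exact h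
    · exfalso
      rw [h, hχ] at h2
      exact unitsHom_neg_one h2
  have hcard : Nat.card (Equiv.Perm (Fin 4) × Multiplicative (ZMod 2)) ≤ Nat.card M := by
    rw [hM, Nat.card_prod, Nat.card_eq_fintype_card, Nat.card_eq_fintype_card,
      Fintype.card_perm, Fintype.card_fin]
    decide
  exact ⟨MulEquiv.ofBijective Φ (hΦinj.bijective_of_nat_card_le hcard)⟩

example (hCen : StCen.{u}) (hSurj : StSurj.{u}) (hSign : StSign.{u}) :
    Cfsg.Agent.H52.Sm.StId48E.{u} := id48 hCen hSurj hSign

end Cfsg.Agent.H11.Sm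

#print axioms Cfsg.Agent.H11.Sm.id48
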