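import Mathlib
import Cfsg.Agent.H52.SmDefs

/-!
# S2772 (helper52's Sims project), piece SM-IDSETUP: the local hypothesis with `q = 3` and the
order bound give the hypotheses of the identification step
-/

set_option autoImplicit false

namespace Cfsg.Agent.H11.Sm

open Cfsg Subgroup Cfsg.Agent.H52.Sm

universe u

theorem idSetup : StIdSetup.{u} := by
  intro H _ _ G Q S t hyp hsims
  have hinj : Function.Injective G.subtype := G.subtype_injective
  have hmemQ : ∀ g : ↥G, (g : H) ∈ Q.map G.subtype ↔ g ∈ Q := by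
    intro g
    constructor
    · rintro ⟨x, hx, hxg⟩
      have h1 : x = g := Subtype.ext hxg
      rwa [← h1]
    · intro h
      exact ⟨g, h, rfl⟩
  have hmemS : ∀ g : ↥G, (g : H) ∈ S.map G.subtype ↔ g ∈ S := by
    intro g
    constructor
    · rintro ⟨x, hx, hxg⟩
      have h1 : x = g := Subtype.ext hxg
      rwa [← h1]
    · intro h
      exact ⟨g, h, rfl⟩
  have hcard : Nat.card S = 2 * Nat.card Q := by
    have h1 := hyp.card
    rwa [Subgroup.card_map_of_injective hinj, Subgroup.card_map_of_injective hinj] at h1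
  have hS2 : IsPGroup 2 ↥S := hyp.S2.of_equiv (S.equivMapOfInjective G.subtype hinj).symm
  have hSnt : Nontrivial ↥S := by
    have h2 : 0 < Nat.card Q := Nat.card_pos
    exact Finite.one_lt_card_iff_nontrivial.mp (by omega)
  -- `t⁻¹` also normalizes the image of `S`
  have htS' : ∀ s ∈ S.map G.subtype, t⁻¹ * s * t ∈ S.map G.subtype := by
    intro s hs
    let c : ↥(S.map G.subtype) → ↥(S.map G.subtype) :=
      fun x => ⟨t * x.1 * t⁻¹, hyp.tS x.1 x.2⟩
    have hc : Function.Injective c := by
      intro x y hxy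
      have h1 : t * x.1 * t⁻¹ = t * y.1 * t⁻¹ := congrArg Subtype.val hxy
      apply Subtype.ext
      exact mul_left_cancel (mul_right_cancel h1)
    obtain ⟨x, hx⟩ := (Finite.injective_iff_surjective.mp hc) ⟨s, hs⟩
    have h1 : t * x.1 * t⁻¹ = s := congrArg Subtype.val hx
    have h2 : t⁻¹ * s * t = x.1 := by
      rw [← h1]
      group
    rw [h2]
    exact x.2
  refine
    { Qn := ⟨fun x hx g => (hmemQ _).mp (hyp.Qn g g.2 x ((hmemQ x).mpr hx))⟩
      QS := fun x hx => (hmemS x).mp (hyp.QS ((hmemQ x).mpr hx))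
      card := hcard
      cent := ?_
      dih := ?_
      sims := hsims
      zs := ?_
      qconj := ?_ }
  · intro x hx
    refine (hmemQ x).mp (hyp.cent x x.2 ?_)
    rintro y ⟨y', hy', rfl⟩
    exact congrArg Subtype.val (mem_centralizer_iff.mp hx y' hy').symm
  · obtain ⟨f, hfs, hf⟩ := hyp.dih
    refine ⟨f, hfs, ?_⟩
    ext x
    rw [MonoidHom.mem_ker, hf, hmemQ]
  · intro hinv
    have hZbot : (S ⊓ centralizer (S : Set ↥G)).map G.subtype = ⊥ := by
      apply hyp.star
      · exact Subgroup.map_mono inf_le_left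
      · rintro m hm a ⟨z, hz, rfl⟩
        exact ⟨⟨m, hm⟩ * z * ⟨m, hm⟩⁻¹, hinv ⟨m, hm⟩ z hz, rfl⟩
      · rintro a ⟨z, hz, rfl⟩
        have hzS : (z : H) ∈ S.map G.subtype := ⟨z, hz.1, rfl⟩
        obtain ⟨z', hz'S, hz'⟩ := hyp.tS _ hzS
        refine ⟨z', ⟨hz'S, ?_⟩, hz'⟩
        show z' ∈ centralizer (S : Set ↥G)
        rw [mem_centralizer_iff]
        intro s hs
        apply Subtype.ext
        show (s : H) * z' = z' * s
        have hz'' : (z' : H) = t * z * t⁻¹ := hz'
        obtain ⟨s', hs'S, hs'⟩ := htS' s ⟨s, hs, rfl⟩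
        have hs'' : (s' : H) = t⁻¹ * s * t := hs'
        have hcomm : (s' : H) * z = z * s' :=
          congrArg Subtype.val (mem_centralizer_iff.mp hz.2 s' hs'S)
        have e1 : (s : H) = t * s' * t⁻¹ := by
          rw [hs'']
          group
        rw [hz'', e1]
        have e2 : t * (s' : H) * t⁻¹ * (t * z * t⁻¹) = t * ((s' : H) * z) * t⁻¹ := by group
        have e3 : t * (z : H) * t⁻¹ * (t * s' * t⁻¹) = t * ((z : H) * s') * t⁻¹ := by group
        rw [e2, e3, hcomm]
    have hZ : S ⊓ centralizer (S : Set ↥G) = ⊥ :=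
      (Subgroup.map_eq_bot_iff_of_injective _ hinj).mp hZbot
    have : Fact (Nat.Prime 2) := ⟨Nat.prime_two⟩
    have : Nontrivial (center ↥S) := hS2.center_nontrivial
    obtain ⟨z, hz⟩ := exists_ne (1 : center ↥S)
    have hzZ : (z.1.1 : ↥G) ∈ S ⊓ centralizer (S : Set ↥G) := by
      refine ⟨z.1.2, mem_centralizer_iff.mpr (fun s hs => ?_)⟩
      exact congrArg Subtype.val (mem_center_iff.mp z.2 ⟨s, hs⟩)
    rw [hZ, mem_bot] at hzZ
    exact hz (Subtype.ext (Subtype.ext hzZ))
  · have hQH'S : (Q.map G.subtype).map (MulAut.conj t).toMonoidHom ≤ S.map G.subtype := by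
      rintro _ ⟨x, hx, rfl⟩
      exact hyp.tS x (hyp.QS hx)
    have hQH'G : (Q.map G.subtype).map (MulAut.conj t).toMonoidHom ≤ G := hQH'S.trans hyp.SM
    refine ⟨((Q.map G.subtype).map (MulAut.conj t).toMonoidHom).subgroupOf G, ?_, ?_, ?_⟩
    · intro g hg
      have h1 : (g : H) ∈ (Q.map G.subtype).map (MulAut.conj t).toMonoidHom := hg
      exact (hmemS g).mp (hQH'S h1)
    · intro hQ'
      have h1 : (Q.map G.subtype).map (MulAut.conj t).toMonoidHom = Q.map G.subtype := by
        have h0 := Subgroup.map_subgroupOf_eq_of_le hQH'G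
        rw [hQ'] at h0
        exact h0.symm
      have h2 : Q.map G.subtype = ⊥ := by
        apply hyp.star
        · exact hyp.QS
        · exact hyp.Qn
        · intro a ha
          have h3 : (MulAut.conj t) a ∈ (Q.map G.subtype).map (MulAut.conj t).toMonoidHom :=
            ⟨a, ha, rfl⟩
          rw [h1] at h3
          exact h3
      have h3 : ∀ x ∈ G, x = 1 := by
        intro x hx
        have h4 := hyp.cent x hx (fun y hy => by
          rw [h2, mem_bot] at hy
          rw [hy, mul_one, one_mul])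
        rw [h2, mem_bot] at h4
        exact h4
      obtain ⟨f, hfs, hf⟩ := hyp.dih
      obtain ⟨m, hm⟩ := hfs (DihedralGroup.r 1)
      have hm1 : m = 1 := Subtype.ext (h3 m m.2)
      rw [hm1, map_one] at hm
      exact absurd hm (by decide)
    · exact ⟨(Q.equivMapOfInjective G.subtype hinj).trans
        (((Q.map G.subtype).equivMapOfInjective (MulAut.conj t).toMonoidHom
          (MulAut.conj t).injective).trans (Subgroup.subgroupOfEquivOfLe hQH'G).symm)⟩

example : Cfsg.Agent.H52.Sm.StIdSetup.{u} := idSetup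

end Cfsg.Agent.H11.Sm

#print axioms Cfsg.Agent.H11.Sm.idSetup
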