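import Cfsg.Agent.H23.StbDecDefs2
import Cfsg.Agent.H78.StbPsi

/-!
# S2156 (helper23's SD project), piece SD-PSIG: helper78's `psi` for an automorphism mapping the
root subgroups of `±α_i` onto those of `±α_j`
-/

set_option autoImplicit false

namespace Cfsg.Agent.H11.StbD

open Cfsg.Lie Cfsg.Agent.H23 Cfsg.Agent.H23.Stb Cfsg.Agent.H23.StbD Cfsg.Agent.H78.Stb

universe u

theorem psiG (h : Cfsg.Agent.H23.Stb.StRank1.{u}) : StPsiG.{u} := by
  intro D F _ z η rT w0 hC θ i j hi hj φ ψ hφ hψ hφ1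
  have hN := hC.hP.semN
  have hT := hC.hP.tab
  have hT2 := hC.hP.tab2
  have hrl : D.simple i < D.nroots := hT.simple_lt i hi
  have hrl' : D.simple j < D.nroots := hT.simple_lt j hj
  have hnl' : D.neg (D.simple j) < D.nroots := hT.neg_lt _ hrl'
  have hφ0 : ∀ t : F, t ≠ 0 → φ t ≠ 0 := by
    intro t ht h0
    apply ht
    apply φ.injective
    rw [h0, map_zero]
  have hθn : ∀ t : F, θ (nGel hC.hP.sem (D.simple i) t) =
      xG hC.hP.sem (D.simple j) (φ t) * xG hC.hP.sem (D.neg (D.simple j)) (ψ (-t⁻¹)) *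
        xG hC.hP.sem (D.simple j) (φ t) := by
    intro t
    unfold nGel
    rw [map_mul, map_mul, hφ, hψ]
  have hstar : ∀ t : F, t ≠ 0 → ψ (-t⁻¹) = -(φ t)⁻¹ := by
    intro t ht
    apply h D F z η rT w0 hC j hj (φ t) (ψ (-t⁻¹)) (hφ0 t ht)
    intro u
    obtain ⟨v, rfl⟩ := φ.surjective u
    obtain ⟨q, hq, hqc⟩ := nGel_conj hC.hP.sem hN hT i hi t ht
    refine ⟨ψ (q * v), ?_⟩
    have hG2 := congrArg θ (hqc v)
    rw [map_mul, map_mul, map_inv, hθn, hφ, hψ] at hG2
    exact congrArg Subtype.val hG2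
  have hψ1 : ψ (-1) = -1 := by
    have h0 := hstar 1 one_ne_zero
    rw [inv_one, hφ1, inv_one] at h0
    exact h0
  have hθn' : ∀ t : F, t ≠ 0 → θ (nGel hC.hP.sem (D.simple i) t) =
      nGel hC.hP.sem (D.simple j) (φ t) := by
    intro t ht
    rw [hθn, hstar t ht]
    rfl
  have hgen : ∀ t : F,
      ((η j (D.simple j) : ℤ) : F) * φ t = ψ (((η i (D.simple i) : ℤ) : F) * t) := by
    intro t
    have hG2 := congrArg θ (nGel_one_conj hC.hP.sem hN i hi hrl t)
    rw [map_mul, map_mul, map_inv, hθn' 1 one_ne_zero, hφ1, hφ, hψ,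
      nGel_one_conj hC.hP.sem hN j hj hrl' (φ t)] at hG2
    exact xU_inj hC.hP.sem hT hT2 _ hnl' _ _ (congrArg Subtype.val hG2)
  have hm1 : φ (-1) = -1 := by rw [map_neg, hφ1]
  have hψφ : ∀ t : F, ψ t = φ t := by
    intro t
    rcases hN.eta i (D.simple i) with he | he <;> rcases hN.eta j (D.simple j) with he' | he'
    · have h3 := hgen t
      rw [he, he'] at h3
      simp only [Int.cast_one, one_mul] at h3
      exact h3.symm
    · have h3 := hgen t
      have h4 := hgen (-1)
      rw [he, he'] at h3 h4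
      simp only [Int.cast_neg, Int.cast_one, neg_mul, one_mul] at h3 h4
      rw [hm1, hψ1, neg_neg] at h4
      rw [← h3]
      calc -φ t = (-1) * φ t := by ring
        _ = 1 * φ t := by rw [← h4]
        _ = φ t := one_mul _
    · have h3 := hgen t
      have h4 := hgen 1
      rw [he, he'] at h3 h4
      simp only [Int.cast_neg, Int.cast_one, neg_mul, one_mul, mul_one] at h3 h4
      rw [hφ1, hψ1] at h4
      rw [map_neg] at h3
      have h5 : ψ t = -φ t := by rw [h3, neg_neg]
      rw [h5]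
      calc -φ t = (-1) * φ t := by ring
        _ = 1 * φ t := by rw [← h4]
        _ = φ t := one_mul _
    · have h3 := hgen t
      rw [he, he'] at h3
      simp only [Int.cast_neg, Int.cast_one, neg_mul, one_mul, map_neg] at h3
      exact (neg_injective h3).symm
  refine ⟨hψφ, ?_, ?_⟩
  · intro a ha
    have h0 := hstar a ha
    rw [hψφ, map_neg] at h0
    exact neg_injective h0
  · intro a ha
    rw [hG_eq_nGel, map_mul, hθn' a ha, hθn' (-1) (neg_ne_zero.mpr one_ne_zero), hm1,
      ← hG_eq_nGel]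

example (h : Cfsg.Agent.H23.Stb.StRank1.{u}) : Cfsg.Agent.H23.StbD.StPsiG.{u} := psiG h

end Cfsg.Agent.H11.StbD

#print axioms Cfsg.Agent.H11.StbD.psiG
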