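import Cfsg.Agent.H23.StbDecDefs2

/-!
# S2156 (helper23's SD project), piece SD-ROOTMAPG: an automorphism mapping a root subgroup onto
another one does so through an additive bijection of the field
-/

set_option autoImplicit false

namespace Cfsg.Agent.H11.StbD

open Cfsg.Lie Cfsg.Agent.H23 Cfsg.Agent.H23.Stb Cfsg.Agent.H23.StbD

universe u

theorem rootMapG : StRootMapG.{u} := by
  intro D F _ z η hP θ r r' hr hr' hθ
  have hS := hP.sem
  have hT := hP.tab
  have hT2 := hP.tab2
  have hinj : ∀ (s : ℕ), s < D.nroots → ∀ a b : F, xG hS s a = xG hS s b → a = b := by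
    intro s hs a b hab
    have hab' : xU hS s a = xU hS s b := congrArg Subtype.val hab
    have h2 : xU hS s (a + -b) = 1 := by
      rw [← xU_mul, ← xU_inv, hab', mul_inv_cancel]
    have h3 := xU_eq_one_imp hS hT hT2 s hs _ h2
    linear_combination h3
  have hmul : ∀ (s : ℕ) (a b : F), xG hS s a * xG hS s b = xG hS s (a + b) := by
    intro s a b
    exact Subtype.ext (xU_mul hS s a b)
  choose f hf using hθ.1
  have hadd : ∀ a b : F, f (a + b) = f a + f b := by
    intro a b
    apply hinj r' hr'
    rw [← hf, ← hmul, map_mul, hf, hf, hmul]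
  have hfinj : Function.Injective f := by
    intro a b hab
    apply hinj r hr
    apply θ.injective
    rw [hf, hf, hab]
  have hfsurj : Function.Surjective f := by
    intro t'
    obtain ⟨t, ht⟩ := hθ.2 t'
    refine ⟨t, hinj r' hr' _ _ ?_⟩
    rw [← hf, ht]
  exact ⟨AddEquiv.ofBijective (AddMonoidHom.mk' f hadd) ⟨hfinj, hfsurj⟩, fun t => hf t⟩

example : Cfsg.Agent.H23.StbD.StRootMapG.{u} := rootMapG

end Cfsg.Agent.H11.StbD

#print axioms Cfsg.Agent.H11.StbD.rootMapG
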