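import Mathlib
import Cfsg.Agent.H78.SvDefs

/-!
helper11: S2425-HESS (`hess`): the signed sum over the "Hessenberg" permutations (`κ i ≤ i + 1`)
is the alternating sum over the compositions, encoded by their sets of block ends.

Proof by induction on `n`, splitting off the index `0` on both sides
(`Equiv.Perm.decomposeFin` for the permutations; `0 ∈ S` or `0 ∉ S` for the sets of block ends).
-/

set_option autoImplicit false
set_option linter.unusedSimpArgs false

namespace Cfsg.Agent.H11.Sv

open Cfsg.Agent.H78.Sv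
open scoped MatrixGroups

/-- The "bump": increment the entries with `c i = i + 1`. -/
def bump {n : ℕ} (c : Fin n → ℕ) : Fin n → ℕ := fun i => if c i = i.val + 1 then c i + 1 else c i

theorem sup_add_two {m : ℕ} (A : Finset (Fin m)) :
    A.sup (fun j => j.val + 2) = if A = ∅ then 0 else A.sup (fun j => j.val + 1) + 1 := by
  by_cases hA : A = ∅
  · rw [if_pos hA, hA, Finset.sup_empty]; rfl
  · rw [if_neg hA]
    have hne : A.Nonempty := Finset.nonempty_iff_ne_empty.mpr hA
    obtain ⟨j₀, hj₀, hsup⟩ := Finset.exists_mem_eq_sup A hne (fun j => j.val + 1)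
    apply le_antisymm
    · apply Finset.sup_le
      intro j hj
      have h1 := Finset.le_sup (f := fun j : Fin m => j.val + 1) hj
      show j.val + 2 ≤ _
      have h2 : j.val + 1 ≤ A.sup (fun j => j.val + 1) := h1
      omega
    · rw [hsup]
      exact Finset.le_sup (f := fun j : Fin m => j.val + 2) hj₀

theorem sup_pos_of_ne {m : ℕ} (A : Finset (Fin m)) (hA : A ≠ ∅) :
    1 ≤ A.sup (fun j => j.val + 1) := by
  obtain ⟨j₀, hj₀⟩ := Finset.nonempty_iff_ne_empty.mpr hA
  have h1 := Finset.le_sup (f := fun j : Fin m => j.val + 1) hj₀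
  have h2 : j₀.val + 1 ≤ A.sup (fun j => j.val + 1) := h1
  omega

theorem filter_map_succ {m : ℕ} (S : Finset (Fin m)) (x : Fin m) :
    (S.map (Fin.succEmb m)).filter (· < x.succ) = (S.filter (· < x)).map (Fin.succEmb m) := by
  ext a
  simp only [Finset.mem_filter, Finset.mem_map, Fin.coe_succEmb]
  constructor
  · rintro ⟨⟨y, hy, rfl⟩, hlt⟩
    exact ⟨y, ⟨hy, Fin.succ_lt_succ_iff.mp hlt⟩, rfl⟩
  · rintro ⟨y, ⟨hy, hlt⟩, rfl⟩
    exact ⟨⟨y, hy, rfl⟩, Fin.succ_lt_succ_iff.mpr hlt⟩

theorem sup_map_succ {m : ℕ} (A : Finset (Fin m)) :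
    (A.map (Fin.succEmb m)).sup (fun j => j.val + 1) = A.sup (fun j => j.val + 2) := by
  rw [Finset.sup_map]
  rfl

theorem zero_notMem_map_succ {m : ℕ} (S : Finset (Fin m)) : (0 : Fin (m + 1)) ∉ S.map (Fin.succEmb m) := by
  intro h
  obtain ⟨y, -, hy⟩ := Finset.mem_map.mp h
  exact Fin.succ_ne_zero y hy

theorem succ_mem_map_succ {m : ℕ} (S : Finset (Fin m)) (x : Fin m) :
    x.succ ∈ S.map (Fin.succEmb m) ↔ x ∈ S := by
  constructor
  · intro h
    obtain ⟨y, hy, hyx⟩ := Finset.mem_map.mp h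
    have : y = x := Fin.succ_injective _ hyx
    rw [← this]; exact hy
  · intro h
    exact Finset.mem_map.mpr ⟨x, h, rfl⟩

/-- `blk` of a set not containing `0`. -/
theorem blk_map_succ {m : ℕ} (S : Finset (Fin m)) :
    blk (S.map (Fin.succEmb m)) = Fin.cons 0 (bump (blk S)) := by
  funext i
  refine Fin.cases ?_ (fun x => ?_) i
  · rw [Fin.cons_zero]
    unfold blk
    rw [if_neg (zero_notMem_map_succ S)]
  · rw [Fin.cons_succ]
    unfold bump blk
    by_cases hx : x ∈ S
    · rw [if_pos ((succ_mem_map_succ S x).mpr hx), if_pos hx, filter_map_succ, sup_map_succ,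
        sup_add_two]
      by_cases hA : S.filter (· < x) = ∅
      · rw [if_pos hA, hA, Finset.sup_empty]
        simp
      · rw [if_neg hA]
        have h1 := sup_pos_of_ne _ hA
        have h3 : x.succ.val = x.val + 1 := Fin.val_succ x
        rw [h3]
        split_ifs with h2
        · omega
        · omega
    · rw [if_neg (fun h => hx ((succ_mem_map_succ S x).mp h)), if_neg hx]
      simp

/-- `blk` of a set containing `0`. -/
theorem blk_insert_zero {m : ℕ} (S : Finset (Fin m)) :
    blk (insert 0 (S.map (Fin.succEmb m))) = Fin.cons 1 (blk S) := by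
  funext i
  refine Fin.cases ?_ (fun x => ?_) i
  · rw [Fin.cons_zero]
    unfold blk
    rw [if_pos (Finset.mem_insert_self _ _)]
    have h1 : (insert (0 : Fin (m + 1)) (S.map (Fin.succEmb m))).filter (· < 0) = ∅ := by
      apply Finset.filter_eq_empty_iff.mpr
      intro a _
      exact Fin.not_lt_zero a
    rw [h1, Finset.sup_empty]
    rfl
  · rw [Fin.cons_succ]
    unfold blk
    have hmem : x.succ ∈ insert 0 (S.map (Fin.succEmb m)) ↔ x ∈ S := by
      rw [Finset.mem_insert]
      constructor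
      · rintro (h | h)
        · exact absurd h (Fin.succ_ne_zero x)
        · exact (succ_mem_map_succ S x).mp h
      · intro h; exact Or.inr ((succ_mem_map_succ S x).mpr h)
    by_cases hx : x ∈ S
    · rw [if_pos (hmem.mpr hx), if_pos hx, Finset.filter_insert, if_pos (Fin.succ_pos x),
        Finset.sup_insert, filter_map_succ, sup_map_succ, sup_add_two]
      have h3 : x.succ.val = x.val + 1 := Fin.val_succ x
      rw [h3]
      by_cases hA : S.filter (· < x) = ∅
      · rw [if_pos hA, hA, Finset.sup_empty]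
        simp
      · rw [if_neg hA]
        have h1 := sup_pos_of_ne _ hA
        have h4 : ((0 : Fin (m + 1)).val + 1) ⊔ ((S.filter (· < x)).sup (fun j => j.val + 1) + 1)
            = (S.filter (· < x)).sup (fun j => j.val + 1) + 1 := by
          rw [Fin.val_zero]
          exact sup_eq_right.mpr (by omega)
        rw [h4]
        omega
    · rw [if_neg (fun h => hx (hmem.mp h)), if_neg hx]

/-- The left-hand side of `hess`. -/
noncomputable def hsum (n : ℕ) (w : (Fin n → ℕ) → ℂ) : ℂ :=
  ∑ κ : Equiv.Perm (Fin n), if ∀ i : Fin n, (κ i).val ≤ 1 + i.val then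
    ((Equiv.Perm.sign κ : ℤ) : ℂ) * w (fun i => 1 + i.val - (κ i).val) else 0

theorem swap_zero_one_succ {n : ℕ} (y : Fin (n + 1)) :
    ((Equiv.swap (0 : Fin (n + 2)) (Fin.succ 0) y.succ : Fin (n + 2)) : ℕ) =
      if y = 0 then 0 else y.val + 1 := by
  by_cases hy : y = 0
  · rw [if_pos hy, hy, Equiv.swap_apply_right]
    rfl
  · rw [if_neg hy, Equiv.swap_apply_of_ne_of_ne (Fin.succ_ne_zero y)
      (fun h => hy (Fin.succ_injective _ h))]
    exact Fin.val_succ y

theorem hsum_term_zero (n : ℕ) (w : (Fin (n + 2) → ℕ) → ℂ) (e : Equiv.Perm (Fin (n + 1))) :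
    (if ∀ i : Fin (n + 2),
        ((Equiv.Perm.decomposeFin.symm ((0 : Fin (n + 2)), e)) i).val ≤ 1 + i.val then
      ((Equiv.Perm.sign (Equiv.Perm.decomposeFin.symm ((0 : Fin (n + 2)), e)) : ℤ) : ℂ) *
        w (fun i => 1 + i.val - ((Equiv.Perm.decomposeFin.symm ((0 : Fin (n + 2)), e)) i).val)
      else 0) =
    (if ∀ i : Fin (n + 1), (e i).val ≤ 1 + i.val then
      ((Equiv.Perm.sign e : ℤ) : ℂ) * w (Fin.cons 1 (fun i => 1 + i.val - (e i).val)) else 0) := by
  have hc : (∀ i : Fin (n + 2),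
      ((Equiv.Perm.decomposeFin.symm ((0 : Fin (n + 2)), e)) i).val ≤ 1 + i.val) ↔
      (∀ i : Fin (n + 1), (e i).val ≤ 1 + i.val) := by
    rw [Fin.forall_fin_succ]
    simp only [Equiv.Perm.decomposeFin_symm_apply_zero, Equiv.Perm.decomposeFin_symm_apply_succ,
      Equiv.swap_self, Equiv.refl_apply, Fin.val_succ, Fin.val_zero]
    constructor
    · rintro ⟨-, h⟩ i
      have := h i
      omega
    · intro h
      exact ⟨by omega, fun i => by have := h i; omega⟩
  have hw : (fun i : Fin (n + 2) =>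
      1 + i.val - ((Equiv.Perm.decomposeFin.symm ((0 : Fin (n + 2)), e)) i).val) =
      Fin.cons 1 (fun i : Fin (n + 1) => 1 + i.val - (e i).val) := by
    funext i
    refine Fin.cases ?_ (fun x => ?_) i
    · simp
    · simp only [Equiv.Perm.decomposeFin_symm_apply_succ, Equiv.swap_self, Equiv.refl_apply,
        Fin.val_succ, Fin.cons_succ]
      omega
  have hs : Equiv.Perm.sign (Equiv.Perm.decomposeFin.symm ((0 : Fin (n + 2)), e)) =
      Equiv.Perm.sign e := by
    rw [Equiv.Perm.decomposeFin.symm_sign]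
    simp
  rw [hw, hs]
  exact if_congr hc rfl rfl

theorem hsum_term_one (n : ℕ) (w : (Fin (n + 2) → ℕ) → ℂ) (e : Equiv.Perm (Fin (n + 1))) :
    (if ∀ i : Fin (n + 2),
        ((Equiv.Perm.decomposeFin.symm ((Fin.succ 0 : Fin (n + 2)), e)) i).val ≤ 1 + i.val then
      ((Equiv.Perm.sign (Equiv.Perm.decomposeFin.symm ((Fin.succ 0 : Fin (n + 2)), e)) : ℤ) : ℂ) *
        w (fun i => 1 + i.val -
          ((Equiv.Perm.decomposeFin.symm ((Fin.succ 0 : Fin (n + 2)), e)) i).val)
      else 0) =
    -(if ∀ i : Fin (n + 1), (e i).val ≤ 1 + i.val then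
      ((Equiv.Perm.sign e : ℤ) : ℂ) * w (Fin.cons 0 (bump (fun i => 1 + i.val - (e i).val)))
      else 0) := by
  have hval0 : ∀ y : Fin (n + 1), y ≠ 0 → y.val ≠ 0 := fun y hy h => hy (Fin.ext h)
  have hc : (∀ i : Fin (n + 2),
      ((Equiv.Perm.decomposeFin.symm ((Fin.succ 0 : Fin (n + 2)), e)) i).val ≤ 1 + i.val) ↔
      (∀ i : Fin (n + 1), (e i).val ≤ 1 + i.val) := by
    rw [Fin.forall_fin_succ]
    simp only [Equiv.Perm.decomposeFin_symm_apply_zero, Equiv.Perm.decomposeFin_symm_apply_succ,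
      swap_zero_one_succ, Fin.val_succ, Fin.val_zero]
    constructor
    · rintro ⟨-, h⟩ i
      have h1 := h i
      by_cases h0 : e i = 0
      · rw [h0]; simp
      · rw [if_neg h0] at h1
        omega
    · intro h
      refine ⟨by omega, fun i => ?_⟩
      have h1 := h i
      split_ifs
      · omega
      · omega
  have hw : (fun i : Fin (n + 2) =>
      1 + i.val - ((Equiv.Perm.decomposeFin.symm ((Fin.succ 0 : Fin (n + 2)), e)) i).val) =
      Fin.cons 0 (bump (fun i : Fin (n + 1) => 1 + i.val - (e i).val)) := by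
    funext i
    refine Fin.cases ?_ (fun x => ?_) i
    · simp
    · simp only [Equiv.Perm.decomposeFin_symm_apply_succ, swap_zero_one_succ, Fin.val_succ,
        Fin.cons_succ]
      unfold bump
      by_cases h0 : e x = 0
      · rw [if_pos h0]
        simp only [h0, Fin.val_zero, Nat.sub_zero]
        rw [if_pos (by omega)]
        omega
      · rw [if_neg h0]
        have h1 : 1 ≤ (e x).val := Nat.one_le_iff_ne_zero.mpr (hval0 _ h0)
        clear h0
        dsimp only
        split_ifs with h2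
        · omega
        · omega
  have hs : ((Equiv.Perm.sign (Equiv.Perm.decomposeFin.symm ((Fin.succ 0 : Fin (n + 2)), e)) : ℤ)
      : ℂ) = -((Equiv.Perm.sign e : ℤ) : ℂ) := by
    rw [Equiv.Perm.decomposeFin.symm_sign, if_neg (Fin.succ_ne_zero _)]
    simp
  rw [hw, hs]
  by_cases hH : ∀ i : Fin (n + 1), (e i).val ≤ 1 + i.val
  · rw [if_pos hH, if_pos (hc.mpr hH), neg_mul]
  · rw [if_neg hH, if_neg (fun h => hH (hc.mp h)), neg_zero]

theorem hsum_term_big (n : ℕ) (w : (Fin (n + 2) → ℕ) → ℂ) (p : Fin n)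
    (e : Equiv.Perm (Fin (n + 1))) :
    (if ∀ i : Fin (n + 2),
        ((Equiv.Perm.decomposeFin.symm ((p.succ.succ : Fin (n + 2)), e)) i).val ≤ 1 + i.val then
      ((Equiv.Perm.sign (Equiv.Perm.decomposeFin.symm ((p.succ.succ : Fin (n + 2)), e)) : ℤ) : ℂ) *
        w (fun i => 1 + i.val -
          ((Equiv.Perm.decomposeFin.symm ((p.succ.succ : Fin (n + 2)), e)) i).val)
      else 0) = 0 := by
  rw [if_neg]
  intro h
  have h0 := h 0
  rw [Equiv.Perm.decomposeFin_symm_apply_zero] at h0
  simp only [Fin.val_succ, Fin.val_zero] at h0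
  omega

theorem hsum_succ (n : ℕ) (w : (Fin (n + 2) → ℕ) → ℂ) :
    hsum (n + 2) w = hsum (n + 1) (fun c => w (Fin.cons 1 c)) -
      hsum (n + 1) (fun c => w (Fin.cons 0 (bump c))) := by
  unfold hsum
  rw [← Equiv.sum_comp (Equiv.Perm.decomposeFin (n := n + 1)).symm, Fintype.sum_prod_type,
    Fin.sum_univ_succ, Fin.sum_univ_succ]
  simp only [hsum_term_zero, hsum_term_one, hsum_term_big]
  rw [Finset.sum_neg_distrib]
  simp only [Finset.sum_const_zero, add_zero]
  ring

/-- The right-hand side of `hess`. -/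
noncomputable def esum (n : ℕ) (w : (Fin n → ℕ) → ℂ) : ℂ :=
  ∑ S ∈ ends n, (-1 : ℂ) ^ (n - S.card) * w (blk S)

theorem mem_ends {n : ℕ} (S : Finset (Fin n)) :
    S ∈ ends n ↔ ∀ i : Fin n, i.val + 1 = n → i ∈ S := by
  unfold ends
  rw [Finset.mem_filter]
  exact ⟨fun h => h.2, fun h => ⟨Finset.mem_univ _, h⟩⟩

theorem succ_mem_insert_zero {m : ℕ} (S : Finset (Fin m)) (x : Fin m) :
    x.succ ∈ insert 0 (S.map (Fin.succEmb m)) ↔ x ∈ S := by
  rw [Finset.mem_insert]
  constructor
  · rintro (h | h)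
    · exact absurd h (Fin.succ_ne_zero x)
    · exact (succ_mem_map_succ S x).mp h
  · intro h; exact Or.inr ((succ_mem_map_succ S x).mpr h)

theorem ends_succ (n : ℕ) :
    ends (n + 2) =
      (ends (n + 1)).image (fun S => insert 0 (S.map (Fin.succEmb (n + 1)))) ∪
        (ends (n + 1)).image (fun S => S.map (Fin.succEmb (n + 1))) := by
  ext S
  rw [Finset.mem_union, Finset.mem_image, Finset.mem_image, mem_ends]
  constructor
  · intro hS
    have hS' : (Finset.univ.filter (fun x : Fin (n + 1) => x.succ ∈ S)) ∈ ends (n + 1) := by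
      rw [mem_ends]
      intro x hx
      rw [Finset.mem_filter]
      exact ⟨Finset.mem_univ _, hS x.succ (by rw [Fin.val_succ]; omega)⟩
    by_cases h0 : (0 : Fin (n + 2)) ∈ S
    · left
      refine ⟨_, hS', ?_⟩
      ext a
      refine Fin.cases ?_ (fun x => ?_) a
      · exact ⟨fun _ => h0, fun _ => Finset.mem_insert_self _ _⟩
      · rw [succ_mem_insert_zero, Finset.mem_filter]
        exact ⟨fun h => h.2, fun h => ⟨Finset.mem_univ _, h⟩⟩
    · right
      refine ⟨_, hS', ?_⟩
      ext a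
      refine Fin.cases ?_ (fun x => ?_) a
      · exact ⟨fun h => absurd h (zero_notMem_map_succ _), fun h => absurd h h0⟩
      · rw [succ_mem_map_succ, Finset.mem_filter]
        exact ⟨fun h => h.2, fun h => ⟨Finset.mem_univ _, h⟩⟩
  · rintro (⟨S', hS', rfl⟩ | ⟨S', hS', rfl⟩)
    · intro i hi
      rw [mem_ends] at hS'
      have hi0 : i ≠ 0 := by
        intro h
        rw [h] at hi
        simp at hi
      obtain ⟨x, rfl⟩ := Fin.exists_succ_eq.mpr hi0
      rw [Fin.val_succ] at hi
      exact (succ_mem_insert_zero S' x).mpr (hS' x (by omega))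
    · intro i hi
      rw [mem_ends] at hS'
      have hi0 : i ≠ 0 := by
        intro h
        rw [h] at hi
        simp at hi
      obtain ⟨x, rfl⟩ := Fin.exists_succ_eq.mpr hi0
      rw [Fin.val_succ] at hi
      exact (succ_mem_map_succ S' x).mpr (hS' x (by omega))

theorem esum_succ (n : ℕ) (w : (Fin (n + 2) → ℕ) → ℂ) :
    esum (n + 2) w = esum (n + 1) (fun c => w (Fin.cons 1 c)) -
      esum (n + 1) (fun c => w (Fin.cons 0 (bump c))) := by
  unfold esum
  have hdisj : Disjoint
      ((ends (n + 1)).image (fun S => insert 0 (S.map (Fin.succEmb (n + 1)))))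
      ((ends (n + 1)).image (fun S => S.map (Fin.succEmb (n + 1)))) := by
    rw [Finset.disjoint_left]
    intro T h1 h2
    obtain ⟨S₁, -, rfl⟩ := Finset.mem_image.mp h1
    obtain ⟨S₂, -, h3⟩ := Finset.mem_image.mp h2
    have h4 : (0 : Fin (n + 2)) ∈ S₂.map (Fin.succEmb (n + 1)) := by
      rw [h3]; exact Finset.mem_insert_self _ _
    exact zero_notMem_map_succ _ h4
  have hinj1 : ∀ S₁ ∈ ends (n + 1), ∀ S₂ ∈ ends (n + 1),
      insert (0 : Fin (n + 2)) (S₁.map (Fin.succEmb (n + 1))) =
        insert 0 (S₂.map (Fin.succEmb (n + 1))) → S₁ = S₂ := by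
    intro S₁ _ S₂ _ h
    ext x
    rw [← succ_mem_insert_zero S₁ x, ← succ_mem_insert_zero S₂ x, h]
  have hinj2 : ∀ S₁ ∈ ends (n + 1), ∀ S₂ ∈ ends (n + 1),
      S₁.map (Fin.succEmb (n + 1)) = S₂.map (Fin.succEmb (n + 1)) → S₁ = S₂ := by
    intro S₁ _ S₂ _ h
    exact Finset.map_injective _ h
  rw [ends_succ, Finset.sum_union hdisj, Finset.sum_image hinj1, Finset.sum_image hinj2,
    sub_eq_add_neg, ← Finset.sum_neg_distrib]
  congr 1
  · apply Finset.sum_congr rfl
    intro S _
    rw [blk_insert_zero, Finset.card_insert_of_notMem (zero_notMem_map_succ S), Finset.card_map]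
    have he : n + 2 - (S.card + 1) = n + 1 - S.card := by omega
    rw [he]
  · apply Finset.sum_congr rfl
    intro S _
    rw [blk_map_succ, Finset.card_map]
    have hcard : S.card ≤ n + 1 := by
      have h1 := Finset.card_le_univ S
      rw [Fintype.card_fin] at h1
      exact h1
    have he : n + 2 - S.card = (n + 1 - S.card) + 1 := by omega
    rw [he, pow_succ]
    ring

theorem hess_zero (w : (Fin 0 → ℕ) → ℂ) : hsum 0 w = esum 0 w := by
  unfold hsum esum
  have he : ends 0 = {∅} := by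
    ext S
    rw [mem_ends, Finset.mem_singleton]
    exact ⟨fun _ => Finset.eq_empty_of_isEmpty S, fun _ i => i.elim0⟩
  rw [he, Finset.sum_singleton, Fintype.sum_unique, if_pos (fun i => i.elim0)]
  have hs : Equiv.Perm.sign (default : Equiv.Perm (Fin 0)) = 1 := by
    rw [Subsingleton.elim (default : Equiv.Perm (Fin 0)) 1, Equiv.Perm.sign_one]
  have hf : (fun i : Fin 0 => 1 + i.val - ((default : Equiv.Perm (Fin 0)) i).val) = blk ∅ :=
    funext (fun i => i.elim0)
  rw [hs, hf]
  simp

theorem hess_one (w : (Fin 1 → ℕ) → ℂ) : hsum 1 w = esum 1 w := by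
  unfold hsum esum
  have he : ends 1 = {{0}} := by
    ext S
    rw [mem_ends, Finset.mem_singleton]
    constructor
    · intro h
      ext a
      have ha : a = 0 := Subsingleton.elim _ _
      rw [ha]
      exact ⟨fun _ => Finset.mem_singleton_self _, fun _ => h 0 rfl⟩
    · rintro rfl i _
      have hi : i = 0 := Subsingleton.elim _ _
      rw [hi]
      exact Finset.mem_singleton_self _
  have hcond : ∀ i : Fin 1, ((default : Equiv.Perm (Fin 1)) i).val ≤ 1 + i.val :=
    fun i => by omega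
  rw [he, Finset.sum_singleton, Fintype.sum_unique, if_pos hcond]
  have hs : Equiv.Perm.sign (default : Equiv.Perm (Fin 1)) = 1 := by
    rw [Subsingleton.elim (default : Equiv.Perm (Fin 1)) 1, Equiv.Perm.sign_one]
  have hf : (fun i : Fin 1 => 1 + i.val - ((default : Equiv.Perm (Fin 1)) i).val) =
      blk ({0} : Finset (Fin 1)) := by
    funext i
    have hi : i = 0 := Subsingleton.elim _ _
    have hd : (default : Equiv.Perm (Fin 1)) i = 0 := Subsingleton.elim _ _
    rw [hd, hi]
    unfold blk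
    rw [if_pos (Finset.mem_singleton_self _)]
    have h1 : (({0} : Finset (Fin 1)).filter (· < 0)) = ∅ := by
      apply Finset.filter_eq_empty_iff.mpr
      intro a _
      exact Fin.not_lt_zero a
    rw [h1, Finset.sup_empty]
    rfl
  rw [hs, hf]
  simp

theorem hsum_eq_esum_succ : ∀ (n : ℕ) (w : (Fin (n + 1) → ℕ) → ℂ),
    hsum (n + 1) w = esum (n + 1) w := by
  intro n
  induction n with
  | zero => intro w; exact hess_one w
  | succ n ih =>
    intro w
    rw [hsum_succ, esum_succ, ih, ih]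

theorem hess {n : ℕ} (w : (Fin n → ℕ) → ℂ) :
    (∑ κ : Equiv.Perm (Fin n), if ∀ i : Fin n, (κ i).val ≤ 1 + i.val then
        ((Equiv.Perm.sign κ : ℤ) : ℂ) * w (fun i => 1 + i.val - (κ i).val) else 0) =
      ∑ S ∈ ends n, (-1 : ℂ) ^ (n - S.card) * w (blk S) := by
  show hsum n w = esum n w
  cases n with
  | zero => exact hess_zero w
  | succ n => exact hsum_eq_esum_succ n w

example {n : ℕ} (w : (Fin n → ℕ) → ℂ) :
    (∑ κ : Equiv.Perm (Fin n), if ∀ i : Fin n, (κ i).val ≤ 1 + i.val then
        ((Equiv.Perm.sign κ : ℤ) : ℂ) * w (fun i => 1 + i.val - (κ i).val) else 0) =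
      ∑ S ∈ ends n, (-1 : ℂ) ^ (n - S.card) * w (blk S) := hess w

end Cfsg.Agent.H11.Sv

#print axioms Cfsg.Agent.H11.Sv.hess
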