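import Mathlib
import Cfsg.Agent.H77.TmDefs

/-!
# S5987-AREF (helper77's project): the arithmetic for `i` even, fixed spaces exist
-/

set_option autoImplicit false

namespace Cfsg.Agent.H11.Tm

open Cfsg.Agent.H77.Tm

/-- the data `i = 2 h`, `d = h N + ρ`, `m = i a + b` -/
theorem ar_setup (d m i : ℕ) (hi : 0 < i) (hev : Even i) :
    ∃ h N ρ a b : ℕ, 0 < h ∧ i = 2 * h ∧ i / 2 = h ∧ d = h * N + ρ ∧ ρ < h ∧ (2 * d) / i = N ∧
      (2 * d) % i = 2 * ρ ∧ m = 2 * h * a + b ∧ b < 2 * h ∧ m / i = a ∧ m % i = b := by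
  obtain ⟨h, rfl⟩ : ∃ h, i = 2 * h := by
    obtain ⟨k, rfl⟩ := hev
    exact ⟨k, by ring⟩
  have hh : 0 < h := by omega
  exact ⟨h, d / h, d % h, m / (2 * h), m % (2 * h), hh, rfl, by omega, (Nat.div_add_mod d h).symm,
    Nat.mod_lt _ hh, Nat.mul_div_mul_left d h (by norm_num), Nat.mul_mod_mul_left 2 d h,
    (Nat.div_add_mod m (2 * h)).symm, Nat.mod_lt _ (by omega), rfl, rfl⟩

theorem aref_core (d m t A h N ρ a b c : ℕ) (hh : 0 < h) (hd : d = h * N + ρ) (hρ : ρ < h)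
    (hm : m = 2 * h * a + b) (hb : b < 2 * h) (ha1 : 1 ≤ a) (ht : 1 ≤ t) (H1 : t + 2 * a ≤ N)
    (H2 : (b ≤ h ∧ ρ = 0 ∧ N % 2 = 0 ∧ t + 2 * a < N) ∨ (b ≤ ρ ∧ N % 2 = 1) ∨
      (b < ρ ∧ N % 2 = 0))
    (hc : (A % 2 = 0 → c = 1) ∧ (A % 2 = 1 → c = 0)) (H3 : h * A + c ≤ d) :
    ∃ j w, (j = 0 ∨ t + 2 * j ≤ A + 1) ∧ w + h * A + c ≤ d ∧ 2 * h * j + w = m := by
  obtain ⟨hc0, hc1⟩ := hc
  have e2 : 2 * h * a = 2 * (h * a) := by ring
  obtain ⟨S, hS⟩ : ∃ S, N = t + 2 * a + S := ⟨N - (t + 2 * a), by omega⟩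
  have eN : h * N = h * t + 2 * (h * a) + h * S := by rw [hS]; ring
  have hS0 : S = 0 → h * S = 0 := by intro h0; rw [h0, Nat.mul_zero]
  have hS1 : S = 1 → h * S = h := by intro h0; rw [h0, Nat.mul_one]
  have hS2 : 2 ≤ S → 2 * h ≤ h * S := by
    intro h0
    calc 2 * h = h * 2 := Nat.mul_comm 2 h
      _ ≤ h * S := Nat.mul_le_mul_left h h0
  rcases Nat.lt_or_ge (A + 1) (t + 2 * a) with hJ | hJ
  · rcases Nat.lt_or_ge (A + 1) t with hAt | hAt
    · refine ⟨0, m, Or.inl rfl, ?_, by simp⟩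
      have h1 : h * (A + 2) ≤ h * t := Nat.mul_le_mul_left h (by omega)
      have e1 : h * (A + 2) = h * A + 2 * h := by ring
      omega
    · obtain ⟨J, ε, hJε, hε⟩ : ∃ J ε, A + 1 = 2 * J + t + ε ∧ ε ≤ 1 :=
        ⟨(A + 1 - t) / 2, (A + 1 - t) % 2, by omega, by omega⟩
      have h4 : h * J ≤ h * a := Nat.mul_le_mul_left h (by omega)
      have e4 : 2 * h * J = 2 * (h * J) := by ring
      have e5 : h * A + h = 2 * (h * J) + h * t + h * ε := by
        have e6 : h * (A + 1) = h * (2 * J + t + ε) := by rw [hJε]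
        calc h * A + h = h * (A + 1) := by ring
          _ = h * (2 * J + t + ε) := e6
          _ = _ := by ring
      have hε0 : ε = 0 → h * ε = 0 := by intro h0; rw [h0, Nat.mul_zero]
      have hε1 : ε = 1 → h * ε = h := by intro h0; rw [h0, Nat.mul_one]
      refine ⟨J, m - 2 * h * J, Or.inr (by omega), ?_, by omega⟩
      omega
  · refine ⟨a, b, Or.inr hJ, ?_, hm.symm⟩
    have hcases : (∃ D, N = A + D) ∨ (∃ D, A = N + 1 + D) := by
      rcases Nat.lt_or_ge N A with h0 | h0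
      · exact Or.inr ⟨A - N - 1, by omega⟩
      · exact Or.inl ⟨N - A, by omega⟩
    rcases hcases with ⟨D, hD⟩ | ⟨D, hD⟩
    · have eA : h * N = h * A + h * D := by rw [hD]; ring
      have hD0 : D = 0 → h * D = 0 := by intro h0; rw [h0, Nat.mul_zero]
      have hD1 : D = 1 → h * D = h := by intro h0; rw [h0, Nat.mul_one]
      have hD2 : 2 ≤ D → 2 * h ≤ h * D := by
        intro h0
        calc 2 * h = h * 2 := Nat.mul_comm 2 h
          _ ≤ h * D := Nat.mul_le_mul_left h h0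
      omega
    · have eA : h * A = h * N + h + h * D := by rw [hD]; ring
      omega

theorem arEvenFix : StArEvenFix := by
  intro d m i t A hi hev ht hmd him H1 H2 H3
  obtain ⟨h, N, ρ, a, b, hh, hi', hi2, hd, hρ, hN, hR, hm, hb, ha, hbb⟩ := ar_setup d m i hi hev
  rw [hN, ha] at H1
  rw [hN, hR, ha, hbb] at H2
  rw [hi2] at H3 ⊢
  subst hi'
  simp only [Nat.even_iff, Nat.odd_iff] at H2
  have ha1 : 1 ≤ a := by rw [← ha]; exact Nat.div_pos him (by omega)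
  exact aref_core d m t A h N ρ a b (if Even A then 1 else 0) hh hd hρ hm hb ha1 ht H1 (by omega)
    ⟨fun h0 => by rw [if_pos (Nat.even_iff.mpr h0)],
      fun h0 => by rw [if_neg (Nat.not_even_iff_odd.mpr (Nat.odd_iff.mpr h0))]⟩ H3

example : Cfsg.Agent.H77.Tm.StArEvenFix := arEvenFix

end Cfsg.Agent.H11.Tm

#print axioms Cfsg.Agent.H11.Tm.arEvenFix
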