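import Mathlib
import Cfsg.Agent.H77.TmDefs
import Cfsg.Agent.H11.TmArEF

/-!
# S5987-AREE (helper77's project): the arithmetic for `i` even, a bad element exists
-/

set_option autoImplicit false

namespace Cfsg.Agent.H11.Tm

open Cfsg.Agent.H77.Tm

theorem divmod_unique (h N ρ N' ρ' : ℕ) (h1 : h * N + ρ = h * N' + ρ') (hρ : ρ < h)
    (hρ' : ρ' < h) : N = N' ∧ ρ = ρ' := by
  have hh : 0 < h := by omega
  have hN : N = N' := by
    have a1 : (h * N + ρ) / h = N := by rw [Nat.mul_add_div hh, Nat.div_eq_of_lt hρ, add_zero]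
    have a2 : (h * N' + ρ') / h = N' := by
      rw [Nat.mul_add_div hh, Nat.div_eq_of_lt hρ', add_zero]
    rw [← a1, h1, a2]
  subst hN
  exact ⟨rfl, by omega⟩

theorem nonrep_of (d m t A h a b : ℕ) (hh : 0 < h) (hm : m = 2 * h * a + b) (hb : b < 2 * h)
    (hA1 : 1 ≤ A) (hW : h * A + (if Even A then 1 else 0) ≤ d)
    (hsmall : d < h * A + (if Even A then 1 else 0) + 2 * h)
    (hno : (if A ≤ t then 0 else (A - t + 1) / 2) < a ∨
      d < b + h * A + (if Even A then 1 else 0)) :
    1 ≤ A ∧ (Odd A → h * A ≤ d) ∧ (Even A → h * A + 1 ≤ d) ∧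
      ∀ j w : ℕ, j ≤ (if A ≤ t then 0 else (A - t + 1) / 2) →
        w + h * A + (if Even A then 1 else 0) ≤ d → 2 * h * j + w ≠ m := by
  refine ⟨hA1, ?_, ?_, ?_⟩
  · intro ho
    have hne : ¬ Even A := Nat.not_even_iff_odd.mpr ho
    rw [if_neg hne] at hW
    omega
  · intro he
    rw [if_pos he] at hW
    exact hW
  · intro j w hj hw hjw
    have hw' : w < 2 * h := by omega
    have hja : j = a := by
      have h1 : (2 * h * j + w) / (2 * h) = j := by
        rw [Nat.mul_add_div (by omega), Nat.div_eq_of_lt hw', add_zero]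
      have h2 : (2 * h * a + b) / (2 * h) = a := by
        rw [Nat.mul_add_div (by omega), Nat.div_eq_of_lt hb, add_zero]
      rw [← h1, hjw, hm, h2]
    subst hja
    have hwb : w = b := by omega
    subst hwb
    rcases hno with h1 | h1
    · omega
    · omega

theorem hex_fact (d m h N ρ : ℕ) (hh : 0 < h) (hd : d = h * N + ρ) (hρ : ρ < h)
    (hm2 : m < 2 * h) (hmd : m + 1 ≤ d)
    (hex : ∃ j, j < m ∧ (2 * h ∣ d - 1 - j ∨ (d - j) % (2 * h) = h)) :
    1 ≤ N ∧ ((N % 2 = 1 ∧ ρ < m) ∨ (N % 2 = 0 ∧ 1 ≤ ρ ∧ ρ ≤ m) ∨ (N % 2 = 0 ∧ h + ρ < m)) := by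
  obtain ⟨j, hjm, hj | hj⟩ := hex
  · obtain ⟨c, hc⟩ := hj
    have e3 : 2 * h * c = h * (2 * c) := by ring
    have hc1 : 1 ≤ c := by
      rcases Nat.eq_zero_or_pos c with h0 | h0
      · rw [h0, Nat.mul_zero] at hc
        omega
      · exact h0
    rcases Nat.lt_or_ge (j + 1) h with hjh | hjh
    · obtain ⟨rfl, rfl⟩ := divmod_unique h N ρ (2 * c) (j + 1) (by omega) hρ hjh
      exact ⟨by omega, Or.inr (Or.inl ⟨by omega, by omega, by omega⟩)⟩
    · have e4 : h * (2 * c + 1) = h * (2 * c) + h := by ring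
      obtain ⟨rfl, rfl⟩ := divmod_unique h N ρ (2 * c + 1) (j + 1 - h) (by omega) hρ (by omega)
      exact ⟨by omega, Or.inl ⟨by omega, by omega⟩⟩
  · have hdm := Nat.div_add_mod (d - j) (2 * h)
    rw [hj] at hdm
    obtain ⟨c, hc⟩ : ∃ c, c = (d - j) / (2 * h) := ⟨_, rfl⟩
    rw [← hc] at hdm
    have e3 : 2 * h * c = h * (2 * c) := by ring
    rcases Nat.lt_or_ge j h with hjh | hjh
    · have e4 : h * (2 * c + 1) = h * (2 * c) + h := by ring
      obtain ⟨rfl, rfl⟩ := divmod_unique h N ρ (2 * c + 1) j (by omega) hρ hjh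
      exact ⟨by omega, Or.inl ⟨by omega, by omega⟩⟩
    · have e4 : h * (2 * c + 2) = h * (2 * c) + 2 * h := by ring
      obtain ⟨rfl, rfl⟩ := divmod_unique h N ρ (2 * c + 2) (j - h) (by omega) hρ (by omega)
      exact ⟨by omega, Or.inr (Or.inr ⟨by omega, by omega⟩)⟩

theorem arEvenEx : StArEvenEx := by
  intro d m i t hi hev ht hm1 hmd hex hnot
  obtain ⟨h, N, ρ, a, b, hh, hi', hi2, hd, hρ, hN, hR, hm, hb, ha, hbb⟩ := ar_setup d m i hi hev
  rw [hN, hR, ha, hbb] at hnot
  rw [hi2] at hex ⊢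
  subst hi'
  simp only [Nat.even_iff, Nat.odd_iff] at hnot
  have key : ∀ A, 1 ≤ A → h * A + (if A % 2 = 0 then 1 else 0) ≤ d →
      d < h * A + (if A % 2 = 0 then 1 else 0) + 2 * h →
      ((if A ≤ t then 0 else (A - t + 1) / 2) < a ∨
        d < b + h * A + (if A % 2 = 0 then 1 else 0)) →
      ∃ A : ℕ, 1 ≤ A ∧ (Odd A → h * A ≤ d) ∧ (Even A → h * A + 1 ≤ d) ∧
        ∀ j w : ℕ, j ≤ (if A ≤ t then 0 else (A - t + 1) / 2) →
          w + h * A + (if Even A then 1 else 0) ≤ d → 2 * h * j + w ≠ m := by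
    intro A h1 h2 h3 h4
    have hcdef : (if Even A then 1 else 0 : ℕ) = (if A % 2 = 0 then 1 else 0) := by
      simp only [Nat.even_iff]
    exact ⟨A, nonrep_of d m t A h a b hh hm hb h1 (by rw [hcdef]; exact h2)
      (by rw [hcdef]; exact h3) (by rw [hcdef]; exact h4)⟩
  have hX1 := Nat.mul_sub_one h N
  have hX2 := Nat.mul_sub h N 2
  rcases Nat.lt_or_ge m (2 * h) with hmi | hmi
  · have ha0 : a = 0 := by rw [← ha]; exact Nat.div_eq_of_lt hmi
    subst ha0
    have hbm : b = m := by omega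
    obtain ⟨hN1, hf⟩ := hex_fact d m h N ρ hh hd hρ hmi hmd hex
    have hXh : h ≤ h * N := Nat.le_mul_of_pos_right h (by omega)
    rcases hf with ⟨hodd, hlt⟩ | ⟨hevn, hρ1, hle⟩ | ⟨hevn, hlt⟩
    · exact key N hN1 (by split_ifs <;> omega) (by split_ifs <;> omega)
        (Or.inr (by split_ifs <;> omega))
    · exact key N hN1 (by split_ifs <;> omega) (by split_ifs <;> omega)
        (Or.inr (by split_ifs <;> omega))
    · exact key (N - 1) (by omega) (by split_ifs <;> omega) (by split_ifs <;> omega)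
        (Or.inr (by split_ifs <;> omega))
  · have ha1 : 1 ≤ a := by rw [← ha]; exact Nat.div_pos hmi (by omega)
    have hN2 : 2 ≤ N := by
      by_contra hlt
      have h1 : h * N ≤ h * 1 := Nat.mul_le_mul_left h (by omega)
      omega
    have hXh : h ≤ h * N := Nat.le_mul_of_pos_right h (by omega)
    have hX2h : h * 2 ≤ h * N := Nat.mul_le_mul_left h hN2
    rcases Nat.lt_or_ge N (t + 2 * a) with hbig | hsm
    · exact key (N - 1) (by omega) (by split_ifs <;> omega) (by split_ifs <;> omega)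
        (Or.inl (by split_ifs <;> omega))
    · rcases Nat.mod_two_eq_zero_or_one N with hev0 | hod
      · rcases Nat.eq_zero_or_pos ρ with hρ0 | hρpos
        · rcases Nat.lt_or_ge h b with hbh | hbh
          · exact key (N - 1) (by omega) (by split_ifs <;> omega) (by split_ifs <;> omega)
              (Or.inr (by split_ifs <;> omega))
          · have hteq : t + 2 * a = N := by omega
            exact key (N - 2) (by omega) (by split_ifs <;> omega) (by split_ifs <;> omega)
              (Or.inl (by split_ifs <;> omega))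
        · exact key N (by omega) (by split_ifs <;> omega) (by split_ifs <;> omega)
            (Or.inr (by split_ifs <;> omega))
      · exact key N (by omega) (by split_ifs <;> omega) (by split_ifs <;> omega)
          (Or.inr (by split_ifs <;> omega))

example : Cfsg.Agent.H77.Tm.StArEvenEx := arEvenEx

end Cfsg.Agent.H11.Tm

#print axioms Cfsg.Agent.H11.Tm.arEvenEx
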