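import Mathlib
import Cfsg.Agent.H77.TmDefs2
import Cfsg.Agent.H60.OtCommon

/-!
# S5987-QSTRUCT (helper77's project): the structure of an isometry of odd prime order `r ≠ p`
of a quadratic space, by transfer to the symplectic pieces along the form trick.

The transfer follows helper60's `H60/OtUpper.lean`, `OtBuild.lean`, `OtModc.lean`.
-/

set_option autoImplicit false

namespace Cfsg.Agent.H11.Tm

open Cfsg.Agent.H45 Cfsg.Agent.H42.Spd Cfsg.Agent.H42.Spn Cfsg.Agent.H42.Ti Cfsg.Agent.H77.Tq
  Cfsg.Agent.H77.Tm Module Polynomial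

universe u v

theorem qStruct (hT : StQTrick.{u, v}) (hS : Cfsg.Agent.H14.Ot.StOSplit.{u, v})
    (hModc : Cfsg.Agent.H42.Spd.StModc.{u, v}) (hUp : StTiUpper.{u, v})
    (hUpE : StTiUpperEven.{u, v}) (hHalf : StTiHalf.{u, v}) (hBuild : StTiBuild.{u, v}) :
    StQStruct.{u, v} := by
  intro F _ _ V _ _ _ r Q T hC
  obtain ⟨V', _, _, _, A, T', ι, hctx, hιinj, hιT, hrange, hker', hUK, hTI, -⟩ :=
    hT F V r Q T hC
  obtain ⟨hKU, hKUtop, hsplit⟩ := hS F V r T hC.cast_ne hC.pow
  have hB : ∀ x y : V, pol Q x y = QuadraticMap.polar (⇑Q) x y := fun x y => rfl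
  have hsymm : ∀ x y : V, pol Q x y = pol Q y x := by
    intro x y
    rw [hB, hB, QuadraticMap.polar_comm]
  have hUK' : ∀ u ∈ LinearMap.range (T - 1), ∀ k ∈ LinearMap.ker (T - 1), pol Q u k = 0 := by
    intro u hu k hk
    rw [← hrange] at hu
    obtain ⟨x, rfl⟩ := hu
    exact hUK x k hk
  have hKnd := Cfsg.Agent.H60.Ot.ker_nondeg (pol Q) T hsymm hC.nondeg hKUtop hUK'
  have hkk' : kk T' ⊤ = 0 := by
    unfold kk
    rw [top_inf_eq, hker', finrank_bot]
  have hRdim : Module.finrank F ↥(LinearMap.range (T - 1)) = Module.finrank F V' := by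
    rw [← hrange]
    exact LinearMap.finrank_range_of_inj hιinj
  have hipos : 0 < ii F r := Cfsg.Agent.H60.Ot.ot_ii_pos r hC.prime hC.cast_ne
  have hiso : Iso A T' := ⟨hctx.good.alt rfl, hctx.good.nondeg, hctx.good.isom⟩
  have hndtop : Nd A T' ⊤ := by
    refine ⟨?_, ?_⟩
    · rw [Module.End.mem_invtSubmodule]
      exact le_top
    · rw [eq_bot_iff]
      intro x hx
      rw [Submodule.mem_bot]
      apply hctx.good.nondeg
      intro y
      exact hctx.good.refl (hx.2 y Submodule.mem_top)
  refine ⟨⟨hKU, hKUtop, ?_, hKnd, ?_⟩, ?_, ?_, ?_⟩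
  · intro c hc u hu
    have h1 := hUK' u hu c hc
    rw [hB] at h1
    rw [QuadraticMap.polar_comm]
    exact h1
  · rw [eq_bot_iff]
    intro x hx
    rw [Submodule.mem_bot]
    apply hC.nondeg
    intro y
    have hy : y ∈ LinearMap.ker (T - 1) ⊔ LinearMap.range (T - 1) := by
      rw [hKUtop]
      exact Submodule.mem_top
    obtain ⟨k, hk, u, hu, rfl⟩ := Submodule.mem_sup.mp hy
    have h1 : QuadraticMap.polar (⇑Q) x k = 0 := hUK' x hx.1 k hk
    have h2 : QuadraticMap.polar (⇑Q) x u = 0 := by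
      have h3 := (mem_perp (pol Q) _ x).mp hx.2 u hu
      rw [hB] at h3
      rw [QuadraticMap.polar_comm]
      exact h3
    rw [QuadraticMap.polar_add_right, h1, h2, add_zero]
  · obtain ⟨s, hs⟩ := hModc F V' r A T' hctx ⊤ hndtop
    rw [finrank_top, hkk', zero_add] at hs
    exact ⟨s, by rw [hRdim, hs]⟩
  · intro W hWinv hWTS
    obtain ⟨W', hW'def⟩ : ∃ W' : Submodule F V', W' = (W ⊓ LinearMap.range (T - 1)).comap ι :=
      ⟨_, rfl⟩
    have hW'mem : ∀ x, x ∈ W' ↔ ι x ∈ W ⊓ LinearMap.range (T - 1) := by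
      intro x
      rw [hW'def]
      rfl
    have hW'map : W'.map ι = W ⊓ LinearMap.range (T - 1) := by
      rw [hW'def, Submodule.map_comap_eq, hrange]
      exact inf_eq_right.mpr inf_le_right
    have hW'inv : W' ∈ T'.invtSubmodule := by
      rw [Module.End.mem_invtSubmodule]
      intro x hx
      have hx' : ι x ∈ W ⊓ LinearMap.range (T - 1) := (hW'mem x).mp hx
      show T' x ∈ W'
      rw [hW'mem]
      refine ⟨?_, ?_⟩
      · rw [hιT]
        exact hWinv hx'.1
      · rw [← hrange]
        exact LinearMap.mem_range_self ι (T' x)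
    have hW'TI : TI A W' := by
      rw [hTI W' hW'inv, hW'map]
      intro a ha
      exact hWTS a ha.1
    have hW'dim : Module.finrank F W' = Module.finrank F ↥(W ⊓ LinearMap.range (T - 1)) := by
      rw [← hW'map]
      exact LinearEquiv.finrank_eq (Submodule.equivMapOfInjective ι hιinj W')
    have hWdim : Module.finrank F W = Module.finrank F ↥(W ⊓ LinearMap.ker (T - 1)) +
        Module.finrank F ↥(W ⊓ LinearMap.range (T - 1)) := by
      have hdisj : (W ⊓ LinearMap.ker (T - 1)) ⊓ (W ⊓ LinearMap.range (T - 1)) = ⊥ := by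
        rw [eq_bot_iff, ← hKU]
        exact inf_le_inf inf_le_right inf_le_right
      have h1 := Submodule.finrank_sup_add_finrank_inf_eq (W ⊓ LinearMap.ker (T - 1))
        (W ⊓ LinearMap.range (T - 1))
      rw [hdisj, finrank_bot, add_zero, hsplit W hWinv] at h1
      exact h1
    obtain ⟨s, w', hs, hw'⟩ := hUp F V' r A T' hctx W' hW'inv hW'TI
    have hw'0 : w' = 0 := by
      rw [hkk'] at hw'
      omega
    subst hw'0
    have hhalf := hHalf F V' A T' hiso ⊤ W' hndtop.2 le_top hW'TI
    rw [finrank_top, hs, add_zero] at hhalf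
    refine ⟨s, ?_, ?_, ?_⟩
    · rw [hWdim, ← hW'dim, hs]
      omega
    · rw [hRdim]
      exact hhalf
    · intro heven Φs hΦs
      obtain ⟨s2, w2, hs2, hw2, hle⟩ := hUpE F V' r A T' hctx heven Φs hΦs W' hW'inv hW'TI
      have hw20 : w2 = 0 := by
        rw [hkk'] at hw2
        omega
      subst hw20
      have hss : s2 = s := by
        rw [hs2, add_zero, add_zero] at hs
        exact Nat.eq_of_mul_eq_mul_left hipos hs
      rw [← hss]
      refine hle.trans (Finset.sum_le_sum ?_)
      intro φ _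
      apply Nat.div_le_div_right
      have hmap : (LinearMap.ker (aeval T' φ)).map ι ≤ LinearMap.ker (aeval T φ) := by
        rintro _ ⟨x, hx, rfl⟩
        rw [LinearMap.mem_ker, ← Cfsg.Agent.H60.Ot.aeval_intertwine T T' ι hιT φ x,
          LinearMap.mem_ker.mp hx, map_zero]
      calc Module.finrank F ↥(LinearMap.ker (aeval T' φ))
          = Module.finrank F ↥((LinearMap.ker (aeval T' φ)).map ι) :=
            LinearEquiv.finrank_eq (Submodule.equivMapOfInjective ι hιinj _)
        _ ≤ _ := Submodule.finrank_mono hmap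
  · intro s hodd heven
    obtain ⟨U'', hU''inv, hU''TI, hU''dim⟩ := hBuild F V' r A T' hctx s 0 (by rw [hkk'])
      (fun ho => by
        have h1 := hodd ho
        rw [hkk', zero_add, ← hRdim]
        exact h1)
      (fun he => by
        rcases heven he with h | h
        · left
          exact h
        · right
          rw [hkk', zero_add, ← hRdim]
          exact h)
    refine ⟨U''.map ι, ?_, ?_, (hTI U'' hU''inv).mp hU''TI, ?_⟩
    · rw [← hrange]
      exact LinearMap.map_le_range
    · rw [Module.End.mem_invtSubmodule]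
      rintro _ ⟨y, hy, rfl⟩
      show T (ι y) ∈ U''.map ι
      rw [← hιT]
      exact Submodule.mem_map_of_mem (hU''inv hy)
    · rw [← (LinearEquiv.finrank_eq (Submodule.equivMapOfInjective ι hιinj U'')), hU''dim,
        add_zero]

example : StQTrick.{u, v} → Cfsg.Agent.H14.Ot.StOSplit.{u, v} →
    Cfsg.Agent.H42.Spd.StModc.{u, v} → StTiUpper.{u, v} → StTiUpperEven.{u, v} →
    StTiHalf.{u, v} → StTiBuild.{u, v} → Cfsg.Agent.H77.Tm.StQStruct.{u, v} := qStruct

end Cfsg.Agent.H11.Tm

#print axioms Cfsg.Agent.H11.Tm.qStruct
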