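import Mathlib
import Cfsg.Agent.H77.TmDefs2
import Cfsg.Agent.H49.Isom
import Cfsg.Agent.H49.Count
import Cfsg.Agent.H49.MinusForm

/-!
# S5987-ZEROS (helper77's project): the number of singular vectors of a minus-type space
(all characteristics)

The final count follows helper40's `Cfsg.Agent.H40.Oh.zeros_minus` (odd characteristic), with the
identification of the form done through `H49.quad_ext_basis`, which is characteristic free.
-/

set_option autoImplicit false

namespace Cfsg.Agent.H11.Tm

open Cfsg.Agent.H45 Cfsg.Agent.H42.Spd Cfsg.Agent.H42.Ti Cfsg.Agent.H77.Tq Cfsg.Agent.H77.Tm Module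

universe u v

/-- The span of pairwise orthogonal singular vectors is totally singular. -/
theorem ts_span {F : Type u} [Field F] {V : Type v} [AddCommGroup V] [Module F V]
    (Q : QuadraticForm F V) {κ : Type*} (g : κ → V) (h0 : ∀ i, Q (g i) = 0)
    (hp : ∀ i j, QuadraticMap.polar ⇑Q (g i) (g j) = 0) :
    TS Q (Submodule.span F (Set.range g)) := by
  have h1 : ∀ x ∈ Submodule.span F (Set.range g), ∀ j, QuadraticMap.polar ⇑Q x (g j) = 0 := by
    intro x hx j
    induction hx using Submodule.span_induction with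
    | mem y hy =>
      obtain ⟨i, rfl⟩ := hy
      exact hp i j
    | zero => simp
    | add x y _ _ hx hy => rw [QuadraticMap.polar_add_left, hx, hy, add_zero]
    | smul c x _ hx => rw [QuadraticMap.polar_smul_left, hx]; simp
  have h2 : ∀ x ∈ Submodule.span F (Set.range g), ∀ y ∈ Submodule.span F (Set.range g),
      QuadraticMap.polar ⇑Q x y = 0 := by
    intro x hx y hy
    induction hy using Submodule.span_induction with
    | mem z hz =>
      obtain ⟨j, rfl⟩ := hz
      exact h1 x hx j
    | zero => simp
    | add y z _ _ hy hz => rw [QuadraticMap.polar_add_right, hy, hz, add_zero]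
    | smul c y _ hy => rw [QuadraticMap.polar_smul_right, hy]; simp
  intro x hx
  induction hx using Submodule.span_induction with
  | mem y hy =>
    obtain ⟨i, rfl⟩ := hy
    exact h0 i
  | zero => exact map_zero Q
  | add x y hx' hy' hx hy =>
    rw [QuadraticMap.map_add Q x y, hx, hy, h2 x hx' y hy']; simp
  | smul c x _ hx => rw [QuadraticMap.map_smul, hx]; simp

theorem zerosM : StZerosM.{u, v} := by
  intro F _ _ C _ _ _ Q e hfr hnd hnoTS
  classical
  have hq : 0 < Fintype.card F := Fintype.card_pos
  have he1 : 1 ≤ e := by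
    have h := hnoTS ⊥ (fun u hu => by rw [(Submodule.mem_bot F).mp hu]; exact map_zero Q)
    rw [finrank_bot] at h
    omega
  have hndeg : (QuadraticMap.polarBilin Q).Nondegenerate :=
    ⟨fun x h => hnd x (fun y => by simpa using h y),
      fun x h => hnd x (fun y => by
        rw [QuadraticMap.polar_comm]
        simpa using h y)⟩
  rcases Cfsg.Agent.H49.even_standard_gram hfr Q hndeg with
    ⟨b, hb0, hbpol⟩ | ⟨b, ζ, hζ, hbQ, hpol⟩
  · exfalso
    have hTS : TS Q (Submodule.span F (Set.range (fun a : Fin e => b (Sum.inl a)))) := by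
      apply ts_span Q (fun a : Fin e => b (Sum.inl a)) (fun a => hb0 _)
      intro i j
      rw [hbpol]
      simp [Cfsg.Agent.H49.hypGram]
    have hli : LinearIndependent F (fun a : Fin e => b (Sum.inl a)) :=
      b.linearIndependent.comp _ Sum.inl_injective
    have h := hnoTS _ hTS
    rw [finrank_span_eq_card hli, Fintype.card_fin] at h
    omega
  · obtain ⟨Q', hcomp⟩ : ∃ Q' : QuadraticForm F C,
        ∀ x, Q' x = Cfsg.quadFormMinus (e - 1) F 1 ζ (b.equivFun x) :=
      ⟨(Cfsg.Agent.H49.QMin (e - 1) F 1 ζ).comp (b.equivFun : C →ₗ[F] _), fun x => rfl⟩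
    have hsingle : ∀ i, b.equivFun (b i) = Pi.single i 1 := by
      intro i
      funext j
      rw [Module.Basis.equivFun_self, Pi.single_apply]
      simp [eq_comm]
    have hQQ' : Q = Q' := by
      apply Cfsg.Agent.H49.quad_ext_basis b
      · intro i
        rw [hbQ, hcomp, hsingle]
        rcases i with (i | i) | k
        · simp [Cfsg.quadFormMinus, Pi.single_apply]
        · simp [Cfsg.quadFormMinus, Pi.single_apply]
        · fin_cases k <;> simp [Cfsg.quadFormMinus, Pi.single_apply]
      · intro i j
        have e' : QuadraticMap.polar ⇑Q' (b i) (b j) =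
            QuadraticMap.polar (Cfsg.quadFormMinus (e - 1) F 1 ζ) (b.equivFun (b i))
              (b.equivFun (b j)) := by
          simp only [QuadraticMap.polar, hcomp, map_add]
        rw [hpol, e', Cfsg.Agent.H49.polar_quadFormMinus, hsingle, hsingle]
        simp
    have hQ : ∀ x, Q x = Cfsg.quadFormMinus (e - 1) F 1 ζ (b.equivFun x) := by
      intro x
      rw [hQQ']
      exact hcomp x
    have hcard : Nat.card {x : C // Q x = 0} =
        Nat.card {c : ((Fin (e - 1) ⊕ Fin (e - 1)) ⊕ Fin 2 → F) //
          Cfsg.quadFormMinus (e - 1) F 1 ζ c = 0} :=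
      Nat.card_congr (Equiv.subtypeEquiv b.equivFun.toEquiv (fun x => by rw [hQ x]; rfl))
    have hab : ∀ z₁ z₂ : F, z₁ ^ 2 + 1 * z₁ * z₂ + ζ * z₂ ^ 2 = 0 → z₁ = 0 ∧ z₂ = 0 := by
      intro z₁ z₂ h
      have hz2 : z₂ = 0 := by
        by_contra hz
        apply hζ (z₁ / z₂)
        field_simp
        linear_combination h
      rw [hz2] at h
      simp at h
      exact ⟨h, hz2⟩
    rw [hcard, Cfsg.Agent.H49.card_zeros_minus (e - 1) 1 ζ hab]
    obtain ⟨s, rfl⟩ : ∃ s, e = s + 1 := ⟨e - 1, by omega⟩
    simp only [Nat.add_sub_cancel]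
    rcases s with _ | s
    · simp
      omega
    · have h6 : 1 ≤ Fintype.card F ^ (s + 1) := Nat.one_le_pow _ _ hq
      have h7 : Fintype.card F ^ (2 * (s + 1 + 1) - 1) =
          Fintype.card F ^ (s + 1) * Fintype.card F ^ (s + 1 + 1) := by
        rw [← pow_add]
        congr 1
        omega
      rw [h7]
      obtain ⟨c, hc'⟩ : ∃ c, Fintype.card F ^ (s + 1) = c + 1 :=
        ⟨Fintype.card F ^ (s + 1) - 1, by omega⟩
      rw [hc', Nat.add_sub_cancel, Nat.add_sub_cancel]
      ring

example : Cfsg.Agent.H77.Tm.StZerosM.{u, v} := zerosM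

end Cfsg.Agent.H11.Tm

#print axioms Cfsg.Agent.H11.Tm.zerosM
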