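import Mathlib
import Cfsg.Agent.H77.TpDefs

set_option autoImplicit false
open scoped MatrixGroups
open scoped Matrix
open scoped Kronecker

/-! S5980 piece VEC: the fixed vectors of `A ⊗ B` are the matrices `M` with `A M Bᵀ = M`. -/

namespace Cfsg.Agent.H11.Tp

open Cfsg.Agent.H77.Tp Module

universe u

theorem kron_mulVec_apply {F : Type*} [Field F] {a b : ℕ} (A : Matrix (Fin a) (Fin a) F)
    (B : Matrix (Fin b) (Fin b) F) (M : Matrix (Fin a) (Fin b) F) (i : Fin a) (j : Fin b) :
    ((A ⊗ₖ B) *ᵥ (fun p : Fin a × Fin b => M p.1 p.2)) (i, j) = (A * M * Bᵀ) i j := by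
  simp only [Matrix.mulVec, dotProduct, Matrix.kroneckerMap_apply, Matrix.mul_apply,
    Matrix.transpose_apply, Fintype.sum_prod_type]
  rw [Finset.sum_comm]
  apply Finset.sum_congr rfl
  intro j' _
  rw [Finset.sum_mul]
  apply Finset.sum_congr rfl
  intro i' _
  ring

/-- the linear equivalence between vectors indexed by pairs and matrices -/
def curryM (F : Type*) [Field F] (a b : ℕ) : (Fin a × Fin b → F) ≃ₗ[F] Matrix (Fin a) (Fin b) F where
  toFun v := Matrix.of (fun i j => v (i, j))
  invFun M := fun p => M p.1 p.2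
  map_add' := by intros; rfl
  map_smul' := by intros; rfl
  left_inv := by intro v; funext p; rfl
  right_inv := by intro M; rfl

theorem vec : StVec.{u} := by
  intro F _ a b A B
  classical
  have hrn := LinearMap.finrank_range_add_finrank_ker
    (A ⊗ₖ B - 1 : Matrix (Fin a × Fin b) (Fin a × Fin b) F).mulVecLin
  have hdim : Module.finrank F (Fin a × Fin b → F) = a * b := by
    rw [Module.finrank_pi]
    simp
  have hrank : (A ⊗ₖ B - 1).rank = Module.finrank F
      (LinearMap.range (A ⊗ₖ B - 1 : Matrix (Fin a × Fin b) (Fin a × Fin b) F).mulVecLin) := rfl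
  have hmap : intw A B =
      (LinearMap.ker (A ⊗ₖ B - 1 : Matrix (Fin a × Fin b) (Fin a × Fin b) F).mulVecLin).map
        (curryM F a b).toLinearMap := by
    ext M
    have hmem : M ∈ (LinearMap.ker
        (A ⊗ₖ B - 1 : Matrix (Fin a × Fin b) (Fin a × Fin b) F).mulVecLin).map
        (curryM F a b).toLinearMap ↔
        (A ⊗ₖ B) *ᵥ (fun p : Fin a × Fin b => M p.1 p.2) = (fun p : Fin a × Fin b => M p.1 p.2) := by
      constructor
      · rintro ⟨v, hv, rfl⟩
        rw [SetLike.mem_coe, LinearMap.mem_ker, Matrix.mulVecLin_apply, Matrix.sub_mulVec,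
          Matrix.one_mulVec, sub_eq_zero] at hv
        exact hv
      · intro h
        refine ⟨fun p : Fin a × Fin b => M p.1 p.2, ?_, rfl⟩
        rw [SetLike.mem_coe, LinearMap.mem_ker, Matrix.mulVecLin_apply, Matrix.sub_mulVec,
          Matrix.one_mulVec, sub_eq_zero]
        exact h
    rw [hmem]
    show A * M * Bᵀ = M ↔ _
    constructor
    · intro h
      funext p
      obtain ⟨i, j⟩ := p
      rw [kron_mulVec_apply, h]
    · intro h
      ext i j
      have := congrFun h (i, j)
      rw [kron_mulVec_apply] at this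
      exact this
  rw [hmap, LinearEquiv.finrank_map_eq, hrank, hrn, hdim]

example : Cfsg.Agent.H77.Tp.StVec.{u} := vec

end Cfsg.Agent.H11.Tp

#print axioms Cfsg.Agent.H11.Tp.vec
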