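import Mathlib
import Cfsg.Agent.H77.TqDefs

/-!
# S5978-AUTG (team project of helper77): S5975-AUT (helper54's `FxAut`) for an arbitrary index type

An element of the normalizer of a field subalgebra `K` of prime degree `k` whose `r`-th power is
scalar, `r ≠ k` prime, centralizes `K`.
-/

set_option autoImplicit false

namespace Cfsg.Agent.H11.Tq

open Cfsg Cfsg.Agent.H77.Tq Module

universe u v

/-- An automorphism `σ` of a finite field extension of prime degree with `σ ^ r = 1` for a prime
`r` different from the degree is trivial. -/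
theorem algEquiv_eq_one_of_pow {F : Type u} {E : Type v} [Field F] [Field E] [Finite E]
    [Algebra F E] (σ : E ≃ₐ[F] E) (r : ℕ) (hr : r.Prime) (hk : (Module.finrank F E).Prime)
    (hrk : r ≠ Module.finrank F E) (h : σ ^ r = 1) : σ = 1 := by
  have hfd : FiniteDimensional F E := Module.Finite.of_finite
  have hcard : Nat.card (E ≃ₐ[F] E) = Module.finrank F E := IsGalois.card_aut_eq_finrank F E
  have h1 : orderOf σ ∣ r := orderOf_dvd_of_pow_eq_one h
  have h2 : orderOf σ ∣ Module.finrank F E := by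
    rw [← hcard]
    exact orderOf_dvd_natCard σ
  have hcop : Nat.Coprime r (Module.finrank F E) := (Nat.coprime_primes hr hk).2 hrk
  have h3 : orderOf σ = 1 := Nat.eq_one_of_dvd_coprimes hcop h1 h2
  exact orderOf_eq_one_iff.1 h3

/-- The same for a ring that is a field. -/
theorem algEquiv_eq_one_of_pow_isField {F : Type u} {A : Type v} [Field F] [Ring A] [Finite A]
    [Algebra F A] (hA : IsField A) (σ : A ≃ₐ[F] A) (r : ℕ) (hr : r.Prime)
    (hk : (Module.finrank F A).Prime) (hrk : r ≠ Module.finrank F A) (h : σ ^ r = 1) :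
    σ = 1 := by
  let _ : Field A := hA.toField
  exact algEquiv_eq_one_of_pow σ r hr hk hrk h

/-- A field subalgebra of nonzero degree is a field. -/
theorem isField_of_fieldSubalgebra {F : Type u} [Field F] {ι : Type} [Fintype ι] [DecidableEq ι] {k : ℕ} (K : Subalgebra F (Matrix ι ι F))
    (hK : Cfsg.Geo.IsFieldSubalgebra k K) (hk : k ≠ 0) : IsField ↥K := by
  refine ⟨⟨0, 1, ?_⟩, ?_, ?_⟩
  · intro h01
    have hsub : Subsingleton ↥K := ⟨fun a b => by
      have ha : a = 0 := by rw [← mul_one a, ← h01, mul_zero]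
      have hb : b = 0 := by rw [← mul_one b, ← h01, mul_zero]
      rw [ha, hb]⟩
    have h0 := Module.finrank_zero_of_subsingleton (R := F) (M := ↥K)
    rw [hK.finrank_eq] at h0
    exact hk h0
  · intro a b
    exact Subtype.ext (hK.comm a a.2 b b.2)
  · intro a ha
    have ha' : (a : Matrix ι ι F) ≠ 0 := fun h => ha (Subtype.ext h)
    obtain ⟨b, hb, hab⟩ := hK.inv a a.2 ha'
    exact ⟨⟨b, hb⟩, Subtype.ext hab⟩

/-- Conjugation by an element of the normalizer, as an automorphism of `K`. -/
theorem exists_conjAut {F : Type u} [Field F] {ι : Type} [Fintype ι] [DecidableEq ι] (K : Subalgebra F (Matrix ι ι F))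
    (y : Matrix.GeneralLinearGroup ι F)
    (hy : y ∈ Cfsg.Geo.subalgebraNormalizer K) :
    ∃ σ : ↥K ≃ₐ[F] ↥K, ∀ a : ↥K, ((σ a : ↥K) : Matrix ι ι F) =
      (y : Matrix ι ι F) * a * ((y⁻¹ : Matrix.GeneralLinearGroup ι F) : Matrix ι ι F) := by
  have hy' : ∀ a : Matrix ι ι F, a ∈ K ↔ (y : Matrix ι ι F) * a *
      ((y⁻¹ : Matrix.GeneralLinearGroup ι F) : Matrix ι ι F) ∈ K := hy
  have hyinv : ∀ a : Matrix ι ι F, a ∈ K →
      ((y⁻¹ : Matrix.GeneralLinearGroup ι F) : Matrix ι ι F) * a * (y : Matrix ι ι F) ∈ K := by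
    intro a ha
    rw [hy' (((y⁻¹ : Matrix.GeneralLinearGroup ι F) : Matrix ι ι F) * a * (y : Matrix ι ι F))]
    have h1 : (y : Matrix ι ι F) *
        (((y⁻¹ : Matrix.GeneralLinearGroup ι F) : Matrix ι ι F) * a * (y : Matrix ι ι F)) *
        ((y⁻¹ : Matrix.GeneralLinearGroup ι F) : Matrix ι ι F) = a := by
      simp only [mul_assoc, Units.mul_inv, mul_one, Units.mul_inv_cancel_left]
    rw [h1]
    exact ha
  let f : ↥K →ₐ[F] ↥K :=
    { toFun := fun a => ⟨(y : Matrix ι ι F) * a *
        ((y⁻¹ : Matrix.GeneralLinearGroup ι F) : Matrix ι ι F), (hy' a).1 a.2⟩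
      map_one' := by
        apply Subtype.ext
        simp only [Subalgebra.coe_one, mul_one, Units.mul_inv]
      map_mul' := by
        intro a b
        apply Subtype.ext
        simp only [Subalgebra.coe_mul, mul_assoc, Units.inv_mul_cancel_left]
      map_zero' := by
        apply Subtype.ext
        simp only [Subalgebra.coe_zero, mul_zero, zero_mul]
      map_add' := by
        intro a b
        apply Subtype.ext
        simp only [Subalgebra.coe_add, mul_add, add_mul]
      commutes' := by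
        intro c
        apply Subtype.ext
        simp only [Subalgebra.coe_algebraMap]
        rw [← Algebra.commutes, mul_assoc, Units.mul_inv, mul_one] }
  have hf : ∀ a : ↥K, ((f a : ↥K) : Matrix ι ι F) = (y : Matrix ι ι F) * a *
      ((y⁻¹ : Matrix.GeneralLinearGroup ι F) : Matrix ι ι F) := fun a => rfl
  have hbij : Function.Bijective f := by
    constructor
    · intro a b hab
      have h1 := congrArg Subtype.val hab
      rw [hf, hf] at h1
      apply Subtype.ext
      have h2 : ((y⁻¹ : Matrix.GeneralLinearGroup ι F) : Matrix ι ι F) *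
          ((y : Matrix ι ι F) * a * ((y⁻¹ : Matrix.GeneralLinearGroup ι F) : Matrix ι ι F)) *
          (y : Matrix ι ι F) = a := by
        simp only [mul_assoc, Units.inv_mul, mul_one, Units.inv_mul_cancel_left]
      rw [← h2, h1]
      simp only [mul_assoc, Units.inv_mul, mul_one, Units.inv_mul_cancel_left]
    · intro b
      refine ⟨⟨_, hyinv b b.2⟩, ?_⟩
      apply Subtype.ext
      rw [hf]
      simp only [mul_assoc, Units.mul_inv, mul_one, Units.mul_inv_cancel_left]
  exact ⟨AlgEquiv.ofBijective f hbij, fun a => rfl⟩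

/-- Powers of the conjugation automorphism. -/
theorem conjAut_pow {F : Type u} [Field F] {ι : Type} [Fintype ι] [DecidableEq ι] (K : Subalgebra F (Matrix ι ι F))
    (σ : ↥K ≃ₐ[F] ↥K) (y : Matrix.GeneralLinearGroup ι F)
    (hσ : ∀ a : ↥K, ((σ a : ↥K) : Matrix ι ι F) =
      (y : Matrix ι ι F) * a * ((y⁻¹ : Matrix.GeneralLinearGroup ι F) : Matrix ι ι F))
    (n : ℕ) (a : ↥K) : (((σ ^ n) a : ↥K) : Matrix ι ι F) =
      ((y ^ n : Matrix.GeneralLinearGroup ι F) : Matrix ι ι F) * a *
        (((y ^ n)⁻¹ : Matrix.GeneralLinearGroup ι F) : Matrix ι ι F) := by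
  induction n generalizing a with
  | zero => simp
  | succ n ih =>
    rw [pow_succ' σ n, AlgEquiv.mul_apply, hσ, ih, pow_succ' y n, mul_inv_rev, Units.val_mul,
      Units.val_mul]
    simp only [mul_assoc]

/-- S5978-AUTG. -/
theorem autG : StAutG.{u} := by
  intro F _ _ ι _ _ k K hK hk y r z hy hr hrk hyr a ha
  obtain ⟨σ, hσ⟩ := exists_conjAut K y hy
  have hfield : IsField ↥K := isField_of_fieldSubalgebra K hK hk.ne_zero
  have hfin : (Module.finrank F ↥K).Prime := by rw [hK.finrank_eq]; exact hk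
  have hrk' : r ≠ Module.finrank F ↥K := by rw [hK.finrank_eq]; exact hrk
  have hpow : σ ^ r = 1 := by
    ext b
    rw [conjAut_pow K σ y hσ r b, AlgEquiv.one_apply, hyr]
    have h1 : (z • (1 : Matrix ι ι F)) * (b : Matrix ι ι F) = (b : Matrix ι ι F) * (z • (1 : Matrix ι ι F)) := by
      rw [smul_mul_assoc, one_mul, mul_smul_comm, mul_one]
    rw [h1, ← hyr, mul_assoc, Units.mul_inv, mul_one]
  have hσ1 := algEquiv_eq_one_of_pow_isField hfield σ r hr hfin hrk' hpow
  have h2 := hσ ⟨a, ha⟩
  rw [hσ1, AlgEquiv.one_apply] at h2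
  calc (y : Matrix ι ι F) * a = (y : Matrix ι ι F) * a *
        (((y⁻¹ : Matrix.GeneralLinearGroup ι F) : Matrix ι ι F) * (y : Matrix ι ι F)) := by
        rw [Units.inv_mul, mul_one]
    _ = ((y : Matrix ι ι F) * a *
        ((y⁻¹ : Matrix.GeneralLinearGroup ι F) : Matrix ι ι F)) * (y : Matrix ι ι F) := by
        simp only [mul_assoc]
    _ = a * (y : Matrix ι ι F) := by rw [← h2]

example : StAutG.{u} := autG

end Cfsg.Agent.H11.Tq

#print axioms Cfsg.Agent.H11.Tq.autG
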