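import Mathlib

/-!
# helper11: piece IDX1 of S5982 (helper99's project) — pure arithmetic
-/

set_option autoImplicit false
set_option linter.unusedVariables false

namespace Cfsg.Agent.H11.Uni

theorem idx1_mul_sub (x : ℕ) (h1 : 1 ≤ x) : (x + 1) * (x - 1) = x * x - 1 := by
  obtain ⟨y, rfl⟩ := Nat.exists_eq_add_of_le' h1
  have h2 : (y + 1) * (y + 1) = (y + 1 + 1) * y + 1 := by ring
  rw [h2]
  simp

theorem idx1_prod (Q n : ℕ) :
    ∏ i ∈ Finset.range n, (Q ^ n - Q ^ i) =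
      Q ^ (n * (n - 1) / 2) * ∏ i ∈ Finset.range n, (Q ^ (i + 1) - 1) := by
  have h1 : ∀ i ∈ Finset.range n, Q ^ n - Q ^ i = Q ^ i * (Q ^ (n - 1 - i + 1) - 1) := by
    intro i hi
    rw [Finset.mem_range] at hi
    have h2 : n - 1 - i + 1 = n - i := by omega
    rw [h2, Nat.mul_sub, mul_one, ← pow_add]
    congr 2; omega
  rw [Finset.prod_congr rfl h1, Finset.prod_mul_distrib, Finset.prod_pow_eq_pow_sum,
    Finset.sum_range_id]
  congr 1
  exact Finset.prod_range_reflect (fun i => Q ^ (i + 1) - 1) n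

theorem even_order_of_dvd (q₀ n r : ℕ) (hq₀ : 2 ≤ q₀) (hr : r.Prime) (hr2 : r ≠ 2)
    (hrq : ¬ r ∣ q₀)
    (h : r * (q₀ ^ (n * (n - 1) / 2) *
        ∏ i ∈ Finset.range n, (if Even i then q₀ ^ (i + 1) + 1 else q₀ ^ (i + 1) - 1)) * (q₀ - 1)
      ∣ ∏ i : Fin n, ((q₀ ^ 2) ^ n - (q₀ ^ 2) ^ (i : ℕ))) :
    Even (orderOf (-(q₀ : ZMod r))) := by
  have : Fact r.Prime := ⟨hr⟩
  let a : ℕ → ℕ := fun i => if Even i then q₀ ^ (i + 1) + 1 else q₀ ^ (i + 1) - 1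
  let b : ℕ → ℕ := fun i => if Even i then q₀ ^ (i + 1) - 1 else q₀ ^ (i + 1) + 1
  have hab : ∀ i, (q₀ ^ 2) ^ (i + 1) - 1 = a i * b i := by
    intro i
    have h1 : 1 ≤ q₀ ^ (i + 1) := Nat.one_le_pow _ _ (by omega)
    have h2 : (q₀ ^ 2) ^ (i + 1) = q₀ ^ (i + 1) * q₀ ^ (i + 1) := by ring
    show _ = (if Even i then q₀ ^ (i + 1) + 1 else q₀ ^ (i + 1) - 1) *
      (if Even i then q₀ ^ (i + 1) - 1 else q₀ ^ (i + 1) + 1)
    rw [h2, ← idx1_mul_sub _ h1]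
    split_ifs
    · rfl
    · rw [mul_comm]
  have hapos : ∀ i, 0 < a i := by
    intro i
    have h1 : 2 ≤ q₀ ^ (i + 1) := by
      calc 2 ≤ q₀ := hq₀
        _ = q₀ ^ 1 := (pow_one _).symm
        _ ≤ q₀ ^ (i + 1) := Nat.pow_le_pow_right (by omega) (by omega)
    show 0 < (if Even i then q₀ ^ (i + 1) + 1 else q₀ ^ (i + 1) - 1)
    split_ifs <;> omega
  have hR : ∏ i : Fin n, ((q₀ ^ 2) ^ n - (q₀ ^ 2) ^ (i : ℕ)) =
      q₀ ^ (n * (n - 1) / 2) * q₀ ^ (n * (n - 1) / 2) *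
        ((∏ i ∈ Finset.range n, a i) * ∏ i ∈ Finset.range n, b i) := by
    rw [Fin.prod_univ_eq_prod_range (fun i => (q₀ ^ 2) ^ n - (q₀ ^ 2) ^ i) n, idx1_prod,
      Finset.prod_congr rfl (fun i _ => hab i), Finset.prod_mul_distrib]
    ring
  have hL : (∏ i ∈ Finset.range n, (if Even i then q₀ ^ (i + 1) + 1 else q₀ ^ (i + 1) - 1)) =
      ∏ i ∈ Finset.range n, a i := rfl
  rw [hR, hL] at h
  rcases n with _ | k
  · simp only [Finset.range_zero, Finset.prod_empty] at h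
    have h1 : r ∣ 1 := dvd_trans (Dvd.intro _ (by ring : r * (q₀ ^ (0 * (0 - 1) / 2) * 1 * (q₀ - 1)) = _)) h
    exact absurd (Nat.dvd_one.mp h1) hr.ne_one
  · have hb0 : b 0 = q₀ - 1 := by
      show (if Even 0 then q₀ ^ (0 + 1) - 1 else q₀ ^ (0 + 1) + 1) = q₀ - 1
      rw [if_pos Even.zero, zero_add, pow_one]
    rw [Finset.prod_range_succ' b k, hb0] at h
    set m := (k + 1) * (k + 1 - 1) / 2 with hm
    set A := ∏ i ∈ Finset.range (k + 1), a i with hA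
    set B := ∏ i ∈ Finset.range k, b (i + 1) with hB
    have hApos : 0 < A := Finset.prod_pos (fun i _ => hapos i)
    have hX : 0 < q₀ ^ m * A * (q₀ - 1) := by
      have h1 : 0 < q₀ ^ m := by positivity
      have h2 : 0 < q₀ - 1 := by omega
      positivity
    have h' : r * (q₀ ^ m * A * (q₀ - 1)) ∣ (q₀ ^ m * B) * (q₀ ^ m * A * (q₀ - 1)) := by
      have e1 : r * (q₀ ^ m * A) * (q₀ - 1) = r * (q₀ ^ m * A * (q₀ - 1)) := by ring
      have e2 : q₀ ^ m * q₀ ^ m * (A * (B * (q₀ - 1))) = (q₀ ^ m * B) * (q₀ ^ m * A * (q₀ - 1)) := by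
        ring
      rw [← e1, ← e2]; exact h
    have hrY : r ∣ q₀ ^ m * B := Nat.dvd_of_mul_dvd_mul_right hX h'
    have hrB : r ∣ B := by
      rcases (Nat.Prime.dvd_mul hr).mp hrY with h1 | h1
      · exact absurd (hr.dvd_of_dvd_pow h1) hrq
      · exact h1
    obtain ⟨i, hi, hdvd⟩ := (Prime.dvd_finsetProd_iff hr.prime _).mp hrB
    have key : (-(q₀ : ZMod r)) ^ (i + 2) = -1 := by
      by_cases he : Even (i + 1)
      · have hb1 : b (i + 1) = q₀ ^ (i + 1 + 1) - 1 := if_pos he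
        rw [hb1] at hdvd
        have h1 : 1 ≤ q₀ ^ (i + 1 + 1) := Nat.one_le_pow _ _ (by omega)
        have h0 : ((q₀ ^ (i + 1 + 1) - 1 : ℕ) : ZMod r) = 0 :=
          (ZMod.natCast_eq_zero_iff _ _).mpr hdvd
        rw [Nat.cast_sub h1, Nat.cast_pow, Nat.cast_one, sub_eq_zero] at h0
        have hodd : Odd (i + 2) := Even.add_one he
        rw [Odd.neg_pow hodd, h0]
      · have hb1 : b (i + 1) = q₀ ^ (i + 1 + 1) + 1 := if_neg he
        rw [hb1] at hdvd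
        have h0 : ((q₀ ^ (i + 1 + 1) + 1 : ℕ) : ZMod r) = 0 :=
          (ZMod.natCast_eq_zero_iff _ _).mpr hdvd
        push_cast at h0
        have heven : Even (i + 2) := Odd.add_one (Nat.not_even_iff_odd.mp he)
        rw [Even.neg_pow heven]
        exact eq_neg_of_add_eq_zero_left h0
    by_contra hodd
    rw [Nat.not_even_iff_odd] at hodd
    have h1 : ((-(q₀ : ZMod r)) ^ (i + 2)) ^ orderOf (-(q₀ : ZMod r)) = 1 := by
      rw [← pow_mul, mul_comm, pow_mul, pow_orderOf_eq_one, one_pow]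
    rw [key, Odd.neg_one_pow hodd] at h1
    have h2 : (2 : ZMod r) = 0 := by linear_combination (-1 : ZMod r) * h1
    have h3 : r ∣ 2 := (ZMod.natCast_eq_zero_iff 2 r).mp (by exact_mod_cast h2)
    exact hr2 ((Nat.prime_dvd_prime_iff_eq hr Nat.prime_two).mp h3)

example (q₀ n r : ℕ) (hq₀ : 2 ≤ q₀) (hr : r.Prime) (hr2 : r ≠ 2)
    (hrq : ¬ r ∣ q₀)
    (h : r * (q₀ ^ (n * (n - 1) / 2) *
        ∏ i ∈ Finset.range n, (if Even i then q₀ ^ (i + 1) + 1 else q₀ ^ (i + 1) - 1)) * (q₀ - 1)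
      ∣ ∏ i : Fin n, ((q₀ ^ 2) ^ n - (q₀ ^ 2) ^ (i : ℕ))) :
    Even (orderOf (-(q₀ : ZMod r))) := even_order_of_dvd q₀ n r hq₀ hr hr2 hrq h

end Cfsg.Agent.H11.Uni

#print axioms Cfsg.Agent.H11.Uni.even_order_of_dvd
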