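import Mathlib
import Cfsg.Prelude.Def_GeometricClasses
import Cfsg.Prelude.Def_LieClassical
import Cfsg.Agent.H7.Unitary

/-!
# helper11: piece IDX2 of S5982 (helper99's project) — core

`|SL : Sim ∩ SL| * |GU_n(q₀)| * (q₀ - 1)` divides `|GL_n(q₀²)|`, given an orthonormal basis
for the unitary form.
-/

set_option autoImplicit false
set_option linter.unusedSectionVars false
set_option linter.unusedVariables false

open scoped MatrixGroups

namespace Cfsg.Agent.H11.Uni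

variable {F : Type*} [Field F] [Fintype F]

theorem idx2_conj_mem {q₀ n : ℕ} (f : (Fin n → F) → (Fin n → F) → F)
    (B : Matrix (Fin n) (Fin n) F)
    (hfB : ∀ u v : Fin n → F, f (B.mulVec u) (B.mulVec v) = ∑ i, u i * (v i) ^ q₀)
    (Bg : GL (Fin n) F) (hBg : (Bg : Matrix (Fin n) (Fin n) F) = B)
    (g : GL (Fin n) F) (hg : g ∈ Cfsg.GU n F q₀) :
    Bg * g * Bg⁻¹ ∈ Cfsg.Geo.similarityGroup f := by
  refine ⟨1, fun u v => ?_⟩
  have hu : ∀ w : Fin n → F,
      ((Bg * g * Bg⁻¹ : GL (Fin n) F) : Matrix (Fin n) (Fin n) F).mulVec w =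
        B.mulVec ((g : Matrix (Fin n) (Fin n) F).mulVec
          (((Bg⁻¹ : GL (Fin n) F) : Matrix (Fin n) (Fin n) F).mulVec w)) := by
    intro w
    rw [Units.val_mul, Units.val_mul, hBg, ← Matrix.mulVec_mulVec, ← Matrix.mulVec_mulVec]
  have hw : ∀ w : Fin n → F,
      w = B.mulVec (((Bg⁻¹ : GL (Fin n) F) : Matrix (Fin n) (Fin n) F).mulVec w) := by
    intro w
    rw [Matrix.mulVec_mulVec, ← hBg, ← Units.val_mul, mul_inv_cancel, Units.val_one,
      Matrix.one_mulVec]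
  rw [hu u, hu v, hfB, Units.val_one, one_mul]
  conv_rhs => rw [hw u, hw v, hfB]
  exact hg _ _

theorem idx2_core {q₀ n : ℕ} (hF : Fintype.card F = q₀ ^ 2) (hn : 1 ≤ n)
    (f : (Fin n → F) → (Fin n → F) → F)
    (hONB : ∃ B : Matrix (Fin n) (Fin n) F, IsUnit B.det ∧
      ∀ u v : Fin n → F, f (B.mulVec u) (B.mulVec v) = ∑ i, u i * (v i) ^ q₀) :
    (Cfsg.Geo.similarityGroup f).relIndex (Cfsg.Geo.specialLinear (Fin n) F)
      * Nat.card (Cfsg.GU n F q₀) * (q₀ - 1) ∣ Nat.card (GL (Fin n) F) := by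
  classical
  obtain ⟨B, hB, hfB⟩ := hONB
  have hq := Cfsg.Agent.H7.two_le_of_card_sq hF
  obtain ⟨Bg, hBg⟩ : ∃ Bg : GL (Fin n) F, (Bg : Matrix (Fin n) (Fin n) F) = B :=
    ⟨((Matrix.isUnit_iff_isUnit_det B).mpr hB).unit, IsUnit.unit_spec _⟩
  let det : GL (Fin n) F →* Fˣ := Matrix.GeneralLinearGroup.det
  have hSLdef : Cfsg.Geo.specialLinear (Fin n) F = det.ker := rfl
  let detU : Cfsg.GU n F q₀ →* Fˣ := det.comp (Cfsg.GU n F q₀).subtype
  let ψ : Cfsg.GU n F q₀ →* GL (Fin n) F :=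
    (MulAut.conj Bg).toMonoidHom.comp (Cfsg.GU n F q₀).subtype
  have hψ : Function.Injective ψ :=
    (MulAut.conj Bg).injective.comp Subtype.val_injective
  have hKle : detU.ker.map ψ ≤
      Cfsg.Geo.similarityGroup f ⊓ Cfsg.Geo.specialLinear (Fin n) F := by
    rintro _ ⟨x, hx, rfl⟩
    refine ⟨idx2_conj_mem f B hfB Bg hBg x.1 x.2, ?_⟩
    show Bg * x.1 * Bg⁻¹ ∈ det.ker
    rw [MonoidHom.mem_ker, map_mul, map_mul, map_inv, mul_comm, ← mul_assoc, inv_mul_cancel,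
      one_mul]
    exact hx
  have h1 : Nat.card (Cfsg.Geo.specialLinear (Fin n) F) * (q₀ ^ 2 - 1) =
      Nat.card (GL (Fin n) F) := by
    have hsurj : Function.Surjective det := by
      intro z
      refine ⟨Cfsg.Agent.H7.glDiagOne (⟨0, hn⟩ : Fin n) (z : F) z.ne_zero, ?_⟩
      show Matrix.GeneralLinearGroup.det (Cfsg.Agent.H7.glDiagOne (⟨0, hn⟩ : Fin n) (z : F) z.ne_zero) = z
      rw [Cfsg.Agent.H7.det_glDiagOne]
      exact Units.ext rfl
    have h := Subgroup.card_mul_index det.ker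
    have hcF : Nat.card F = q₀ ^ 2 := by rw [Nat.card_eq_fintype_card, hF]
    rw [Subgroup.index_ker, MonoidHom.range_eq_top.mpr hsurj, Subgroup.card_top, Nat.card_units,
      hcF] at h
    rw [hSLdef]; exact h
  have h2 : Nat.card ↥(Cfsg.Geo.similarityGroup f ⊓ Cfsg.Geo.specialLinear (Fin n) F) *
      (Cfsg.Geo.similarityGroup f).relIndex (Cfsg.Geo.specialLinear (Fin n) F) =
      Nat.card (Cfsg.Geo.specialLinear (Fin n) F) := by
    have h := Subgroup.relIndex_mul_relIndex (⊥ : Subgroup (GL (Fin n) F))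
      (Cfsg.Geo.similarityGroup f ⊓ Cfsg.Geo.specialLinear (Fin n) F)
      (Cfsg.Geo.specialLinear (Fin n) F) bot_le inf_le_right
    rwa [Subgroup.relIndex_bot_left, Subgroup.relIndex_bot_left, Subgroup.inf_relIndex_right] at h
  have h3 : Nat.card detU.ker ∣
      Nat.card ↥(Cfsg.Geo.similarityGroup f ⊓ Cfsg.Geo.specialLinear (Fin n) F) := by
    rw [← Subgroup.card_map_of_injective hψ]
    exact Subgroup.card_dvd_of_le hKle
  have h5 : Nat.card (Cfsg.GU n F q₀) ∣ Nat.card detU.ker * (q₀ + 1) := by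
    have hc := Subgroup.card_mul_index detU.ker
    rw [Subgroup.index_ker] at hc
    have hle : detU.range ≤ (powMonoidHom (q₀ + 1) : Fˣ →* Fˣ).ker := by
      rintro _ ⟨g, rfl⟩
      rw [MonoidHom.mem_ker, powMonoidHom_apply]
      apply Units.ext
      have h := Cfsg.Agent.H7.GUI_det_pow hF g.1 g.2
      simpa [detU, det] using h
    have hd := Subgroup.card_dvd_of_le hle
    rw [Cfsg.Agent.H7.card_norm_one_units hF] at hd
    rw [← hc]
    exact Nat.mul_dvd_mul_left _ hd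
  have hfac : q₀ ^ 2 - 1 = (q₀ + 1) * (q₀ - 1) := by
    have h1' : 1 ≤ q₀ := by omega
    zify [h1', Nat.one_le_pow 2 q₀ h1']
    ring
  rw [← h1, ← h2, hfac]
  obtain ⟨a, ha⟩ := h3
  obtain ⟨b, hb⟩ := h5
  refine ⟨a * b, ?_⟩
  rw [ha]
  calc Nat.card detU.ker * a *
        (Cfsg.Geo.similarityGroup f).relIndex (Cfsg.Geo.specialLinear (Fin n) F) *
        ((q₀ + 1) * (q₀ - 1))
      = (Nat.card detU.ker * (q₀ + 1)) *
        (a * (Cfsg.Geo.similarityGroup f).relIndex (Cfsg.Geo.specialLinear (Fin n) F) *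
          (q₀ - 1)) := by ring
    _ = (Nat.card (Cfsg.GU n F q₀) * b) *
        (a * (Cfsg.Geo.similarityGroup f).relIndex (Cfsg.Geo.specialLinear (Fin n) F) *
          (q₀ - 1)) := by rw [hb]
    _ = (Cfsg.Geo.similarityGroup f).relIndex (Cfsg.Geo.specialLinear (Fin n) F) *
        Nat.card (Cfsg.GU n F q₀) * (q₀ - 1) * (a * b) := by ring

end Cfsg.Agent.H11.Uni

#print axioms Cfsg.Agent.H11.Uni.idx2_core
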