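import Mathlib
import Cfsg.Prelude.Def_GeometricClasses
import Cfsg.Prelude.Def_LieClassical
import Cfsg.Agent.H11.UniIDX2Core
import Cfsg.Agent.H69.UniONB

/-!
# helper11: piece IDX2 of S5982 (helper99's project)
-/

set_option autoImplicit false

open scoped MatrixGroups

namespace Cfsg.Agent.H11.Uni

variable {F : Type*} [Field F] [Fintype F]

theorem relIndex_mul_card_GU_dvd {q₀ n : ℕ} (hF : Fintype.card F = q₀ ^ 2) (hn : 1 ≤ n)
    (f : (Fin n → F) → (Fin n → F) → F) (hf : Cfsg.Geo.IsUnitaryFormPow q₀ f) :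
    (Cfsg.Geo.similarityGroup f).relIndex (Cfsg.Geo.specialLinear (Fin n) F)
      * Nat.card (Cfsg.GU n F q₀) * (q₀ - 1) ∣ Nat.card (GL (Fin n) F) :=
  idx2_core hF hn f (Cfsg.Agent.H69.Uni.exists_orthonormal_basis hF f hf)

example {q₀ n : ℕ} (hF : Fintype.card F = q₀ ^ 2) (hn : 1 ≤ n)
    (f : (Fin n → F) → (Fin n → F) → F) (hf : Cfsg.Geo.IsUnitaryFormPow q₀ f) :
    (Cfsg.Geo.similarityGroup f).relIndex (Cfsg.Geo.specialLinear (Fin n) F)
      * Nat.card (Cfsg.GU n F q₀) * (q₀ - 1) ∣ Nat.card (GL (Fin n) F) :=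
  relIndex_mul_card_GU_dvd hF hn f hf

end Cfsg.Agent.H11.Uni

#print axioms Cfsg.Agent.H11.Uni.relIndex_mul_card_GU_dvd
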