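import Cfsg.Agent.S0617
import Cfsg.Agent.H14.TFail
import Cfsg.Agent.H58.UqDefs

/-!
# UQ-SABS (piece of S2950, helper58): `[V, K]` is normalized by `J(X)`

Transport to the holomorph of `V` (helper14's `Holo`), Glauberman's structure theorem S0617 for
the image `H` of `J(X)`: `V = C_V(H) × Π W_i`, `W_i = [V, E_i]` of order 4.  The image of `K` has
order 3; an element `x` of it acts nontrivially on some `W_i`, hence without fixed points, so
`W_i = [W_i, x] ≤ [V, K]`, and both have order 4.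
-/

set_option autoImplicit false
open Cfsg
open scoped commutatorElement Pointwise

universe u

namespace Cfsg.Agent.H11.Uq

open Cfsg.Agent.H58.Uq Cfsg.Agent.H14.Holo

theorem four_elts {Y : Type u} [Group Y] (W : Subgroup Y) (h4 : Nat.card ↥W = 4) (a b c : Y)
    (ha : a ∈ W) (hb : b ∈ W) (hc : c ∈ W) (ha1 : a ≠ 1) (hb1 : b ≠ 1) (hc1 : c ≠ 1)
    (hab : a ≠ b) (hac : a ≠ c) (hbc : b ≠ c) : ∀ w ∈ W, w = 1 ∨ w = a ∨ w = b ∨ w = c := by
  classical
  intro w hw
  by_contra hcon
  push Not at hcon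
  obtain ⟨hw1, hwa, hwb, hwc⟩ := hcon
  have hfin : (W : Set Y).Finite := by
    have : Finite ↥W := Nat.finite_of_card_ne_zero (by rw [h4]; norm_num)
    exact Set.toFinite _
  have h5 : ({1, a, b, c, w} : Finset Y).card = 5 := by
    have n1 : (1 : Y) ∉ ({a, b, c, w} : Finset Y) := by
      simp only [Finset.mem_insert, Finset.mem_singleton, not_or]
      exact ⟨Ne.symm ha1, Ne.symm hb1, Ne.symm hc1, Ne.symm hw1⟩
    have n2 : a ∉ ({b, c, w} : Finset Y) := by
      simp only [Finset.mem_insert, Finset.mem_singleton, not_or]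
      exact ⟨hab, hac, Ne.symm hwa⟩
    have n3 : b ∉ ({c, w} : Finset Y) := by
      simp only [Finset.mem_insert, Finset.mem_singleton, not_or]
      exact ⟨hbc, Ne.symm hwb⟩
    have n4 : c ∉ ({w} : Finset Y) := by
      simp only [Finset.mem_singleton]
      exact Ne.symm hwc
    rw [Finset.card_insert_of_notMem n1, Finset.card_insert_of_notMem n2,
      Finset.card_insert_of_notMem n3, Finset.card_insert_of_notMem n4, Finset.card_singleton]
  have hsub : ((({1, a, b, c, w} : Finset Y) : Set Y)) ⊆ (W : Set Y) := by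
    intro y hy
    simp only [Finset.coe_insert, Finset.coe_singleton, Set.mem_insert_iff,
      Set.mem_singleton_iff] at hy
    rcases hy with rfl | rfl | rfl | rfl | rfl
    · exact W.one_mem
    · exact ha
    · exact hb
    · exact hc
    · exact hw
  have h6 := Set.ncard_le_ncard hsub hfin
  rw [Set.ncard_coe_finset, h5] at h6
  have h7 : (W : Set Y).ncard = 4 := by
    rw [← h4]
    exact (Nat.card_coe_set_eq (W : Set Y)).symm
  omega

/-- an element with trivial cube acting nontrivially on a four-group of exponent 2 acts without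
fixed points, so every element is a commutator -/
theorem fpf_four {Y : Type u} [Group Y] (W : Subgroup Y) (h4 : Nat.card ↥W = 4)
    (h2 : ∀ w ∈ W, w * w = 1) (x : Y) (hx3 : x ^ 3 = 1) (hxW : ∀ w ∈ W, x * w * x⁻¹ ∈ W)
    (b : Y) (hb : b ∈ W) (hxb : x * b * x⁻¹ ≠ b) :
    ∀ w ∈ W, ∃ u ∈ W, w = x * u * x⁻¹ * u⁻¹ := by
  have hcomm : ∀ u ∈ W, ∀ v ∈ W, u * v = v * u := by
    intro u hu v hv
    have h1 := h2 (u * v) (W.mul_mem hu hv)
    have hu' := h2 u hu
    have hv' := h2 v hv
    symm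
    calc v * u = (u * u) * (v * u) * (v * v) := by rw [hu', hv']; group
      _ = u * ((u * v) * (u * v)) * v := by group
      _ = u * v := by rw [h1]; group
  have hinv : ∀ u ∈ W, u⁻¹ = u := fun u hu => inv_eq_of_mul_eq_one_right (h2 u hu)
  obtain ⟨b', hb'def⟩ : ∃ b' : Y, b' = x * b * x⁻¹ := ⟨_, rfl⟩
  obtain ⟨b'', hb''def⟩ : ∃ b'' : Y, b'' = x * b' * x⁻¹ := ⟨_, rfl⟩
  have hb' : b' ∈ W := by rw [hb'def]; exact hxW b hb
  have hb'' : b'' ∈ W := by rw [hb''def]; exact hxW b' hb'
  have h3 : x * b'' * x⁻¹ = b := by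
    rw [hb''def, hb'def]
    have hx3' : x * x * x = 1 := by rw [← hx3, pow_succ, pow_succ, pow_one]
    calc x * (x * (x * b * x⁻¹) * x⁻¹) * x⁻¹ = (x * x * x) * b * (x * x * x)⁻¹ := by group
      _ = b := by rw [hx3']; group
  have d1 : b' ≠ b := by rw [hb'def]; exact hxb
  have d2 : b'' ≠ b' := by
    intro h
    apply d1
    have h5 : x * b' * x⁻¹ = b' := by rw [← hb''def]; exact h
    rw [h] at h3
    rw [← h3, h5]
  have d3 : b ≠ b'' := by
    intro h
    apply d1
    rw [← h] at h3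
    rw [hb'def, h3]
  have e1 : b ≠ 1 := by
    intro h
    apply d1
    rw [hb'def, h]
    group
  have e2 : b' ≠ 1 := by
    intro h
    apply d2
    rw [hb''def, h]
    group
  have e3 : b'' ≠ 1 := by
    intro h
    apply d3
    rw [← h3, h]
    group
  have henum := four_elts W h4 b b' b'' hb hb' hb'' e1 e2 e3 (Ne.symm d1) d3 (Ne.symm d2)
  -- the product is fixed
  have hP : b * b' * b'' = 1 := by
    have hPW : b * b' * b'' ∈ W := W.mul_mem (W.mul_mem hb hb') hb''
    have hfix : x * (b * b' * b'') * x⁻¹ = b * b' * b'' := by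
      calc x * (b * b' * b'') * x⁻¹ = (x * b * x⁻¹) * (x * b' * x⁻¹) * (x * b'' * x⁻¹) := by group
        _ = b' * b'' * b := by rw [← hb'def, ← hb''def, h3]
        _ = b * (b' * b'') := hcomm _ (W.mul_mem hb' hb'') _ hb
        _ = b * b' * b'' := by group
    rcases henum _ hPW with h | h | h | h
    · exact h
    · exfalso
      rw [h] at hfix
      exact hxb hfix
    · exfalso
      rw [h] at hfix
      apply d2
      rw [hb''def]
      exact hfix
    · exfalso
      rw [h] at hfix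
      apply d3
      rw [← h3]
      exact hfix
  have hb''eq : b'' = b' * b := by
    have h1 : b'' = (b * b')⁻¹ := eq_inv_of_mul_eq_one_right hP
    rw [h1, mul_inv_rev, hinv b hb, hinv b' hb']
  intro w hw
  rcases henum w hw with h | h | h | h
  · exact ⟨1, W.one_mem, by rw [h]; group⟩
  · refine ⟨b', hb', ?_⟩
    rw [h, ← hb''def, hinv b' hb', hb''eq]
    calc b = b * (b' * b') := by rw [h2 b' hb', mul_one]
      _ = b * b' * b' := by group
      _ = b' * b * b' := by rw [hcomm b hb b' hb']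
  · refine ⟨b'', hb'', ?_⟩
    rw [h, h3, hinv b'' hb'', hb''eq]
    calc b' = b' * (b * b) := by rw [h2 b hb, mul_one]
      _ = b' * b * b := by group
      _ = b * (b' * b) := hcomm _ (W.mul_mem hb' hb) _ hb
  · refine ⟨b, hb, ?_⟩
    rw [h, ← hb'def, hinv b hb, hb''eq]

theorem conj_comm_mem {Y : Type u} [Group Y] (A B : Subgroup Y) (g : Y)
    (hA : ∀ a ∈ A, g * a * g⁻¹ ∈ A) (hB : ∀ b ∈ B, g * b * g⁻¹ ∈ B) :
    ∀ w ∈ ⁅A, B⁆, g * w * g⁻¹ ∈ ⁅A, B⁆ := by
  have h1 : ⁅A, B⁆ ≤ (⁅A, B⁆).comap (MulAut.conj g).toMonoidHom := by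
    rw [Subgroup.commutator_le]
    intro a ha b hb
    rw [Subgroup.mem_comap]
    show g * ⁅a, b⁆ * g⁻¹ ∈ ⁅A, B⁆
    have e : g * ⁅a, b⁆ * g⁻¹ = ⁅g * a * g⁻¹, g * b * g⁻¹⁆ := by
      rw [commutatorElement_def, commutatorElement_def]
      group
    rw [e]
    exact Subgroup.commutator_mem_commutator (hA a ha) (hB b hb)
  intro w hw
  exact h1 hw

/-- UQ-SABS. -/
theorem sAbs : StSAbs.{u} := by
  intro X _ _ V _ hV hsep hO' K O hKJ hOK hOC hidx hc4
  haveI : Fact (Nat.Prime 2) := ⟨Nat.prime_two⟩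
  haveI hJn := thompsonSubgroup_normal 2 X
  have hV' := Vh_elemAb V hV
  haveI hVhn := Vh_normal V
  have hHV : (thompsonSubgroup 2 X).map (psi V) ≤
      Subgroup.normalizer ((Vh V : Subgroup (Hol V)) : Set (Hol V)) := by
    rw [Subgroup.normalizer_eq_top]
    exact le_top
  have hHR : (thompsonSubgroup 2 X).map (psi V) ≤ (psi V).range := by
    rintro _ ⟨j, -, rfl⟩
    exact ⟨j, rfl⟩
  have hf : (thompsonSubgroup 2 X).map (psi V) ⊓
      Subgroup.centralizer ((Vh V : Subgroup (Hol V)) : Set (Hol V)) = ⊥ := by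
    rw [eq_bot_iff, ← range_faithful V]
    exact inf_le_inf_right _ hHR
  have hnorm : (psi V).range ≤
      Subgroup.normalizer (((thompsonSubgroup 2 X).map (psi V) : Subgroup (Hol V)) :
        Set (Hol V)) := by
    rintro _ ⟨g, rfl⟩
    rw [Subgroup.mem_normalizer_iff]
    intro h
    constructor
    · rintro ⟨j, hj, rfl⟩
      refine ⟨g * j * g⁻¹, hJn.conj_mem j hj g, ?_⟩
      simp
    · rintro ⟨j, hj, hjh⟩
      refine ⟨g⁻¹ * j * g, ?_, ?_⟩
      · have := hJn.conj_mem j hj g⁻¹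
        simpa using this
      · rw [map_mul, map_mul, hjh, map_inv]
        group
  have hS1 := hS1_of_normal (p := 2) (psi V).range ((thompsonSubgroup 2 X).map (psi V)) hHR hnorm
    (range_isPSolvable V hsep) (range_pCore_eq_bot V hO')
  have hS3 : (thompsonSubgroup 2 X).map (psi V) = ⨆ A : {A : Subgroup (Hol V) //
      A ≤ (thompsonSubgroup 2 X).map (psi V) ∧ IsBestOffenderOn 2 (Vh V) A},
        (A : Subgroup (Hol V)) := by
    apply le_antisymm
    · conv_lhs => unfold Cfsg.thompsonSubgroup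
      rw [Subgroup.map_le_iff_le_comap]
      apply sSup_le
      intro A hA
      rw [← Subgroup.map_le_iff_le_comap]
      exact le_iSup (fun A : {A : Subgroup (Hol V) //
        A ≤ (thompsonSubgroup 2 X).map (psi V) ∧ IsBestOffenderOn 2 (Vh V) A} =>
          (A : Subgroup (Hol V)))
        ⟨A.map (psi V), Subgroup.map_mono (le_sSup hA), bestOffender_map V hV hA⟩
    · exact iSup_le fun A => A.2.1
  -- `K` is not inside the kernel
  have hKC : ¬ K ≤ (psi V).ker := by
    intro h
    rw [psi_ker] at h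
    have h1 : ⁅V, K⁆ = ⊥ := by
      rw [Subgroup.commutator_comm]
      exact Subgroup.commutator_eq_bot_iff_le_centralizer.mpr h
    rw [h1, Subgroup.card_bot] at hc4
    omega
  have hH1 : (thompsonSubgroup 2 X).map (psi V) ≠ ⊥ := by
    intro h
    apply hKC
    intro k hk
    rw [MonoidHom.mem_ker]
    have : psi V k ∈ (thompsonSubgroup 2 X).map (psi V) := Subgroup.mem_map_of_mem _ (hKJ hk)
    rw [h, Subgroup.mem_bot] at this
    exact this
  obtain ⟨ι, E, hE, hVsup⟩ : ∃ (ι : Type u) (E : ι → Subgroup (Hol V)),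
      (∀ i, (thompsonSubgroup 2 X).map (psi V) ≤
          Subgroup.normalizer ((E i : Subgroup (Hol V)) : Set (Hol V)) ∧
        Nonempty (↥(E i) ≃* Matrix.SpecialLinearGroup (Fin 2) (ZMod 2)) ∧
        Nat.card ↥(⁅Vh V, E i⁆) = 2 ^ 2) ∧
      (Vh V ⊓ Subgroup.centralizer (((thompsonSubgroup 2 X).map (psi V) : Subgroup (Hol V)) :
        Set (Hol V))) ⊔ (⨆ i, ⁅Vh V, E i⁆) = Vh V := by
    obtain ⟨-, hE, -, -, -, hVsup⟩ := Cfsg.Agent.S0617.result (Vh V)
      ((thompsonSubgroup 2 X).map (psi V)) hV' hHV hf hS1 hS3 hH1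
    exact ⟨_, _, hE, hVsup⟩
  -- an element of `K` with nontrivial image of order 3
  obtain ⟨x, hxK, hx1⟩ : ∃ x ∈ K, psi V x ≠ 1 := by
    by_contra hcon
    push Not at hcon
    exact hKC (fun k hk => MonoidHom.mem_ker.mpr (hcon k hk))
  have hx3 : (psi V x) ^ 3 = 1 := by
    have h1 := Subgroup.relIndex_ker (K := K) (psi V)
    have h2 : (psi V).ker.relIndex K ∣ O.relIndex K :=
      Subgroup.relIndex_dvd_of_le_left K (by rw [psi_ker]; exact hOC)
    rw [h1, hidx] at h2
    obtain ⟨m, hm⟩ := h2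
    have h3 : (⟨psi V x, Subgroup.mem_map_of_mem _ hxK⟩ : ↥(K.map (psi V))) ^
        Nat.card ↥(K.map (psi V)) = 1 := pow_card_eq_one'
    have h4 := congrArg Subtype.val h3
    rw [Subgroup.coe_pow, Subgroup.coe_one] at h4
    rw [hm, pow_mul, h4, one_pow]
  have hxH : psi V x ∈ (thompsonSubgroup 2 X).map (psi V) := Subgroup.mem_map_of_mem _ (hKJ hxK)
  -- elements of `H` normalize the `W i`
  have hHW : ∀ h ∈ (thompsonSubgroup 2 X).map (psi V), ∀ i, ∀ w ∈ ⁅Vh V, E i⁆,
      h * w * h⁻¹ ∈ ⁅Vh V, E i⁆ := by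
    intro h hh i
    apply conj_comm_mem
    · intro a ha
      exact hVhn.conj_mem a ha h
    · intro b hb
      exact (Subgroup.mem_normalizer_iff.mp ((hE i).1 hh) b).mp hb
  -- some `W i` is not centralized by the image of `x`
  obtain ⟨i, b, hbW, hxb⟩ : ∃ i, ∃ b ∈ ⁅Vh V, E i⁆, psi V x * b * (psi V x)⁻¹ ≠ b := by
    by_contra hcon
    push Not at hcon
    apply hx1
    have h1 : psi V x ∈ (thompsonSubgroup 2 X).map (psi V) ⊓
        Subgroup.centralizer ((Vh V : Subgroup (Hol V)) : Set (Hol V)) := by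
      refine ⟨hxH, ?_⟩
      have h2 : Vh V ≤ Subgroup.centralizer ({psi V x} : Set (Hol V)) := by
        rw [← hVsup]
        apply sup_le
        · intro v hv
          rw [Subgroup.mem_centralizer_iff]
          intro y hy
          rw [Set.mem_singleton_iff] at hy
          rw [hy]
          exact (Subgroup.mem_centralizer_iff.mp hv.2 (psi V x) hxH)
        · apply iSup_le
          intro i v hv
          rw [Subgroup.mem_centralizer_iff]
          intro y hy
          rw [Set.mem_singleton_iff] at hy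
          rw [hy]
          have h3 := hcon i v hv
          calc psi V x * v = psi V x * v * (psi V x)⁻¹ * psi V x := by group
            _ = v * psi V x := by rw [h3]
      show psi V x ∈ Subgroup.centralizer ((Vh V : Subgroup (Hol V)) : Set (Hol V))
      rw [Subgroup.mem_centralizer_iff]
      intro v hv
      exact ((Subgroup.mem_centralizer_iff.mp (h2 hv)) (psi V x) rfl).symm
    rw [hf, Subgroup.mem_bot] at h1
    exact h1
  have hW4 : Nat.card ↥(⁅Vh V, E i⁆) = 4 := by
    rw [(hE i).2.2]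
    norm_num
  have hWle : ⁅Vh V, E i⁆ ≤ Vh V := Subgroup.commutator_le_left _ _
  have hW2 : ∀ w ∈ ⁅Vh V, E i⁆, w * w = 1 := by
    intro w hw
    rw [← pow_two]
    exact hV'.2 w (hWle hw)
  have hfpf := fpf_four (⁅Vh V, E i⁆) hW4 hW2 (psi V x) hx3 (hHW _ hxH i) b hbW hxb
  -- the preimage in `V` of `W i`
  obtain ⟨T, hTdef⟩ : ∃ T : Subgroup X, T = ((⁅Vh V, E i⁆).comap
      (SemidirectProduct.inl : ↥V →* Hol V)).map V.subtype := ⟨_, rfl⟩
  have hTcard : Nat.card ↥T = 4 := by
    rw [hTdef, Subgroup.card_map_of_injective V.subtype_injective]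
    have h1 : ((⁅Vh V, E i⁆).comap (SemidirectProduct.inl : ↥V →* Hol V)).map
        (SemidirectProduct.inl : ↥V →* Hol V) = ⁅Vh V, E i⁆ := by
      rw [Subgroup.map_comap_eq, inf_eq_right]
      exact hWle
    rw [← Subgroup.card_map_of_injective
      (SemidirectProduct.inl_injective (φ := MonoidHom.id (MulAut ↥V))), h1, hW4]
  have hTmem : ∀ t : X, t ∈ T ↔ ∃ ht : t ∈ V,
      (SemidirectProduct.inl (⟨t, ht⟩ : ↥V) : Hol V) ∈ ⁅Vh V, E i⁆ := by
    intro t
    rw [hTdef]
    constructor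
    · rintro ⟨v, hv, rfl⟩
      exact ⟨v.2, hv⟩
    · rintro ⟨ht, h⟩
      exact ⟨⟨t, ht⟩, h, rfl⟩
  have hTle : T ≤ ⁅V, K⁆ := by
    intro t ht
    obtain ⟨htV, htW⟩ := (hTmem t).mp ht
    obtain ⟨u, huW, hu⟩ := hfpf _ htW
    obtain ⟨u0, rfl⟩ := hWle huW
    rw [psi_conj, ← map_inv, ← map_mul] at hu
    have h1 := SemidirectProduct.inl_injective (φ := MonoidHom.id (MulAut ↥V)) hu
    have h2 := congrArg Subtype.val h1
    rw [Subgroup.coe_mul, MulAut.conjNormal_apply, Subgroup.coe_inv] at h2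
    simp only at h2
    rw [h2, Subgroup.commutator_comm]
    have h3 := Subgroup.commutator_mem_commutator hxK u0.2
    rw [commutatorElement_def] at h3
    exact h3
  have hTeq : T = ⁅V, K⁆ :=
    Subgroup.eq_of_le_of_card_ge hTle (by rw [hTcard, hc4])
  rw [← hTeq]
  -- `J(X)` normalizes `T`
  have hconj : ∀ j ∈ thompsonSubgroup 2 X, ∀ t ∈ T, j * t * j⁻¹ ∈ T := by
    intro j hj t ht
    obtain ⟨htV, htW⟩ := (hTmem t).mp ht
    rw [hTmem]
    refine ⟨Subgroup.Normal.conj_mem inferInstance t htV j, ?_⟩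
    have h1 := hHW (psi V j) (Subgroup.mem_map_of_mem _ hj) i _ htW
    rw [psi_conj] at h1
    exact h1
  intro j hj
  rw [Subgroup.mem_normalizer_iff]
  intro t
  constructor
  · exact hconj j hj t
  · intro ht
    have h1 := hconj j⁻¹ (Subgroup.inv_mem _ hj) _ ht
    have e : j⁻¹ * (j * t * j⁻¹) * j⁻¹⁻¹ = t := by group
    rw [e] at h1
    exact h1

example : StSAbs.{u} := sAbs

#print axioms sAbs

end Cfsg.Agent.H11.Uq
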