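import Mathlib
import Cfsg.Agent.H74.W2PDefs

/-!
# S0720-LA10a (helper11, for helper74): the dimension of the centralizer algebra of a transitive
permutation group is the number of orbits of a point stabilizer.
-/

set_option autoImplicit false

namespace Cfsg.Agent.H11.W2P

open Cfsg.Agent.H74.W2P Equiv MulAction

variable {Ω : Type*} [Fintype Ω] [DecidableEq Ω]

/-- S0720-LA10a. -/
theorem finrank_centSub {G : Subgroup (Perm Ω)} (hG : IsPretransitive G Ω) (a₀ : Ω) :
    Module.finrank ℂ ↥(centSub G) = Nat.card (orbitRel.Quotient (stabilizer G a₀) Ω) := by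
  classical
  have hex : ∀ i : Ω, ∃ g : G, g • a₀ = i := fun i => MulAction.exists_smul_eq G a₀ i
  choose tr htr using hex
  have hinv : ∀ (A : Matrix Ω Ω ℂ), CentC G A → ∀ (h : stabilizer G a₀) (ω : Ω),
      A a₀ (h • ω) = A a₀ ω := by
    intro A hA h ω
    have h1 := hA ((h : G) : Perm Ω) (h : G).2 a₀ ω
    have h2 : ((h : G) : Perm Ω) a₀ = a₀ := h.2
    rw [h2] at h1
    exact h1
  let Φ : centSub G →ₗ[ℂ] (orbitRel.Quotient (stabilizer G a₀) Ω → ℂ) :=
    { toFun := fun A q => (A : Matrix Ω Ω ℂ) a₀ q.out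
      map_add' := fun A B => by
        funext q
        rfl
      map_smul' := fun c A => by
        funext q
        rfl }
  have hΦ : ∀ (A : centSub G) (q : orbitRel.Quotient (stabilizer G a₀) Ω),
      Φ A q = (A : Matrix Ω Ω ℂ) a₀ q.out := fun A q => rfl
  have hinj : Function.Injective Φ := by
    rw [injective_iff_map_eq_zero]
    intro A hA0
    apply Subtype.ext
    have hA : CentC G (A : Matrix Ω Ω ℂ) := A.2
    ext i j
    have h1 := hA ((tr i : G) : Perm Ω) (tr i).2 a₀ (((tr i)⁻¹ : G) • j)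
    have e1 : ((tr i : G) : Perm Ω) a₀ = i := htr i
    have e2 : ((tr i : G) : Perm Ω) (((tr i)⁻¹ : G) • j) = j := smul_inv_smul (tr i) j
    rw [e1, e2] at h1
    rw [h1]
    obtain ⟨ω, hω⟩ : ∃ ω : Ω, ω = ((tr i)⁻¹ : G) • j := ⟨_, rfl⟩
    rw [← hω]
    have h3 : (Quotient.mk'' (Quotient.mk'' ω : orbitRel.Quotient (stabilizer G a₀) Ω).out :
        orbitRel.Quotient (stabilizer G a₀) Ω) = Quotient.mk'' ω := Quotient.out_eq' _
    have h4 := Quotient.exact' h3
    change (Quotient.mk'' ω : orbitRel.Quotient (stabilizer G a₀) Ω).out ∈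
      orbit (stabilizer G a₀) ω at h4
    obtain ⟨h, hh⟩ := h4
    have h5 := hinv (A : Matrix Ω Ω ℂ) hA h ω
    have h6 := congrFun hA0 (Quotient.mk'' ω)
    rw [hΦ] at h6
    have hh' : h • ω = (Quotient.mk'' ω : orbitRel.Quotient (stabilizer G a₀) Ω).out := hh
    rw [← hh', h5] at h6
    rw [h6]
    rfl
  have hsurj : Function.Surjective Φ := by
    intro φ
    have hC : CentC G (Matrix.of fun i j =>
        φ (Quotient.mk'' (((tr i)⁻¹ : G) • j))) := by
      intro g hg i j
      simp only [Matrix.of_apply]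
      congr 1
      apply Quotient.sound'
      change ((tr (g i))⁻¹ : G) • g j ∈ orbit (stabilizer G a₀) (((tr i)⁻¹ : G) • j)
      have hmem : ((tr (g i))⁻¹ * ⟨g, hg⟩ * tr i : G) ∈ stabilizer G a₀ := by
        rw [mem_stabilizer_iff, mul_smul, mul_smul, htr i]
        have h1 : (⟨g, hg⟩ : G) • i = g i := rfl
        rw [h1]
        exact inv_smul_eq_iff.mpr (htr (g i)).symm
      refine ⟨⟨_, hmem⟩, ?_⟩
      change ((tr (g i))⁻¹ * ⟨g, hg⟩ * tr i : G) • (((tr i)⁻¹ : G) • j) =
        ((tr (g i))⁻¹ : G) • g j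
      rw [mul_smul, smul_inv_smul, mul_smul]
      rfl
    refine ⟨⟨_, hC⟩, ?_⟩
    funext q
    rw [hΦ]
    change φ (Quotient.mk'' (((tr a₀)⁻¹ : G) • q.out)) = φ q
    have hmem : ((tr a₀)⁻¹ : G) ∈ stabilizer G a₀ := by
      rw [mem_stabilizer_iff]
      exact inv_smul_eq_iff.mpr (htr a₀).symm
    have h1 : (Quotient.mk'' (((tr a₀)⁻¹ : G) • q.out) :
        orbitRel.Quotient (stabilizer G a₀) Ω) = Quotient.mk'' q.out := by
      apply Quotient.sound'
      change ((tr a₀)⁻¹ : G) • q.out ∈ orbit (stabilizer G a₀) q.out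
      exact ⟨⟨_, hmem⟩, rfl⟩
    rw [h1, Quotient.out_eq']
  have e := LinearEquiv.ofBijective Φ ⟨hinj, hsurj⟩
  have : Fintype (orbitRel.Quotient (stabilizer G a₀) Ω) := Fintype.ofFinite _
  rw [e.finrank_eq, Module.finrank_fintype_fun_eq_card, Nat.card_eq_fintype_card]

end Cfsg.Agent.H11.W2P

section Check
open Cfsg.Agent.H74.W2P Equiv MulAction
variable {Ω : Type*} [Fintype Ω] [DecidableEq Ω]
example {G : Subgroup (Perm Ω)} (hG : IsPretransitive G Ω) (a₀ : Ω) :
    Module.finrank ℂ ↥(centSub G) = Nat.card (orbitRel.Quotient (stabilizer G a₀) Ω) :=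
  Cfsg.Agent.H11.W2P.finrank_centSub hG a₀
end Check

#print axioms Cfsg.Agent.H11.W2P.finrank_centSub
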