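import Mathlib
import Cfsg.Agent.H74.W2PDefs
import Cfsg.Agent.H37.W2PLA1

/-!
# S0720-LA6 (helper11, for helper74): `Uperp ⊓ Vh h` is a line if `U0 ⊓ Vh (-h)` is one.
-/

set_option autoImplicit false

namespace Cfsg.Agent.H11.W2P

open Cfsg.Agent.H74.W2P Equiv MulAction

variable {Ω : Type*} [Fintype Ω] [DecidableEq Ω]

theorem conj_zeta (p : ℕ) : (starRingEnd ℂ) (zeta p) = (zeta p)⁻¹ := by
  unfold zeta
  rw [← Complex.exp_conj, ← Complex.exp_neg]
  congr 1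
  simp only [map_div₀, map_mul, map_ofNat, Complex.conj_ofReal, Complex.conj_I, map_natCast]
  ring

theorem zeta_val_neg (p : ℕ) [NeZero p] (h : ZMod p) :
    zeta p ^ h.val * zeta p ^ (-h).val = 1 := by
  rw [← pow_add]
  have h1 : ((h.val + (-h).val : ℕ) : ZMod p) = 0 := by
    rw [Nat.cast_add, ZMod.natCast_zmod_val, ZMod.natCast_zmod_val, add_neg_cancel]
  rw [ZMod.natCast_eq_zero_iff] at h1
  obtain ⟨c, hc⟩ := h1
  rw [hc, pow_mul, Cfsg.Agent.H37.W2P.zeta_pow_self (NeZero.ne p), one_pow]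

/-- the `(-h)`-average of the translates of `σ ∘ g` -/
noncomputable def uAvg (x : Perm Ω) (a₀ : Ω) (p : ℕ) (h : ZMod p) (g : Perm Ω) : Ω → ℂ :=
  fun ω => ∑ k ∈ Finset.range p, zeta p ^ (h.val * k) * sig x a₀ (g ((x ^ k) ω))

theorem uAvg_mem_U0 {G : Subgroup (Perm Ω)} {x : Perm Ω} (hx : x ∈ G) (a₀ : Ω) (p : ℕ)
    (h : ZMod p) {g : Perm Ω} (hg : g ∈ G) : uAvg x a₀ p h g ∈ U0 G x a₀ := by
  have h1 : uAvg x a₀ p h g = ∑ k ∈ Finset.range p,
      zeta p ^ (h.val * k) • (fun ω => sig x a₀ ((g * x ^ k) ω)) := by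
    funext ω
    simp only [uAvg, Finset.sum_apply, Pi.smul_apply, smul_eq_mul, Perm.mul_apply]
  rw [h1]
  exact Submodule.sum_mem _ (fun k _ => Submodule.smul_mem _ _
    (Submodule.subset_span ⟨g * x ^ k, G.mul_mem hg (G.pow_mem hx k), rfl⟩))

theorem uAvg_mem_Vh {x : Perm Ω} (a₀ : Ω) (p : ℕ) [NeZero p] (hxp : x ^ p = 1)
    (h : ZMod p) (g : Perm Ω) : uAvg x a₀ p h g ∈ Vh x p (-h) := by
  intro ω
  have hζp := Cfsg.Agent.H37.W2P.zeta_pow_self (NeZero.ne p)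
  obtain ⟨E, hE⟩ : ∃ E : ℕ → ℂ, ∀ k, E k = zeta p ^ (h.val * k) * sig x a₀ (g ((x ^ k) ω)) :=
    ⟨_, fun _ => rfl⟩
  have h1 : zeta p ^ h.val * uAvg x a₀ p h g (x ω) = ∑ k ∈ Finset.range p, E (k + 1) := by
    simp only [uAvg, Finset.mul_sum]
    refine Finset.sum_congr rfl (fun k _ => ?_)
    rw [hE, pow_succ x k, Perm.mul_apply, mul_add, mul_one, pow_add]
    ring
  have h2 : ∑ k ∈ Finset.range p, E (k + 1) + E 0 = ∑ k ∈ Finset.range p, E k + E p :=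
    (Finset.sum_range_succ' E p).symm.trans (Finset.sum_range_succ E p)
  have h3 : E p = E 0 := by
    rw [hE, hE, hxp, pow_mul', hζp, one_pow, mul_zero, pow_zero, pow_zero]
  have h4 : zeta p ^ h.val * uAvg x a₀ p h g (x ω) = uAvg x a₀ p h g ω := by
    rw [h1]
    have h5 : ∑ k ∈ Finset.range p, E (k + 1) = ∑ k ∈ Finset.range p, E k := by
      rw [h3] at h2
      exact add_right_cancel h2
    rw [h5]
    simp only [uAvg, hE]
  have h5 := zeta_val_neg p h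
  calc uAvg x a₀ p h g (x ω)
      = (zeta p ^ h.val * zeta p ^ (-h).val) * uAvg x a₀ p h g (x ω) := by rw [h5, one_mul]
    _ = zeta p ^ (-h).val * (zeta p ^ h.val * uAvg x a₀ p h g (x ω)) := by ring
    _ = zeta p ^ (-h).val * uAvg x a₀ p h g ω := by rw [h4]

/-- the averaging identity -/
theorem sum_mul_uAvg {x : Perm Ω} (a₀ : Ω) (p : ℕ) (h : ZMod p) (g : Perm Ω) {f : Ω → ℂ}
    (hf : f ∈ Vh x p h) :
    ∑ ω, f ω * uAvg x a₀ p h g ω = (p : ℂ) * ∑ ω, f ω * sig x a₀ (g ω) := by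
  have hf' : ∀ ω, f (x ω) = zeta p ^ h.val * f ω := hf
  have hT : ∀ k : ℕ, zeta p ^ (h.val * k) * ∑ ω, f ω * sig x a₀ (g ((x ^ k) ω)) =
      ∑ ω, f ω * sig x a₀ (g ω) := by
    intro k
    induction k with
    | zero => simp
    | succ k ih =>
      rw [← ih]
      have h1 : ∑ ω, f ω * sig x a₀ (g ((x ^ k) ω)) =
          ∑ ω, f (x ω) * sig x a₀ (g ((x ^ k) (x ω))) :=
        (Equiv.sum_comp x (fun ω => f ω * sig x a₀ (g ((x ^ k) ω)))).symm
      rw [h1]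
      have h2 : ∀ ω, f (x ω) * sig x a₀ (g ((x ^ k) (x ω))) =
          zeta p ^ h.val * (f ω * sig x a₀ (g ((x ^ (k + 1)) ω))) := by
        intro ω
        rw [hf' ω, pow_succ x k, Perm.mul_apply]
        ring
      simp only [h2, ← Finset.mul_sum]
      rw [mul_add, mul_one, pow_add]
      ring
  simp only [uAvg, Finset.mul_sum]
  rw [Finset.sum_comm]
  have h3 : ∀ k ∈ Finset.range p,
      ∑ ω, f ω * (zeta p ^ (h.val * k) * sig x a₀ (g ((x ^ k) ω))) =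
        ∑ ω, f ω * sig x a₀ (g ω) := by
    intro k _
    rw [← hT k, Finset.mul_sum]
    refine Finset.sum_congr rfl (fun ω _ => by ring)
  rw [Finset.sum_congr rfl h3]
  simp [Finset.mul_sum]

theorem dimW_aux {G : Subgroup (Perm Ω)} {p : ℕ} {x : Perm Ω} (hyp : Hyp G p x) (a₀ : Ω)
    (hV : ∀ h : ZMod p, Module.finrank ℂ ↥(Vh x p h) = 2)
    (hU : DimU G p x a₀) : DimW G p x a₀ := by
  intro h hh
  have hp0 : p ≠ 0 := hyp.hp.ne_zero
  have hNZ : NeZero p := ⟨hp0⟩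
  have hxp : x ^ p = 1 := by
    rw [← hyp.hxord]
    exact pow_orderOf_eq_one x
  have hU1 := hU (-h) (neg_ne_zero.mpr hh)
  obtain ⟨u₀, hu₀ne, hu₀span⟩ := finrank_eq_one_iff'.mp hU1
  have hu₀U : (u₀ : Ω → ℂ) ∈ U0 G x a₀ := u₀.2.1
  have hu₀V : ∀ ω, (u₀ : Ω → ℂ) (x ω) = zeta p ^ (-h).val * (u₀ : Ω → ℂ) ω := u₀.2.2
  have hu₀ne' : (u₀ : Ω → ℂ) ≠ 0 := fun h0 => hu₀ne (Subtype.ext h0)
  -- membership in `Uperp` is tested against `u₀`
  have hA : ∀ f ∈ Vh x p h, (f ∈ Uperp G x a₀ ↔ ∑ ω, f ω * (u₀ : Ω → ℂ) ω = 0) := by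
    intro f hf
    constructor
    · intro hfU
      have key : ∀ u ∈ U0 G x a₀, ∑ ω, f ω * u ω = 0 := by
        intro u hu
        refine Submodule.span_induction ?_ ?_ ?_ ?_ hu
        · rintro _ ⟨g, hg, rfl⟩
          exact hfU g hg
        · simp
        · intro u v _ _ hu hv
          simp only [Pi.add_apply, mul_add, Finset.sum_add_distrib, hu, hv, add_zero]
        · intro c u _ hu
          have h1 : ∀ ω, f ω * ((c • u) ω) = c * (f ω * u ω) := fun ω => by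
            simp only [Pi.smul_apply, smul_eq_mul]
            ring
          simp only [h1, ← Finset.mul_sum, hu, mul_zero]
      exact key _ hu₀U
    · intro hB g hg
      have hmem : uAvg x a₀ p h g ∈ U0 G x a₀ ⊓ Vh x p (-h) :=
        ⟨uAvg_mem_U0 hyp.hxG a₀ p h hg, uAvg_mem_Vh a₀ p hxp h g⟩
      obtain ⟨c, hc⟩ := hu₀span ⟨_, hmem⟩
      have hc' : uAvg x a₀ p h g = c • (u₀ : Ω → ℂ) := by
        have h1 := congrArg Subtype.val hc
        exact h1.symm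
      have hBu : ∑ ω, f ω * uAvg x a₀ p h g ω = 0 := by
        rw [hc']
        have h1 : ∀ ω, f ω * ((c • (u₀ : Ω → ℂ)) ω) = c * (f ω * (u₀ : Ω → ℂ) ω) := fun ω => by
          simp only [Pi.smul_apply, smul_eq_mul]
          ring
        simp only [h1, ← Finset.mul_sum, hB, mul_zero]
      rw [sum_mul_uAvg a₀ p h g hf] at hBu
      have hpC : (p : ℂ) ≠ 0 := Nat.cast_ne_zero.mpr hp0
      exact (mul_eq_zero.mp hBu).resolve_left hpC
  -- the functional on `Vh h`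
  let φ : ↥(Vh x p h) →ₗ[ℂ] ℂ :=
    { toFun := fun f => ∑ ω, (f : Ω → ℂ) ω * (u₀ : Ω → ℂ) ω
      map_add' := fun f f' => by
        simp only [Submodule.coe_add, Pi.add_apply, add_mul, Finset.sum_add_distrib]
      map_smul' := fun c f => by
        simp only [Submodule.coe_smul, Pi.smul_apply, smul_eq_mul, RingHom.id_apply, mul_assoc,
          Finset.mul_sum] }
  have hφ : ∀ f : ↥(Vh x p h), φ f = ∑ ω, (f : Ω → ℂ) ω * (u₀ : Ω → ℂ) ω := fun f => rfl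
  have hsurj : Function.Surjective φ := by
    have hf₀ : (fun ω => (starRingEnd ℂ) ((u₀ : Ω → ℂ) ω)) ∈ Vh x p h := by
      intro ω
      change (starRingEnd ℂ) ((u₀ : Ω → ℂ) (x ω)) =
        zeta p ^ h.val * (starRingEnd ℂ) ((u₀ : Ω → ℂ) ω)
      rw [hu₀V ω, map_mul, map_pow, conj_zeta, inv_pow]
      congr 1
      exact (eq_inv_of_mul_eq_one_left (zeta_val_neg p h)).symm
    have hc : φ ⟨_, hf₀⟩ ≠ 0 := by
      rw [hφ]
      change ∑ ω, (starRingEnd ℂ) ((u₀ : Ω → ℂ) ω) * (u₀ : Ω → ℂ) ω ≠ 0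
      have h1 : ∀ ω, (starRingEnd ℂ) ((u₀ : Ω → ℂ) ω) * (u₀ : Ω → ℂ) ω =
          ((Complex.normSq ((u₀ : Ω → ℂ) ω) : ℝ) : ℂ) := fun ω =>
        (Complex.normSq_eq_conj_mul_self).symm
      simp only [h1]
      rw [← Complex.ofReal_sum]
      intro h0
      have h2 : ∑ ω, Complex.normSq ((u₀ : Ω → ℂ) ω) = 0 := by exact_mod_cast h0
      rw [Finset.sum_eq_zero_iff_of_nonneg (fun ω _ => Complex.normSq_nonneg _)] at h2
      apply hu₀ne'
      funext ω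
      exact Complex.normSq_eq_zero.mp (h2 ω (Finset.mem_univ ω))
    intro z
    refine ⟨(z / φ ⟨_, hf₀⟩) • ⟨_, hf₀⟩, ?_⟩
    rw [map_smul, smul_eq_mul, div_mul_cancel₀ _ hc]
  have hrn := LinearMap.finrank_range_add_finrank_ker φ
  rw [LinearMap.range_eq_top.mpr hsurj, finrank_top, Module.finrank_self, hV h] at hrn
  have hker : Module.finrank ℂ ↥(LinearMap.ker φ) = 1 := by omega
  have hmap : (LinearMap.ker φ).map (Vh x p h).subtype = Uperp G x a₀ ⊓ Vh x p h := by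
    ext f
    constructor
    · rintro ⟨y, hy, rfl⟩
      have hy' : φ y = 0 := hy
      exact ⟨(hA _ y.2).mpr (by rw [← hφ]; exact hy'), y.2⟩
    · rintro ⟨hf1, hf2⟩
      exact ⟨⟨f, hf2⟩, (hA f hf2).mp hf1, rfl⟩
  rw [← hmap, Submodule.finrank_map_subtype_eq]
  exact hker

/-- S0720-LA6. -/
theorem dimW {G : Subgroup (Perm Ω)} {p : ℕ} {x : Perm Ω} (hyp : Hyp G p x) (a₀ : Ω)
    (hU : DimU G p x a₀) : DimW G p x a₀ :=
  dimW_aux hyp a₀ (fun h => Cfsg.Agent.H37.W2P.finrank_Vh hyp h) hU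

end Cfsg.Agent.H11.W2P

section Check
open Cfsg.Agent.H74.W2P Equiv MulAction
variable {Ω : Type*} [Fintype Ω] [DecidableEq Ω]
example {G : Subgroup (Perm Ω)} {p : ℕ} {x : Perm Ω} (hyp : Hyp G p x) (a₀ : Ω)
    (hU : DimU G p x a₀) : DimW G p x a₀ := Cfsg.Agent.H11.W2P.dimW hyp a₀ hU
end Check

#print axioms Cfsg.Agent.H11.W2P.dimW
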